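import Mathlib
import Cfsg.Prelude.Def_GeometricClasses
import Cfsg.Agent.Helper71.SQDefs
import Cfsg.Agent.Helper94.Tens
import Cfsg.Agent.Helper94.SpGen
import Cfsg.Agent.Helper94.SORED

/-!
helper88: piece RED of CALL S5867 (helper71): transport of the "Kronecker or all pure
transvections" dichotomy on `GL (Fin k × Fin n) F` to the maximality of the tensor product
subgroup `Sp_k ⊗ O_n` in `Sp_{kn}`.  Adapted from helper94's `SORED` (the case `k = 2`), with the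
Gram matrix `J` of `f₁` in place of `d • J2`.  One extra (last) hypothesis `k ≠ 0`: the statement
is false for `k = 0`.
-/

set_option autoImplicit false
set_option linter.unusedVariables false

namespace Cfsg.Agent.Helper88.SQRED

open Matrix Cfsg.Agent.Helper71.T4 Cfsg.Agent.Helper71.SO Cfsg.Agent.Helper71.SQ
open Cfsg.Agent.Helper94.SORED
open scoped Kronecker

theorem sqred_kron {F : Type*} [Field F] {k n : ℕ} (J : Matrix (Fin k) (Fin k) F)
    (S : Matrix (Fin n) (Fin n) F)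
    (A : Matrix (Fin k) (Fin k) F) (B : Matrix (Fin n) (Fin n) F) (ν μ : F)
    (hA : Aᵀ * J * A = ν • J) (hB : Bᵀ * S * B = μ • S) (hνμ : ν * μ = 1) :
    IsSpG J S (A ⊗ₖ B) := by
  unfold IsSpG OmG
  rw [← Matrix.kroneckerMap_transpose, ← Matrix.mul_kronecker_mul, ← Matrix.mul_kronecker_mul,
    hA, hB, Matrix.smul_kronecker, Matrix.kronecker_smul, smul_smul, hνμ, one_smul]

theorem sqred_spg {F : Type*} [Field F] {k n : ℕ} (J : Matrix (Fin k) (Fin k) F)
    (S : Matrix (Fin n) (Fin n) F)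
    (g : Matrix (Fin k × Fin n) (Fin k × Fin n) F) :
    IsSpG J S g ↔ ∀ x y : Fin k × Fin n → F,
      (g *ᵥ x) ⬝ᵥ OmG J S *ᵥ (g *ᵥ y) = x ⬝ᵥ OmG J S *ᵥ y := by
  have key : ∀ x y : Fin k × Fin n → F,
      (g *ᵥ x) ⬝ᵥ OmG J S *ᵥ (g *ᵥ y) = x ⬝ᵥ (gᵀ * OmG J S * g) *ᵥ y := by
    intro x y
    rw [← Matrix.mulVec_mulVec, ← Matrix.mulVec_mulVec, Matrix.dotProduct_mulVec x gᵀ,
      Matrix.vecMul_transpose]
  constructor
  · intro h x y
    rw [key, h]
  · intro h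
    apply sored_ext
    intro x y
    rw [← key, h]

/-- PIECE RED -/
theorem red {F : Type*} [Field F] [Fintype F] (m k n : ℕ) (hn : 3 ≤ n)
    (hodd : Odd (Fintype.card F))
    (e : (Fin m ⊕ Fin m) ≃ Fin k × Fin n) (P : Matrix.GeneralLinearGroup (Fin m ⊕ Fin m) F)
    (f₁ : (Fin k → F) → (Fin k → F) → F) (f₂ : (Fin n → F) → (Fin n → F) → F)
    (h₁ : Cfsg.Geo.IsSymplecticForm f₁) (h₂ : Cfsg.Geo.IsSymmetricForm f₂)
    (hT : Cfsg.Geo.IsTensorFormStructure id (Cfsg.sympForm m F) f₁ f₂ e P)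
    (hmain : ∀ (J : Matrix (Fin k) (Fin k) F) (S : Matrix (Fin n) (Fin n) F), Jᵀ = -J →
      J.det ≠ 0 → Sᵀ = S → S.det ≠ 0 →
      ∀ M : Subgroup (GL (Fin k × Fin n) F), SpLEG J S M → HasHG J S M →
        (∀ g ∈ M, IsKron (g : Matrix (Fin k × Fin n) (Fin k × Fin n) F)) ∨ TvPG J S M)
    (hcen : ∀ (J : Matrix (Fin k) (Fin k) F) (S : Matrix (Fin n) (Fin n) F), Jᵀ = -J →
      J.det ≠ 0 → Sᵀ = S → S.det ≠ 0 →
      ∀ C : Set (Fin k × Fin n → F),
        (∀ (a : Fin k → F) (s : Fin n → F), bl S s s = 0 → pt a s ∈ C) →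
        (∀ v v' : Fin k × Fin n → F, v ∈ C → v' ∈ C → v ⬝ᵥ OmG J S *ᵥ v' ≠ 0 → v + v' ∈ C) →
        ∀ v : Fin k × Fin n → F, v ∈ C)
    (hk : k ≠ 0) :
    Cfsg.Geo.IsMaximalIn (Cfsg.spGL m F)
      (Cfsg.Geo.tensorProductSubgroup k n e P ⊓ Cfsg.spGL m F) := by
  classical
  obtain ⟨ψ, hψ⟩ : ∃ ψ : GL (Fin k × Fin n) F ≃* GL (Fin m ⊕ Fin m) F,
      ψ = (Cfsg.Geo.glReindex e.symm).trans (MulAut.conj P) := ⟨_, rfl⟩
  have hTP : Cfsg.Geo.tensorProductSubgroup k n e P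
      = (Cfsg.Geo.kroneckerSubgroup k n F).map ψ.toMonoidHom := by
    unfold Cfsg.Geo.tensorProductSubgroup
    rw [Subgroup.map_map, hψ]
    rfl
  have hmemT : ∀ g : GL (Fin k × Fin n) F,
      ψ g ∈ Cfsg.Geo.tensorProductSubgroup k n e P ↔ g ∈ Cfsg.Geo.kroneckerSubgroup k n F := by
    intro g
    rw [hTP]
    constructor
    · rintro ⟨g', hg', h⟩
      have h' : g' = g := ψ.injective h
      rwa [← h']
    · intro h
      exact ⟨g, h, rfl⟩
  have hact : ∀ (g : GL (Fin k × Fin n) F) (x : Fin k × Fin n → F),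
      ((ψ g : GL (Fin m ⊕ Fin m) F) : Matrix (Fin m ⊕ Fin m) (Fin m ⊕ Fin m) F)
          *ᵥ Helper94.tPhi e P x
        = Helper94.tPhi e P ((g : Matrix (Fin k × Fin n) (Fin k × Fin n) F) *ᵥ x) := by
    intro g x
    have h1 : ((ψ g : GL (Fin m ⊕ Fin m) F) : Matrix (Fin m ⊕ Fin m) (Fin m ⊕ Fin m) F)
        = (P : Matrix (Fin m ⊕ Fin m) (Fin m ⊕ Fin m) F)
          * (g : Matrix (Fin k × Fin n) (Fin k × Fin n) F).submatrix e e
          * ((P⁻¹ : GL (Fin m ⊕ Fin m) F) : Matrix (Fin m ⊕ Fin m) (Fin m ⊕ Fin m) F) := by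
      rw [hψ]
      rfl
    rw [h1, Helper94.tPhi_apply, Helper94.tPhi_apply, Matrix.mulVec_mulVec, mul_assoc, mul_assoc,
      ← Units.val_mul, inv_mul_cancel, Units.val_one, mul_one, ← Matrix.mulVec_mulVec,
      Matrix.submatrix_mulVec_equiv, Function.comp_assoc, Equiv.self_comp_symm, Function.comp_id]
  have hsurj : ∀ w : Fin m ⊕ Fin m → F, ∃ x, Helper94.tPhi e P x = w := by
    intro w
    refine ⟨(((P⁻¹ : GL (Fin m ⊕ Fin m) F) : Matrix (Fin m ⊕ Fin m) (Fin m ⊕ Fin m) F) *ᵥ w)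
      ∘ e.symm, ?_⟩
    rw [Helper94.tPhi_apply, Function.comp_assoc, Equiv.symm_comp_self, Function.comp_id,
      Matrix.mulVec_mulVec, ← Units.val_mul, mul_inv_cancel, Units.val_one, Matrix.one_mulVec]
  have hf₁ := Helper94.formOfGram_gram id f₁ h₁.bilinear.add_left h₁.bilinear.smul_left
    h₁.bilinear.add_right h₁.bilinear.smul_right
  have hf₂ := Helper94.formOfGram_gram id f₂ h₂.bilinear.add_left h₂.bilinear.smul_left
    h₂.bilinear.add_right h₂.bilinear.smul_right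
  obtain ⟨c₂, hc₂, hval⟩ := Helper94.tens_val id (fun r s => rfl) (Cfsg.sympForm m F) f₁ f₂
    hf₁ hf₂ e P hT
  obtain ⟨c, hc, hform⟩ := hT
  obtain ⟨J, hJdef⟩ : ∃ J : Matrix (Fin k) (Fin k) F, J = Cfsg.Geo.gramMatrix f₁ := ⟨_, rfl⟩
  obtain ⟨S, hSdef⟩ : ∃ S : Matrix (Fin n) (Fin n) F, S = Cfsg.Geo.gramMatrix f₂ := ⟨_, rfl⟩
  have hJ : Jᵀ = -J := by
    ext i j
    rw [hJdef]
    exact h₁.skew _ _
  have hS : Sᵀ = S := by
    ext i j
    rw [hSdef]
    exact h₂.symm _ _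
  have hblJ : ∀ x y, bl J x y = f₁ x y := by
    intro x y
    rw [← hf₁, sored_fog, hJdef]
    rfl
  have hbl : ∀ x y, bl S x y = f₂ x y := by
    intro x y
    rw [← hf₂, sored_fog, hSdef]
    rfl
  have hJdet : J.det ≠ 0 := by
    intro h0
    obtain ⟨v, hv, hJv⟩ := Matrix.exists_mulVec_eq_zero_iff.mpr h0
    obtain ⟨⟨x, hx⟩, -⟩ := h₁.nondegenerate v hv
    apply hx
    rw [← hblJ]
    unfold bl
    rw [hJv, dotProduct_zero]
  have hSdet : S.det ≠ 0 := by
    intro h0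
    obtain ⟨v, hv, hSv⟩ := Matrix.exists_mulVec_eq_zero_iff.mpr h0
    obtain ⟨⟨x, hx⟩, -⟩ := h₂.nondegenerate v hv
    apply hx
    rw [← hbl]
    unfold bl
    rw [hSv, dotProduct_zero]
  have hκ : ∀ x y : Fin k × Fin n → F,
      Cfsg.sympForm m F (Helper94.tPhi e P x) (Helper94.tPhi e P y)
        = c * (x ⬝ᵥ OmG J S *ᵥ y) := by
    intro x y
    rw [Helper94.tPhi_apply, Helper94.tPhi_apply, hform, sored_fog, hJdef, hSdef]
    rfl
  have hκ0 : c ≠ 0 := hc
  have hmemS : ∀ g : GL (Fin k × Fin n) F, ψ g ∈ Cfsg.spGL m F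
      ↔ IsSpG J S (g : Matrix (Fin k × Fin n) (Fin k × Fin n) F) := by
    intro g
    rw [Helper94.mem_spGL_iff, sqred_spg]
    constructor
    · intro h x y
      have := h (Helper94.tPhi e P x) (Helper94.tPhi e P y)
      rw [hact, hact, hκ, hκ] at this
      exact mul_left_cancel₀ hκ0 this
    · intro h u v
      obtain ⟨x, rfl⟩ := hsurj u
      obtain ⟨y, rfl⟩ := hsurj v
      rw [hact, hact, hκ, hκ, h]
  have hc1 : Fintype.card (Fin k) ≠ 0 := by
    rw [Fintype.card_fin]; exact hk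
  have hc2 : Fintype.card (Fin n) ≠ 0 := by
    rw [Fintype.card_fin]; omega
  constructor
  · -- the tensor product group is proper in `Sp`
    rw [SetLike.lt_iff_le_and_exists]
    refine ⟨inf_le_right, ?_⟩
    obtain ⟨i₀, hi₀⟩ : ∃ i₀ : Fin k, i₀ = ⟨0, Nat.pos_of_ne_zero hk⟩ := ⟨_, rfl⟩
    obtain ⟨k0, hk0⟩ : ∃ k0 : Fin n, k0 = ⟨0, by omega⟩ := ⟨_, rfl⟩
    obtain ⟨k1, hk1⟩ : ∃ k1 : Fin n, k1 = ⟨1, by omega⟩ := ⟨_, rfl⟩
    have hk01 : k0 ≠ k1 := by
      rw [hk0, hk1]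
      intro h
      have := congrArg Fin.val h
      simp at this
    obtain ⟨a₀, ha₀⟩ : ∃ a₀ : Fin k → F, a₀ = Pi.single i₀ 1 := ⟨_, rfl⟩
    obtain ⟨u₀, hu₀⟩ : ∃ u₀ : Fin n → F, u₀ = Pi.single k0 1 := ⟨_, rfl⟩
    obtain ⟨u₁, hu₁⟩ : ∃ u₁ : Fin n → F, u₁ = Pi.single k1 1 := ⟨_, rfl⟩
    have ha₀i : a₀ i₀ = 1 := by rw [ha₀]; simp
    have hu₀k0 : u₀ k0 = 1 := by rw [hu₀]; simp
    have hu₀k1 : u₀ k1 = 0 := by rw [hu₀]; simp [hk01.symm]
    have hu₁k1 : u₁ k1 = 1 := by rw [hu₁]; simp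
    have ha₀ne : a₀ ≠ 0 := by
      intro h
      have := congrFun h i₀
      rw [ha₀i] at this
      simp at this
    have hu₀ne : u₀ ≠ 0 := by
      intro h
      have := congrFun h k0
      rw [hu₀k0] at this
      simp at this
    refine ⟨Helper94.stGL (Helper94.tPhi e P (Helper94.tpv a₀ u₀)) 1, Helper94.stGL_mem _ _,
      fun hmem => ?_⟩
    obtain ⟨A, B, hAB⟩ := Helper94.tens_mem_act e P _ hmem.1
    have hstar : ∀ (a' : Fin k → F) (y : Fin n → F) (i : Fin k) (l : Fin n),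
        ((A : Matrix (Fin k) (Fin k) F) *ᵥ a') i * ((B : Matrix (Fin n) (Fin n) F) *ᵥ y) l
          = a' i * y l + (c₂ * (f₁ a' a₀ * f₂ y u₀)) * (a₀ i * u₀ l) := by
      intro a' y i l
      have h1 := hAB (Helper94.tpv a' y)
      rw [Helper94.stGL_mulVec, one_mul, hval, ← map_smul, ← map_add, Helper94.tpv_kron] at h1
      have h3 := congrFun (Helper94.tPhi_injective e P h1) (i, l)
      simp only [Helper94.tpv, Pi.add_apply, Pi.smul_apply, smul_eq_mul] at h3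
      exact h3.symm
    obtain ⟨β, hβ⟩ : ∃ β : F, β = ((B : Matrix (Fin n) (Fin n) F) *ᵥ u₁) k1 := ⟨_, rfl⟩
    have hA : ∀ (a' : Fin k → F) (i : Fin k),
        ((A : Matrix (Fin k) (Fin k) F) *ᵥ a') i * β = a' i := by
      intro a' i
      have := hstar a' u₁ i k1
      rw [hu₀k1, hu₁k1] at this
      rw [hβ, this]
      ring
    have hA0 := hA a₀ i₀
    rw [ha₀i] at hA0
    have hB0 : ∀ y : Fin n → F, ((B : Matrix (Fin n) (Fin n) F) *ᵥ y) k0 = β * y k0 := by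
      intro y
      have h1 := hstar a₀ y i₀ k0
      rw [h₁.alternating, ha₀i, hu₀k0] at h1
      have h2 : ((A : Matrix (Fin k) (Fin k) F) *ᵥ a₀) i₀
          * ((B : Matrix (Fin n) (Fin n) F) *ᵥ y) k0 = y k0 := by
        rw [h1]; ring
      calc ((B : Matrix (Fin n) (Fin n) F) *ᵥ y) k0
          = (((A : Matrix (Fin k) (Fin k) F) *ᵥ a₀) i₀ * β)
            * ((B : Matrix (Fin n) (Fin n) F) *ᵥ y) k0 := by rw [hA0, one_mul]
        _ = β * (((A : Matrix (Fin k) (Fin k) F) *ᵥ a₀) i₀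
            * ((B : Matrix (Fin n) (Fin n) F) *ᵥ y) k0) := by ring
        _ = β * y k0 := by rw [h2]
    obtain ⟨⟨a₁, ha₁⟩, -⟩ := h₁.nondegenerate a₀ ha₀ne
    obtain ⟨⟨y, hy⟩, -⟩ := h₂.nondegenerate u₀ hu₀ne
    have h5 := hstar a₁ y i₀ k0
    rw [hB0 y, ha₀i, hu₀k0] at h5
    have h6 : ((A : Matrix (Fin k) (Fin k) F) *ᵥ a₁) i₀ * (β * y k0) = a₁ i₀ * y k0 := by
      rw [← mul_assoc, hA a₁ i₀]
    rw [h6] at h5
    have h7 : c₂ * (f₁ a₁ a₀ * f₂ y u₀) = 0 := by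
      linear_combination -h5
    rcases mul_eq_zero.mp h7 with h8 | h8
    · exact hc₂ h8
    · rcases mul_eq_zero.mp h8 with h9 | h9
      · exact ha₁ h9
      · exact hy h9
  · intro K hHK hKS
    have hSp : SpLEG J S (K.comap ψ.toMonoidHom) := by
      intro g hg
      exact (hmemS g).mp (hKS hg)
    have hH : HasHG J S (K.comap ψ.toMonoidHom) := by
      intro A B ν μ hA hB hνμ
      have hμ : μ ≠ 0 := by
        rintro rfl
        rw [mul_zero] at hνμ
        exact zero_ne_one hνμ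
      have hν : ν ≠ 0 := by
        rintro rfl
        rw [zero_mul] at hνμ
        exact zero_ne_one hνμ
      have hAdet : A.det ≠ 0 := by
        intro h
        have h1 := congrArg Matrix.det hA
        rw [Matrix.det_mul, Matrix.det_mul, Matrix.det_transpose, h, zero_mul, zero_mul,
          Matrix.det_smul] at h1
        exact (mul_ne_zero (pow_ne_zero _ hν) hJdet) h1.symm
      have hBdet : B.det ≠ 0 := by
        intro h
        have h1 := congrArg Matrix.det hB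
        rw [Matrix.det_mul, Matrix.det_mul, Matrix.det_transpose, h, zero_mul, zero_mul,
          Matrix.det_smul] at h1
        exact (mul_ne_zero (pow_ne_zero _ hμ) hSdet) h1.symm
      have hdetAB : (A ⊗ₖ B).det ≠ 0 := by
        rw [Matrix.det_kronecker]
        exact mul_ne_zero (pow_ne_zero _ hAdet) (pow_ne_zero _ hBdet)
      refine ⟨Matrix.GeneralLinearGroup.mkOfDetNeZero (A ⊗ₖ B) hdetAB, ?_, rfl⟩
      show ψ (Matrix.GeneralLinearGroup.mkOfDetNeZero (A ⊗ₖ B) hdetAB) ∈ K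
      apply hHK
      refine ⟨(hmemT _).mpr ⟨Matrix.GeneralLinearGroup.mkOfDetNeZero A hAdet,
        Matrix.GeneralLinearGroup.mkOfDetNeZero B hBdet, rfl⟩, (hmemS _).mpr ?_⟩
      exact sqred_kron J S A B ν μ hA hB hνμ
    rcases hmain J S hJ hJdet hS hSdet _ hSp hH with hkr | htv
    · left
      apply le_antisymm _ hHK
      intro k' hk'
      obtain ⟨g, rfl⟩ := ψ.surjective k'
      obtain ⟨A, B, hAB⟩ := hkr g hk'
      have hdetg : (g : Matrix (Fin k × Fin n) (Fin k × Fin n) F).det ≠ 0 :=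
        ((Matrix.isUnit_iff_isUnit_det _).1 g.isUnit).ne_zero
      rw [hAB, Matrix.det_kronecker] at hdetg
      have hA : A.det ≠ 0 := by
        intro h
        apply hdetg
        rw [h, zero_pow hc2, zero_mul]
      have hB : B.det ≠ 0 := by
        intro h
        apply hdetg
        rw [h, zero_pow hc1, mul_zero]
      exact ⟨(hmemT g).mpr ⟨Matrix.GeneralLinearGroup.mkOfDetNeZero A hA,
        Matrix.GeneralLinearGroup.mkOfDetNeZero B hB, hAB⟩, hKS hk'⟩
    · right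
      apply le_antisymm hKS
      apply Helper94.spGL_le_of_tvCentres
      have hC := hcen J S hJ hJdet hS hSdet {v | Helper94.tPhi e P v ∈ Helper94.tvCentres K} ?_ ?_
      · intro w
        obtain ⟨x, rfl⟩ := hsurj w
        exact hC x
      · intro a s hs c₀
        obtain ⟨g, hgM, hg⟩ := htv a s (c₀ * c) hs
        have hgK : ψ g ∈ K := hgM
        have heq : ψ g = Helper94.stGL (Helper94.tPhi e P (pt a s)) c₀ := by
          apply Helper94.gl_ext
          intro w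
          obtain ⟨x, rfl⟩ := hsurj w
          rw [hact, hg, Helper94.stGL_mulVec, hκ, Matrix.add_mulVec, Matrix.one_mulVec,
            Matrix.smul_mulVec, sored_vmv, map_add, map_smul, map_smul, smul_smul,
            dotProduct_comm (OmG J S *ᵥ pt a s) x, mul_assoc]
        rw [← heq]
        exact hgK
      · intro v v' hv hv' hne
        have := Helper94.tvCentres_line K hv hv' (by rw [hκ]; exact mul_ne_zero hκ0 hne) 1 1
        rw [one_smul, one_smul, ← map_add] at this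
        exact this

end Cfsg.Agent.Helper88.SQRED
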