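import Mathlib
import Cfsg.Agent.Helper15.B42Defs
import Cfsg.Agent.Helper77.D1Fourier
import Cfsg.Agent.Helper75.Eigen

/-!
# S4503 piece SHAPE (helper88): a character of small degree whose value at `x` is
`ε t ∑_{s ∈ F} ζ^(s l₀)` has the "small exceptional" shape `(t, l₀)` on `⟨x⟩`.
-/

universe u
set_option autoImplicit false
open Cfsg Cfsg.Agent.Helper77 Cfsg.Agent.Helper15
open scoped ComplexConjugate

namespace Cfsg.Agent.Helper88

/-- An integer relation `∑_j c_j ζ^j = 0` for a primitive `p`-th root of unity forces all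
coefficients to be equal. -/
theorem coeff_const88 (p : ℕ) [Fact p.Prime] (ζ : ℂ) (hζ : IsPrimitiveRoot ζ p) (c : ZMod p → ℤ)
    (h : ∑ j : ZMod p, (c j : ℂ) * ζ ^ j.val = 0) (j : ZMod p) : c j = c 0 := by
  classical
  have hp : p.Prime := Fact.out
  let P : Polynomial ℤ := ∑ j : ZMod p, Polynomial.C (c j) * Polynomial.X ^ j.val
  have hP : Polynomial.aeval ζ P = 0 := by
    simp only [P, map_sum, map_mul, Polynomial.aeval_C, map_pow, Polynomial.aeval_X]
    simpa using h
  have hcoeff : ∀ k : ZMod p, P.coeff k.val = c k := by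
    intro k
    simp only [P, Polynomial.finsetSum_coeff, Polynomial.coeff_C_mul, Polynomial.coeff_X_pow]
    rw [Finset.sum_eq_single k]
    · simp
    · intro b _ hb
      rw [if_neg, mul_zero]
      intro hh
      exact hb (ZMod.val_injective p hh).symm
    · intro hk; exact absurd (Finset.mem_univ k) hk
  have hmin : Polynomial.cyclotomic p ℤ = minpoly ℤ ζ := Polynomial.cyclotomic_eq_minpoly hζ hp.pos
  have hint : IsIntegral ℤ ζ := hζ.isIntegral hp.pos
  have hdvd : Polynomial.cyclotomic p ℤ ∣ P := by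
    rw [hmin]; exact minpoly.isIntegrallyClosed_dvd hint hP
  obtain ⟨Q, hQ⟩ := hdvd
  have hΦdeg : (Polynomial.cyclotomic p ℤ).natDegree = p - 1 := by
    rw [Polynomial.natDegree_cyclotomic, Nat.totient_prime hp]
  have hΦmonic := Polynomial.cyclotomic.monic p ℤ
  have hdeg : P.natDegree ≤ p - 1 := by
    apply Polynomial.natDegree_sum_le_of_forall_le
    intro j _
    apply (Polynomial.natDegree_C_mul_X_pow_le _ _).trans
    have := ZMod.val_lt j
    omega
  have hQdeg : Q.natDegree = 0 := by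
    by_cases hQ0 : Q = 0
    · rw [hQ0]; simp
    · have := hΦmonic.natDegree_mul' hQ0
      rw [← hQ, hΦdeg] at this
      omega
  obtain ⟨a, ha⟩ : ∃ a : ℤ, Q = Polynomial.C a :=
    ⟨Q.coeff 0, Polynomial.eq_C_of_natDegree_eq_zero hQdeg⟩
  have hall : ∀ k : ZMod p, c k = a := by
    intro k
    rw [← hcoeff k, hQ, ha, Polynomial.cyclotomic_prime, Polynomial.coeff_mul_C,
      Polynomial.finsetSum_coeff]
    simp only [Polynomial.coeff_X_pow]
    rw [Finset.sum_eq_single k.val]
    · simp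
    · intro b _ hb
      rw [if_neg]
      exact fun hh => hb hh.symm
    · intro hk
      exact absurd (Finset.mem_range.mpr (ZMod.val_lt k)) hk
  rw [hall j, hall 0]

/-- Sums over a multiset of `p`-th roots of unity, sorted by multiplicity. -/
theorem mult_expand88 (p : ℕ) [Fact p.Prime] (ζ : ℂ) (hζ : IsPrimitiveRoot ζ p) (s : Multiset ℂ)
    (hs : ∀ μ ∈ s, μ ^ p = 1) (g : ℂ → ℂ) :
    (s.map g).sum = ∑ j : ZMod p, (s.count (ζ ^ j.val) : ℂ) * g (ζ ^ j.val) := by
  classical
  have hp : p.Prime := Fact.out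
  rw [Finset.sum_multiset_map_count]
  have hinj : Function.Injective (fun j : ZMod p => ζ ^ j.val) := by
    intro a b hab
    have := hζ.pow_inj (ZMod.val_lt a) (ZMod.val_lt b) hab
    exact ZMod.val_injective p this
  have hsub : s.toFinset ⊆ Finset.univ.image (fun j : ZMod p => ζ ^ j.val) := by
    intro μ hμ
    rw [Multiset.mem_toFinset] at hμ
    obtain ⟨i, hi, rfl⟩ := hζ.eq_pow_of_pow_eq_one (hs μ hμ)
    rw [Finset.mem_image]
    exact ⟨(i : ZMod p), Finset.mem_univ _, by rw [ZMod.val_natCast_of_lt hi]⟩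
  rw [Finset.sum_subset hsub, Finset.sum_image (fun a _ b _ h => hinj h)]
  · refine Finset.sum_congr rfl (fun j _ => ?_)
    rw [nsmul_eq_mul]
  · intro μ _ hμ
    rw [Multiset.mem_toFinset] at hμ
    rw [Multiset.count_eq_zero_of_notMem hμ, zero_smul]

variable {G : Type u} [Group G] [Finite G]

theorem b42_shape_of_value (p : ℕ) [Fact p.Prime] (x : G) (hx : orderOf x = p)
    (F : Subgroup (ZMod p)ˣ) (hF : (F : Set (ZMod p)ˣ) = normUnits p x)
    (χ : G → ℂ) (hχ : Cfsg.IsCharacter G χ) (t : ℕ) (ht : 0 < t) (l₀ : ZMod p) (hl₀ : l₀ ≠ 0)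
    (ε : ℤ) (hε : ε = 1 ∨ ε = -1)
    (hval : χ x = (ε : ℂ) * (t : ℂ)
      * ∑ᶠ s ∈ normUnits p x, d1zeta p ^ (((s : (ZMod p)ˣ) : ZMod p) * l₀).val)
    (hker : χ x ≠ χ 1) (hsmall : 2 * Cfsg.charDegree χ + 1 < p) :
    B42Shape p x χ t l₀ := by
  classical
  obtain ⟨n, ρ, rfl⟩ := hχ
  have hp : p.Prime := Fact.out
  have hζ : IsPrimitiveRoot (d1zeta p) p := Complex.isPrimitiveRoot_exp p hp.ne_zero
  have hζp := hζ.pow_eq_one
  unfold B42Shape
  generalize d1zeta p = ζ at hζ hζp hval ⊢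
  have hf : (ρ x) ^ p = 1 := by rw [← map_pow, ← hx, pow_orderOf_eq_one, map_one]
  obtain ⟨s, hs1, hs2, hs3⟩ := Helper75.exists_eigen_multiset (ρ x) p hp.ne_zero hf
  have hchar : ∀ k : ℕ, ρ.character (x ^ k) = (s.map (fun μ => μ ^ k)).sum := by
    intro k
    rw [← hs3 k, ← map_pow]
    rfl
  set m : ZMod p → ℕ := fun j => s.count (ζ ^ j.val) with hm
  have hexp : ∀ k : ℕ, ρ.character (x ^ k) = ∑ j : ZMod p, (m j : ℂ) * ζ ^ (j.val * k) := by
    intro k
    rw [hchar k, mult_expand88 p ζ hζ s hs1]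
    refine Finset.sum_congr rfl (fun j _ => ?_)
    rw [pow_mul]
  have hdegC : ρ.character 1 = ((∑ j : ZMod p, m j : ℕ) : ℂ) := by
    have h0 := hexp 0
    simp only [pow_zero, mul_zero, mul_one] at h0
    rw [h0]
    push_cast
    rfl
  have hdeg : Cfsg.charDegree ρ.character = ∑ j : ZMod p, m j := by
    unfold Cfsg.charDegree
    rw [hdegC, Complex.natCast_re, Nat.floor_natCast]
  have hx1 : ρ.character x = ∑ j : ZMod p, (m j : ℂ) * ζ ^ j.val := by
    have h1 := hexp 1
    simpa using h1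
  -- the finite set `F`
  let Fs : Finset (ZMod p)ˣ := Finset.univ.filter (· ∈ F)
  have hmemFs : ∀ s : (ZMod p)ˣ, s ∈ Fs ↔ s ∈ F := fun s => by simp [Fs]
  have hfs : ∀ f : (ZMod p)ˣ → ℂ, ∑ᶠ s ∈ normUnits p x, f s = ∑ s ∈ Fs, f s := by
    intro f
    have hset : (F : Set (ZMod p)ˣ) = (Fs : Set (ZMod p)ˣ) := by
      ext s; simp [Fs]
    rw [← hF, hset, finsum_mem_coe_finset]
  have hcard : Fs.card = Nat.card F := by
    rw [Nat.card_eq_fintype_card]
    exact (Fintype.card_of_subtype Fs hmemFs).symm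
  have hinjL : ∀ a ∈ Fs, ∀ b ∈ Fs, (a : ZMod p) * l₀ = (b : ZMod p) * l₀ → a = b := by
    intro a _ b _ hab
    exact Units.ext (mul_right_cancel₀ hl₀ hab)
  let L : Finset (ZMod p) := Fs.image (fun s : (ZMod p)ˣ => (s : ZMod p) * l₀)
  have hLcard : L.card = Nat.card F := by
    rw [← hcard]
    exact Finset.card_image_of_injOn (fun a ha b hb hab => hinjL a ha b hb hab)
  have hL0 : (0 : ZMod p) ∉ L := by
    intro h0
    obtain ⟨s', -, hs'⟩ := Finset.mem_image.mp h0
    rcases mul_eq_zero.mp hs' with h | h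
    · exact s'.ne_zero h
    · exact hl₀ h
  have hLl₀ : l₀ ∈ L := Finset.mem_image.mpr ⟨1, (hmemFs 1).mpr F.one_mem, by simp⟩
  have hLsum : ∀ g : ZMod p → ℂ, ∑ s ∈ Fs, g ((s : ZMod p) * l₀)
      = ∑ j : ZMod p, (if j ∈ L then g j else 0) := by
    intro g
    rw [Finset.sum_ite_mem, Finset.univ_inter]
    exact (Finset.sum_image hinjL).symm
  -- all the coefficients of the relation are equal
  have hsum0 : ∑ j : ZMod p,
      ((((m j : ℤ) - ε * t * (if j ∈ L then 1 else 0) : ℤ)) : ℂ) * ζ ^ j.val = 0 := by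
    have h2 : ∑ s ∈ Fs, ζ ^ ((s : ZMod p) * l₀).val
        = ∑ j : ZMod p, (if j ∈ L then ζ ^ j.val else 0) := hLsum (fun j => ζ ^ j.val)
    rw [hfs, h2, hx1] at hval
    have hterm : ∀ j : ZMod p,
        ((((m j : ℤ) - ε * t * (if j ∈ L then 1 else 0) : ℤ)) : ℂ) * ζ ^ j.val
        = (m j : ℂ) * ζ ^ j.val - (ε : ℂ) * (t : ℂ) * (if j ∈ L then ζ ^ j.val else 0) := by
      intro j
      split_ifs <;> push_cast <;> ring
    rw [Finset.sum_congr rfl (fun j _ => hterm j), Finset.sum_sub_distrib, ← Finset.mul_sum,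
      ← hval, sub_self]
  have hK1 : ∀ j : ZMod p, (m j : ℤ) = m 0 + ε * t * (if j ∈ L then 1 else 0) := by
    intro j
    have h1 := coeff_const88 p ζ hζ
      (fun j => (m j : ℤ) - ε * t * (if j ∈ L then 1 else 0)) hsum0 j
    simp only [if_neg hL0] at h1
    linarith
  have hn : ((∑ j : ZMod p, m j : ℕ) : ℤ) = p * m 0 + ε * t * Nat.card F := by
    have e1 : ∑ _j : ZMod p, ((m 0 : ℤ)) = p * m 0 := by
      rw [Finset.sum_const, Finset.card_univ, ZMod.card, nsmul_eq_mul]
    have e2 : ∑ j : ZMod p, (if j ∈ L then (1 : ℤ) else 0) = Nat.card F := by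
      rw [Finset.sum_ite_mem, Finset.univ_inter, Finset.sum_const, nsmul_eq_mul, mul_one, hLcard]
    rw [Nat.cast_sum, Finset.sum_congr rfl (fun j _ => hK1 j), Finset.sum_add_distrib,
      ← Finset.mul_sum, e1, e2]
  have hfdvd : Nat.card F ∣ p - 1 := by
    have h1 := Subgroup.card_subgroup_dvd_card F
    rwa [Nat.card_eq_fintype_card (α := (ZMod p)ˣ), ZMod.card_units p] at h1
  have hfpos : 0 < Nat.card F := Nat.card_pos
  have hl : (m l₀ : ℤ) = m 0 + ε * t := by
    have h1 := hK1 l₀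
    rw [if_pos hLl₀, mul_one] at h1
    exact h1
  rw [hdeg] at hsmall
  have hsmallZ : 2 * ((∑ j : ZMod p, m j : ℕ) : ℤ) + 1 < p := by exact_mod_cast hsmall
  have hpZ : (1 : ℤ) ≤ p := by exact_mod_cast hp.one_le
  have htZ : (0 : ℤ) < t := by exact_mod_cast ht
  have hfZ : (0 : ℤ) < (Nat.card F : ℤ) := by exact_mod_cast hfpos
  have hmlZ : (0 : ℤ) ≤ m l₀ := Nat.cast_nonneg _
  have hm0Z : (0 : ℤ) ≤ m 0 := Nat.cast_nonneg _
  by_cases hM0 : m 0 = 0
  · -- the main case
    have hε1 : ε = 1 := by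
      rcases hε with h | h
      · exact h
      · exfalso
        rw [h, hM0] at hl
        push_cast at hl
        linarith
    subst hε1
    intro b
    rw [hexp b, hfs]
    have h3 : ∀ s' : (ZMod p)ˣ, ζ ^ ((b : ZMod p) * (s' : ZMod p) * l₀).val
        = ζ ^ (((s' : ZMod p) * l₀).val * b) := by
      intro s'
      rw [mul_assoc, d1f_natCast_mul p ζ hζp, mul_comm]
    have h4 := hLsum (fun j : ZMod p => ζ ^ (j.val * b))
    rw [Finset.sum_congr rfl (fun s' _ => h3 s'), h4, Finset.mul_sum]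
    refine Finset.sum_congr rfl (fun j _ => ?_)
    have h' := hK1 j
    rw [hM0] at h'
    push_cast at h'
    by_cases hj : j ∈ L
    · rw [if_pos hj] at h' ⊢
      have hmj : m j = t := by exact_mod_cast (by linarith : (m j : ℤ) = t)
      rw [hmj]
    · rw [if_neg hj] at h' ⊢
      have hmj : m j = 0 := by exact_mod_cast (by linarith : (m j : ℤ) = 0)
      rw [hmj]
      simp
  · exfalso
    have hM1 : (1 : ℤ) ≤ m 0 := by
      have : 1 ≤ m 0 := Nat.one_le_iff_ne_zero.mpr hM0
      exact_mod_cast this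
    rcases hε with h | h
    · subst h
      nlinarith [mul_nonneg (by linarith : (0 : ℤ) ≤ (p : ℤ)) (by linarith : (0 : ℤ) ≤ (m 0 : ℤ) - 1),
        mul_nonneg htZ.le hfZ.le]
    · subst h
      have htM : (t : ℤ) ≤ m 0 := by linarith
      by_cases hfp : Nat.card F = p - 1
      · have hfz : (Nat.card F : ℤ) = (p : ℤ) - 1 := by
          rw [hfp, Nat.cast_sub hp.one_le, Nat.cast_one]
        rw [hfz] at hn
        by_cases hMt : m 0 = t
        · have hN : ∑ j : ZMod p, m j = m 0 := by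
            have h1 : ((∑ j : ZMod p, m j : ℕ) : ℤ) = (m 0 : ℤ) := by
              rw [hn, hMt]; ring
            exact_mod_cast h1
          have hzero : ∀ j : ZMod p, j ≠ 0 → m j = 0 := by
            intro j hj
            have h1 := Finset.add_sum_erase Finset.univ m (Finset.mem_univ (0 : ZMod p))
            have h2 : ∑ j ∈ Finset.univ.erase (0 : ZMod p), m j = 0 := by omega
            exact Finset.sum_eq_zero_iff.mp h2 j (Finset.mem_erase.mpr ⟨hj, Finset.mem_univ _⟩)
          apply hker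
          rw [hx1, hdegC, hN, Finset.sum_eq_single (0 : ZMod p)]
          · simp
          · intro j _ hj
            rw [hzero j hj]
            simp
          · intro h
            exact absurd (Finset.mem_univ _) h
        · have hMt' : (t : ℤ) + 1 ≤ m 0 := by
            have h1 : (t : ℤ) ≠ m 0 := fun h => hMt (by exact_mod_cast h.symm)
            omega
          nlinarith [mul_nonneg (by linarith : (0 : ℤ) ≤ (p : ℤ) - 1)
            (by linarith : (0 : ℤ) ≤ (m 0 : ℤ) - t - 1)]
      · obtain ⟨k, hk⟩ := hfdvd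
        have hk2 : 2 ≤ k := by
          rcases Nat.lt_or_ge k 2 with h | h
          · exfalso
            interval_cases k
            · have := hp.one_lt
              omega
            · exact hfp (by omega)
          · exact h
        have h2f : 2 * Nat.card F ≤ p - 1 := by
          rw [hk]
          nlinarith
        have h2fZ : 2 * (Nat.card F : ℤ) ≤ (p : ℤ) - 1 := by
          have : ((2 * Nat.card F : ℕ) : ℤ) ≤ ((p - 1 : ℕ) : ℤ) := by exact_mod_cast h2f
          rw [Nat.cast_sub hp.one_le] at this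
          push_cast at this
          exact this
        nlinarith [mul_nonneg (by linarith : (0 : ℤ) ≤ (m 0 : ℤ) - t) hfZ.le,
          mul_nonneg (by linarith : (0 : ℤ) ≤ (m 0 : ℤ) - 1)
            (by linarith : (0 : ℤ) ≤ (p : ℤ) - Nat.card F)]

end Cfsg.Agent.Helper88
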