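import Mathlib
import Cfsg.Agent.Helper96.OHDefs
import Cfsg.Agent.Helper33.OHOSINGCNT
import Cfsg.Agent.Helper90.BGChain
import Cfsg.Agent.Helper46.BGLIRR
import Cfsg.Agent.Helper20.TLUFREE

set_option autoImplicit false
set_option linter.unusedSectionVars false
set_option linter.unusedVariables false

/-!
# CALL S5992 (helper96), piece OTYPEEVEN (helper88; double of helper33)

Counting argument: `T` acts freely on the nonzero singular vectors of `N`, so their number is
`≡ 0 mod r`; compare with the count of OSINGCNT (helper33) modulo `r`.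
-/

namespace Cfsg.Agent.Helper88.OH5992

open Module Polynomial Cfsg Cfsg.Geo
open Cfsg.Agent.Helper13.TIu Cfsg.Agent.Helper96.OH

variable {ι : Type} [Fintype ι] [DecidableEq ι] {F : Type*} [Field F] (Q : (ι → F) → F)

/-- `q = |F|` is nonzero modulo a prime `r` different from the characteristic. -/
theorem card_zmod_ne_zero88 [Fintype F] (r : ℕ) [Fact r.Prime] (hrF : (r : F) ≠ 0) :
    ((Fintype.card F : ℕ) : ZMod r) ≠ 0 := by
  have hrp : r.Prime := Fact.out
  intro h0
  have hdvd : r ∣ Fintype.card F := (ZMod.natCast_eq_zero_iff _ _).mp h0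
  obtain ⟨p, hp⟩ := CharP.exists F
  obtain ⟨n, hpp, hcard⟩ := FiniteField.card F p
  rw [hcard] at hdvd
  have h1 : r ∣ p := hrp.dvd_of_dvd_pow hdvd
  have h2 : r = p := (Nat.prime_dvd_prime_iff_eq hrp hpp).mp h1
  apply hrF
  rw [h2]
  exact CharP.cast_eq_zero F p

/-- arithmetic core: from the two counts modulo `r`. -/
theorem type_even_arith88 (r : ℕ) [Fact r.Prime] (hr2 : 2 < r) (q k t c : ℕ)
    (hk : k ≠ 0) (ht : t ≠ 0)
    (hord : orderOf ((q : ℕ) : ZMod r) = k + k)
    (hc : ((c : ℕ) : ZMod r) = 1) :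
    (q * c = q ^ (k * t + 1) + (q ^ (k * t) - 1) * q ^ (k * t) → Even t) ∧
    (q * c = q ^ (k * t) + q ^ 2 * (q ^ (k * t - 1) - 1) * q ^ (k * t - 1) → ¬ Even t) := by
  have hrp : r.Prime := Fact.out
  set x : ZMod r := ((q : ℕ) : ZMod r) with hx
  have hq0 : q ≠ 0 := by
    rintro rfl
    have h0 : x = 0 := by rw [hx]; simp
    have : orderOf x = 0 := by
      rw [h0, orderOf_eq_zero_iff']
      intro n hn
      rw [zero_pow (by omega)]
      exact zero_ne_one
    omega
  have hqpos : 0 < q := Nat.pos_of_ne_zero hq0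
  have hxk : x ^ k ≠ 1 := pow_ne_one_of_lt_orderOf hk (by omega)
  have hxkk : (x ^ k) ^ 2 = 1 := by
    rw [← pow_mul, show k * 2 = k + k by ring, ← hord]
    exact pow_orderOf_eq_one x
  have hxk' : x ^ k = -1 := by
    have hxkk' : x ^ k * x ^ k = 1 := by rw [← pow_two]; exact hxkk
    rcases mul_self_eq_one_iff.mp hxkk' with h | h
    · exact absurd h hxk
    · exact h
  have hx1 : x ≠ 1 := by
    intro h1
    have : orderOf x = 1 := orderOf_eq_one_iff.mpr h1
    omega
  have ha : x ^ (k * t) = (-1) ^ t := by rw [pow_mul, hxk']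
  have hne : (1 : ZMod r) ≠ -1 := by
    intro h
    have h2 : ((2 : ℕ) : ZMod r) = 0 := by
      have : (1 : ZMod r) + 1 = 0 := by
        nth_rewrite 2 [h]
        ring
      push_cast
      rw [← this]
      ring
    have : r ∣ 2 := (ZMod.natCast_eq_zero_iff _ _).mp h2
    have := Nat.le_of_dvd (by norm_num) this
    omega
  have hl : 1 ≤ k * t := Nat.one_le_iff_ne_zero.mpr (Nat.mul_ne_zero hk ht)
  constructor
  · intro h
    have hc1 : 1 ≤ q ^ (k * t) := Nat.one_le_pow _ _ hqpos
    have h' := congrArg (fun n : ℕ => (n : ZMod r)) h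
    simp only [Nat.cast_mul, Nat.cast_add, Nat.cast_pow, Nat.cast_sub hc1, Nat.cast_one, hc] at h'
    rw [← hx, pow_succ, ha] at h'
    by_contra hev
    have hodd : Odd t := Nat.not_even_iff_odd.mp hev
    rw [hodd.neg_one_pow] at h'
    -- x * 1 = (-1) * x + (-1 - 1) * (-1)  ⇒ 2 x = 2
    have h3 : (2 : ZMod r) * (x - 1) = 0 := by linear_combination h'
    rcases mul_eq_zero.mp h3 with h4 | h4
    · apply hne
      have : (1 : ZMod r) + 1 = 0 := by rw [← h4]; ring
      linear_combination this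
    · exact hx1 (sub_eq_zero.mp h4)
  · intro h hev
    have hc1 : 1 ≤ q ^ (k * t - 1) := Nat.one_le_pow _ _ hqpos
    have h' := congrArg (fun n : ℕ => (n : ZMod r)) h
    simp only [Nat.cast_mul, Nat.cast_add, Nat.cast_pow, Nat.cast_sub hc1, Nat.cast_one, hc] at h'
    rw [← hx] at h'
    have hb : x * x ^ (k * t - 1) = (-1) ^ t := by
      rw [← pow_succ', show k * t - 1 + 1 = k * t by omega, ha]
    rw [hev.neg_one_pow] at hb ha
    rw [ha] at h'
    -- x = 1 + x^2 (b - 1) b, x b = 1 ⇒ x = 1 + (1 - x) = 2 - x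
    have h3 : (2 : ZMod r) * (x - 1) = 0 := by
      linear_combination h' + (x ^ (k * t - 1) * x + 1 - x) * hb
    rcases mul_eq_zero.mp h3 with h4 | h4
    · apply hne
      have : (1 : ZMod r) + 1 = 0 := by rw [← h4]; ring
      linear_combination this
    · exact hx1 (sub_eq_zero.mp h4)

/-- OTYPEEVEN. -/
theorem o_type_even [Fintype F] (hQ : IsNondegenerateQuadraticForm Q) (h2 : (2 : F) ≠ 0)
    (T : Module.End F (ι → F)) (hT : OPres Q T) (r : ℕ) [Fact r.Prime] (hr2 : 2 < r)
    (hrF : (r : F) ≠ 0) (hTr : T ^ r = 1)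
    (heven : Even (orderOf ((Fintype.card F : ℕ) : ZMod r)))
    (N : Submodule F (ι → F)) (hNT : N.map T ≤ N) (hN : ONd Q N)
    (hNk : N ⊓ LinearMap.ker (T - 1) = ⊥) :
    OPl Q N ↔ Even (finrank F N / orderOf ((Fintype.card F : ℕ) : ZMod r)) := by
  classical
  have hrp : r.Prime := Fact.out
  obtain ⟨i, hi⟩ : ∃ i, i = orderOf ((Fintype.card F : ℕ) : ZMod r) := ⟨_, rfl⟩
  rw [← hi] at heven ⊢
  have hx0 := card_zmod_ne_zero88 (F := F) r hrF
  have hipos : 0 < i := by
    rw [hi]
    apply orderOf_pos_iff.mpr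
    rw [isOfFinOrder_iff_pow_eq_one]
    exact ⟨r - 1, by have := hrp.two_le; omega, ZMod.pow_card_sub_one_eq_one hx0⟩
  obtain ⟨k, hk⟩ := heven
  have hk0 : k ≠ 0 := by omega
  have hdvd : i ∣ finrank F N := by
    have h := Cfsg.Agent.Helper90.BG.cyc_dvd T r i hrF hTr
      (fun g hg hd => by rw [hi]; exact Cfsg.Agent.Helper46.bgl_irr_factor_degree r hrF g hg hd)
      N hNT
    rw [hNk, finrank_bot, Nat.sub_zero] at h
    exact h
  obtain ⟨t, ht⟩ := hdvd
  rw [ht, Nat.mul_div_cancel_left t hipos]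
  by_cases ht0 : t = 0
  · have hN0 : N = ⊥ := by
      apply Submodule.finrank_eq_zero.mp
      rw [ht, ht0, Nat.mul_zero]
    subst hN0
    rw [ht0]
    exact ⟨fun _ => Even.zero, fun _ => Cfsg.Agent.Helper33.o_plus_bot Q hQ⟩
  · have hl : 1 ≤ k * t := Nat.one_le_iff_ne_zero.mpr (Nat.mul_ne_zero hk0 ht0)
    have hdim : finrank F N = 2 * (k * t) := by rw [ht, hk]; ring
    obtain ⟨hplus, hminus⟩ := Cfsg.Agent.Helper33.OH5992.o_sing_count Q hQ N hN (k * t) hl hdim
    -- the free action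
    have hTinj : ∀ v : ι → F, T v = 0 → v = 0 := by
      intro v hv
      have h1 : (T ^ r) v = v := by rw [hTr]; rfl
      have h2 : (T ^ r) v = (T ^ (r - 1)) (T v) := by
        rw [← Module.End.mul_apply, ← pow_succ, Nat.sub_add_cancel hrp.pos]
      rw [← h1, h2, hv, map_zero]
    have hfree := Cfsg.Agent.Helper20.TI5954.u_free_count T r hTr
      {v : ι → F | v ∈ N ∧ Q v = 0 ∧ v ≠ 0}
      (fun v hv => ⟨hNT (Submodule.mem_map_of_mem hv.1), by rw [hT v]; exact hv.2.1,
        fun h => hv.2.2 (hTinj v h)⟩)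
      (fun v hv h => hv.2.2 (by
        have hmem : v ∈ N ⊓ LinearMap.ker (T - 1) := by
          refine Submodule.mem_inf.2 ⟨hv.1, ?_⟩
          rw [LinearMap.mem_ker, LinearMap.sub_apply, h]
          simp
        rw [hNk] at hmem
        exact (Submodule.mem_bot F).mp hmem))
    have hcard : Nat.card {v : ι → F // v ∈ N ∧ Q v = 0} =
        Nat.card ({v : ι → F | v ∈ N ∧ Q v = 0 ∧ v ≠ 0} : Set (ι → F)) + 1 := by
      have hset : ({v : ι → F | v ∈ N ∧ Q v = 0} : Set (ι → F)) =
          insert 0 {v : ι → F | v ∈ N ∧ Q v = 0 ∧ v ≠ 0} := by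
        ext v
        simp only [Set.mem_ofPred_eq, Set.mem_insert_iff]
        constructor
        · intro hv
          by_cases hv0 : v = 0
          · exact Or.inl hv0
          · exact Or.inr ⟨hv.1, hv.2, hv0⟩
        · rintro (rfl | hv)
          · exact ⟨N.zero_mem, q_zero Q hQ⟩
          · exact ⟨hv.1, hv.2.1⟩
      have h1 : Nat.card {v : ι → F // v ∈ N ∧ Q v = 0} =
          Set.ncard ({v : ι → F | v ∈ N ∧ Q v = 0} : Set (ι → F)) := rfl
      rw [h1, hset, Set.ncard_insert_of_notMem (by simp) (Set.toFinite _)]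
      rfl
    have hc : ((Nat.card {v : ι → F // v ∈ N ∧ Q v = 0} : ℕ) : ZMod r) = 1 := by
      rw [hcard, Nat.cast_add, (ZMod.natCast_eq_zero_iff _ _).mpr hfree, zero_add, Nat.cast_one]
    obtain ⟨ha, hb⟩ := type_even_arith88 r hr2 (Fintype.card F) k t
      (Nat.card {v : ι → F // v ∈ N ∧ Q v = 0}) hk0 ht0 (by rw [← hi, hk]) hc
    constructor
    · intro hpl
      exact ha (hplus hpl)
    · intro hev
      by_contra hpl
      exact hb (hminus hpl) hev

end Cfsg.Agent.Helper88.OH5992
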