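-- helper88 library: PIECE C2e of the S5874 call (helper95): in characteristic 2, a quadratic form
-- whose polar form is rational over a subfield and which is preserved by an irreducible group of
-- rational matrices is itself rational over the subfield.
import Cfsg.Agent.Helper97.GForms

set_option autoImplicit false
open Cfsg Cfsg.Geo Matrix

namespace Cfsg.Agent.Helper88

open Cfsg.Agent.Helper97.Gen

variable {ι : Type} [Fintype ι] [DecidableEq ι] {F : Type*} [Field F]

/-- An element of a finite field fixed by the `|F₁|`-th power map lies in the subfield `F₁`. -/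
theorem c2e_mem_of_pow [Finite F] (F₁ : Subfield F) (a : F) (h : a ^ Nat.card F₁ = a) :
    a ∈ F₁ := by
  classical
  have : Fintype F₁ := Fintype.ofFinite _
  have hq : 1 < Nat.card F₁ := Finite.one_lt_card
  obtain ⟨p, hpdef⟩ : ∃ p : Polynomial F, p = Polynomial.X ^ Nat.card F₁ - Polynomial.X :=
    ⟨_, rfl⟩
  have hp0 : p ≠ 0 := hpdef ▸ FiniteField.X_pow_card_sub_X_ne_zero F hq
  have hdeg : p.natDegree = Nat.card F₁ :=
    hpdef ▸ FiniteField.X_pow_card_sub_X_natDegree_eq F hq
  have hroot : ∀ x : F, x ∈ p.roots.toFinset ↔ x ^ Nat.card F₁ = x := by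
    intro x
    rw [Multiset.mem_toFinset, Polynomial.mem_roots hp0, Polynomial.IsRoot, hpdef,
      Polynomial.eval_sub, Polynomial.eval_pow, Polynomial.eval_X, sub_eq_zero]
  obtain ⟨S, hSdef⟩ : ∃ S : Finset F, S = Finset.univ.image (Subtype.val : F₁ → F) := ⟨_, rfl⟩
  have hS : S ⊆ p.roots.toFinset := by
    intro x hx
    rw [hSdef] at hx
    obtain ⟨y, -, rfl⟩ := Finset.mem_image.mp hx
    rw [hroot]
    have h1 := FiniteField.pow_card y
    rw [← Nat.card_eq_fintype_card] at h1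
    exact congrArg Subtype.val h1
  have hcard : p.roots.toFinset.card ≤ S.card := by
    calc p.roots.toFinset.card ≤ Multiset.card p.roots := Multiset.toFinset_card_le _
      _ ≤ p.natDegree := Polynomial.card_roots' p
      _ = Nat.card F₁ := hdeg
      _ = S.card := by
          rw [hSdef, Finset.card_image_of_injective _ Subtype.val_injective, Finset.card_univ,
            Nat.card_eq_fintype_card]
  have hEq := Finset.eq_of_subset_of_card_le hS hcard
  have ha : a ∈ S := by
    rw [hEq, hroot]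
    exact h
  rw [hSdef] at ha
  obtain ⟨y, -, rfl⟩ := Finset.mem_image.mp ha
  exact y.2

/-- The zero set of an additive map that is homogeneous in the weak sense, as a subspace. -/
def c2eKer (Δ : (ι → F) → F) (hadd : ∀ x y, Δ (x + y) = Δ x + Δ y)
    (hsmul : ∀ (c : F) (x : ι → F), Δ x = 0 → Δ (c • x) = 0) (h0 : Δ 0 = 0) :
    Submodule F (ι → F) where
  carrier := {x | Δ x = 0}
  add_mem' := by
    intro x y hx hy
    show Δ (x + y) = 0
    rw [hadd, show Δ x = 0 from hx, show Δ y = 0 from hy, add_zero]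
  zero_mem' := h0
  smul_mem' := fun c x hx => hsmul c x hx

theorem mem_c2eKer (Δ : (ι → F) → F) (hadd : ∀ x y, Δ (x + y) = Δ x + Δ y)
    (hsmul : ∀ (c : F) (x : ι → F), Δ x = 0 → Δ (c • x) = 0) (h0 : Δ 0 = 0) (x : ι → F) :
    x ∈ c2eKer Δ hadd hsmul h0 ↔ Δ x = 0 := Iff.rfl

/-- **Piece C2e of the S5874 call.** -/
theorem o12_quad_rational_char2 [Fintype F] (h2 : (2 : F) = 0) (Q' : (ι → F) → F)
    (hQ' : IsNondegenerateQuadraticForm Q') (F₁ : Subfield F)
    (hG : ∀ u v : ι → F, (∀ i, u i ∈ F₁) → (∀ i, v i ∈ F₁) → QuadraticMap.polar Q' u v ∈ F₁)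
    (N' : Subgroup (GL ι F)) (hirr : ActsIrreducibly (matrixSet N'))
    (hrat : ∀ g ∈ N', ∀ i j, (g : Matrix ι ι F) i j ∈ F₁)
    (hiso : ∀ g ∈ N', ∀ x : ι → F, Q' ((g : Matrix ι ι F) *ᵥ x) = Q' x)
    (hcard : 2 ≤ Fintype.card ι) :
    ∀ u : ι → F, (∀ i, u i ∈ F₁) → Q' u ∈ F₁ := by
  classical
  have hF1two : (2 : F₁) = 0 := by
    apply Subtype.ext
    rw [← one_add_one_eq_two, Subfield.coe_add, Subfield.coe_one, Subfield.coe_zero,
      one_add_one_eq_two]
    exact h2
  haveI : CharP F 2 := CharTwo.of_one_ne_zero_of_two_eq_zero one_ne_zero h2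
  haveI : CharP F₁ 2 := CharTwo.of_one_ne_zero_of_two_eq_zero one_ne_zero hF1two
  haveI : Fact (Nat.Prime 2) := ⟨Nat.prime_two⟩
  have : Fintype F₁ := Fintype.ofFinite _
  obtain ⟨k, -, hk⟩ := FiniteField.card F₁ 2
  have hq : Nat.card F₁ = 2 ^ (k : ℕ) := by rw [Nat.card_eq_fintype_card, hk]
  obtain ⟨φ, hφ⟩ : ∃ φ : F →+* F, ∀ a, φ a = a ^ Nat.card F₁ :=
    ⟨iterateFrobenius F 2 k, fun a => by rw [iterateFrobenius_def, hq]⟩
  have hφfix : ∀ a ∈ F₁, φ a = a := by
    intro a ha
    rw [hφ]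
    have h1 := FiniteField.pow_card (⟨a, ha⟩ : F₁)
    rw [← Nat.card_eq_fintype_card] at h1
    exact congrArg Subtype.val h1
  have hφmem : ∀ a, φ a = a → a ∈ F₁ :=
    fun a ha => c2e_mem_of_pow F₁ a (by rw [← hφ]; exact ha)
  obtain ⟨f, hfdef⟩ : ∃ f : (ι → F) → (ι → F) → F, f = QuadraticMap.polar Q' := ⟨_, rfl⟩
  have hbil : IsBilinearForm f := hfdef ▸ hQ'.polar_bilinear
  have hS := isSesq_of_bilinear hbil
  have hfeq : ∀ u v, f u v = u ⬝ᵥ (gram f *ᵥ v) := by
    intro u v
    have := hS.apply_eq u v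
    simpa using this
  have hgram : ∀ i j, gram f i j ∈ F₁ := by
    intro i j
    rw [Cfsg.Agent.Helper97.Gen.gram_apply, hfdef]
    refine hG _ _ (fun a => ?_) (fun a => ?_)
    · rw [Pi.single_apply]
      split_ifs
      exacts [one_mem _, zero_mem _]
    · rw [Pi.single_apply]
      split_ifs
      exacts [one_mem _, zero_mem _]
  have hgramφ : (gram f).map φ = gram f := by
    ext i j
    rw [Matrix.map_apply, hφfix _ (hgram i j)]
  have hfφ : ∀ u v, φ (f u v) = f (φ ∘ u) (φ ∘ v) := by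
    intro u v
    rw [hfeq, hfeq, RingHom.map_dotProduct]
    congr 1
    funext i
    rw [Function.comp_apply, RingHom.map_mulVec, hgramφ]
  have hQadd : ∀ x y, Q' (x + y) = Q' x + Q' y + f x y := by
    intro x y
    rw [hfdef, QuadraticMap.polar]
    ring
  obtain ⟨Δ, hΔ⟩ : ∃ Δ : (ι → F) → F, ∀ x, Δ x = Q' (φ ∘ x) - φ (Q' x) := ⟨_, fun _ => rfl⟩
  have hΔadd : ∀ x y, Δ (x + y) = Δ x + Δ y := by
    intro x y
    have e : φ ∘ (x + y) = φ ∘ x + φ ∘ y := by
      funext i
      simp only [Function.comp_apply, Pi.add_apply, map_add]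
    rw [hΔ, hΔ, hΔ, e, hQadd, hQadd, map_add, map_add, hfφ]
    ring
  have hΔsmul : ∀ (c : F) x, Δ (c • x) = φ c ^ 2 * Δ x := by
    intro c x
    have e : φ ∘ (c • x) = φ c • (φ ∘ x) := by
      funext i
      simp only [Function.comp_apply, Pi.smul_apply, smul_eq_mul, map_mul]
    rw [hΔ, hΔ, e, hQ'.smul, hQ'.smul, map_mul, map_pow]
    ring
  have hΔinv : ∀ g ∈ N', ∀ x, Δ ((g : Matrix ι ι F) *ᵥ x) = Δ x := by
    intro g hg x
    have hgφ : (g : Matrix ι ι F).map φ = (g : Matrix ι ι F) := by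
      ext a b
      rw [Matrix.map_apply, hφfix _ (hrat g hg a b)]
    have e : φ ∘ ((g : Matrix ι ι F) *ᵥ x) = (g : Matrix ι ι F) *ᵥ (φ ∘ x) := by
      funext i
      rw [Function.comp_apply, RingHom.map_mulVec, hgφ]
    rw [hΔ, hΔ, e, hiso g hg, hiso g hg]
  have hΔ0 : Δ 0 = 0 := by
    have h := hΔadd 0 0
    rw [add_zero] at h
    linear_combination -h
  obtain ⟨K, hK⟩ : ∃ K : Submodule F (ι → F), ∀ x, x ∈ K ↔ Δ x = 0 :=
    ⟨c2eKer Δ hΔadd (fun c x hx => by rw [hΔsmul, hx, mul_zero]) hΔ0, fun x => Iff.rfl⟩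
  have hKinv : ∀ s ∈ matrixSet N', K.map (Matrix.toLin' s) ≤ K := by
    rintro s ⟨g, hg, rfl⟩ y hy
    obtain ⟨x, hx, rfl⟩ := Submodule.mem_map.mp hy
    rw [Matrix.toLin'_apply, hK, hΔinv g hg]
    exact (hK x).mp hx
  rcases hirr K hKinv with hbot | htop
  · exfalso
    have hinj : Function.Injective Δ := by
      intro x y hxy
      have h1 : x + y ∈ K := by
        rw [hK, hΔadd, hxy, ← two_mul, h2, zero_mul]
      rw [hbot, Submodule.mem_bot] at h1
      have h3 : y + y = 0 := by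
        rw [← two_smul F y, h2, zero_smul]
      calc x = x + (y + y) := by rw [h3, add_zero]
        _ = (x + y) + y := by rw [add_assoc]
        _ = y := by rw [h1, zero_add]
    have h1 := Fintype.card_le_of_injective Δ hinj
    rw [Fintype.card_fun] at h1
    have h4 : 1 < Fintype.card F := Fintype.one_lt_card
    have h5 : Fintype.card F ^ 2 ≤ Fintype.card F ^ Fintype.card ι :=
      Nat.pow_le_pow_right (by omega) hcard
    have h6 : Fintype.card F * Fintype.card F ≤ Fintype.card F := by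
      rw [← sq]
      exact h5.trans h1
    nlinarith
  · intro u hu
    apply hφmem
    have h1 : Δ u = 0 := (hK u).mp (by rw [htop]; exact Submodule.mem_top)
    rw [hΔ] at h1
    have e : φ ∘ u = u := by
      funext i
      rw [Function.comp_apply, hφfix _ (hu i)]
    rw [e] at h1
    exact (sub_eq_zero.mp h1).symm

end Cfsg.Agent.Helper88
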