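-- helper88 library: PIECE SF of the S5874 call (helper95): subfield structures carrying a
-- non-degenerate quadratic form (from pieces SF0 and C2e).
import Cfsg.Agent.Helper88.O12SF0
import Cfsg.Agent.Helper88.O12C2e

set_option autoImplicit false
open Cfsg Cfsg.Geo Matrix

namespace Cfsg.Agent.Helper88

variable {ι : Type} [Fintype ι] [DecidableEq ι] {F : Type*} [Field F]

theorem sf_mulVec_inv_cancel (B : GL ι F) (x : ι → F) :
    (B : Matrix ι ι F) *ᵥ (((B⁻¹ : GL ι F) : Matrix ι ι F) *ᵥ x) = x := by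
  rw [Matrix.mulVec_mulVec, ← Units.val_mul, mul_inv_cancel, Units.val_one, Matrix.one_mulVec]

theorem sf_inv_mulVec_cancel (B : GL ι F) (x : ι → F) :
    ((B⁻¹ : GL ι F) : Matrix ι ι F) *ᵥ ((B : Matrix ι ι F) *ᵥ x) = x := by
  rw [Matrix.mulVec_mulVec, ← Units.val_mul, inv_mul_cancel, Units.val_one, Matrix.one_mulVec]

/-- Irreducibility is invariant under conjugation. -/
theorem sf_irr_conj (N : Subgroup (GL ι F)) (hirr : ActsIrreducibly (matrixSet N)) (B : GL ι F) :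
    ActsIrreducibly (matrixSet (N.map (MulAut.conj B).toMonoidHom)) := by
  intro W hW
  obtain ⟨W₀, hW₀⟩ : ∃ W₀ : Submodule F (ι → F),
      W₀ = W.comap (Matrix.toLin' (B : Matrix ι ι F)) := ⟨_, rfl⟩
  have hmemW₀ : ∀ x, x ∈ W₀ ↔ (B : Matrix ι ι F) *ᵥ x ∈ W := by
    intro x
    rw [hW₀, Submodule.mem_comap, Matrix.toLin'_apply]
  have hinvW₀ : ∀ s ∈ matrixSet N, W₀.map (Matrix.toLin' s) ≤ W₀ := by
    rintro s ⟨n, hn, rfl⟩ y hy
    obtain ⟨x, hx, rfl⟩ := Submodule.mem_map.mp hy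
    rw [Matrix.toLin'_apply, hmemW₀]
    have hx' := (hmemW₀ x).mp hx
    have h1 : Matrix.toLin' ((B * n * B⁻¹ : GL ι F) : Matrix ι ι F) ((B : Matrix ι ι F) *ᵥ x)
        ∈ W :=
      hW _ ⟨B * n * B⁻¹, Subgroup.mem_map_of_mem _ hn, rfl⟩ (Submodule.mem_map_of_mem hx')
    rw [Matrix.toLin'_apply, Matrix.mulVec_mulVec, ← Units.val_mul, inv_mul_cancel_right,
      Units.val_mul, ← Matrix.mulVec_mulVec] at h1
    exact h1
  rcases hirr W₀ hinvW₀ with h | h
  · left
    rw [Submodule.eq_bot_iff]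
    intro y hy
    have h1 : ((B⁻¹ : GL ι F) : Matrix ι ι F) *ᵥ y ∈ W₀ := by
      rw [hmemW₀, sf_mulVec_inv_cancel]
      exact hy
    rw [h, Submodule.mem_bot] at h1
    have h3 := sf_mulVec_inv_cancel B y
    rw [h1, Matrix.mulVec_zero] at h3
    exact h3.symm
  · right
    rw [Submodule.eq_top_iff']
    intro y
    have h1 : ((B⁻¹ : GL ι F) : Matrix ι ι F) *ᵥ y ∈ W₀ := by
      rw [h]
      exact Submodule.mem_top
    rw [hmemW₀, sf_mulVec_inv_cancel] at h1
    exact h1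

/-- **Piece SF of the S5874 call.**  An absolutely irreducible group of isometries of a
non-degenerate quadratic form that is realisable over a subfield: its normaliser lies in a
subfield group whose structure carries a multiple of the quadratic form. -/
theorem o12_subfield_quad [Fintype F] (Q : (ι → F) → F) (hQ : IsNondegenerateQuadraticForm Q)
    (hn : 2 ≤ Fintype.card ι) (F₁ : Subfield F) (N : Subgroup (GL ι F))
    (hNO : ∀ g ∈ N, ∀ x : ι → F, Q ((g : Matrix ι ι F) *ᵥ x) = Q x)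
    (habs : ActsAbsolutelyIrreducibly (matrixSet N)) (B : GL ι F)
    (hB : ∀ s ∈ matrixSet N, ∀ i j,
      ((B : Matrix ι ι F) * s * ((B⁻¹ : GL ι F) : Matrix ι ι F)) i j ∈ F₁) :
    ∃ (P' : GL ι F) (ζ : F), ζ ≠ 0 ∧
      (∀ g : GL ι F, (∀ x ∈ N, g * x * g⁻¹ ∈ N) → g ∈ subfieldSubgroup F₁ P') ∧
      IsQuadFormRationalStructure (fun v : ι → F => ζ * Q v) F₁ P' := by
  classical
  haveI : Nonempty ι := Fintype.card_pos_iff.mp (by omega)
  have hpolinv : ∀ g ∈ N, ∀ u v : ι → F,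
      QuadraticMap.polar Q ((g : Matrix ι ι F) *ᵥ u) ((g : Matrix ι ι F) *ᵥ v)
        = QuadraticMap.polar Q u v := by
    intro g hg u v
    rw [QuadraticMap.polar, QuadraticMap.polar, ← Matrix.mulVec_add, hNO g hg, hNO g hg,
      hNO g hg]
  obtain ⟨ζ, hζ0, hnorm, hform⟩ :=
    o12_subfield_bil hQ.polar_bilinear hQ.nondegenerate F₁ N hpolinv habs B hB
  refine ⟨B⁻¹, ζ, hζ0, hnorm, ?_⟩
  by_cases h2 : (2 : F) = 0
  · obtain ⟨Q'', hQ''⟩ : ∃ Q'' : (ι → F) → F,
        ∀ x, Q'' x = ζ * Q (((B⁻¹ : GL ι F) : Matrix ι ι F) *ᵥ x) := ⟨_, fun _ => rfl⟩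
    have hpol : ∀ x y, QuadraticMap.polar Q'' x y
        = ζ * QuadraticMap.polar Q (((B⁻¹ : GL ι F) : Matrix ι ι F) *ᵥ x)
          (((B⁻¹ : GL ι F) : Matrix ι ι F) *ᵥ y) := by
      intro x y
      rw [QuadraticMap.polar, QuadraticMap.polar, hQ'', hQ'', hQ'', Matrix.mulVec_add]
      ring
    have hQnd : IsNondegenerateQuadraticForm Q'' := by
      refine ⟨?_, ⟨?_, ?_, ?_, ?_⟩, ?_⟩
      · intro c v
        rw [hQ'', hQ'', Matrix.mulVec_smul, hQ.smul]
        ring
      · intro x y v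
        rw [hpol, hpol, hpol, Matrix.mulVec_add, hQ.polar_bilinear.add_left]
        ring
      · intro c x v
        rw [hpol, hpol, Matrix.mulVec_smul, hQ.polar_bilinear.smul_left]
        ring
      · intro v x y
        rw [hpol, hpol, hpol, Matrix.mulVec_add, hQ.polar_bilinear.add_right]
        ring
      · intro c v x
        rw [hpol, hpol, Matrix.mulVec_smul, hQ.polar_bilinear.smul_right]
        ring
      · intro v hv
        have hv' : ((B⁻¹ : GL ι F) : Matrix ι ι F) *ᵥ v ≠ 0 := by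
          intro h0
          apply hv
          have h := sf_mulVec_inv_cancel B v
          rw [h0, Matrix.mulVec_zero] at h
          exact h.symm
        obtain ⟨⟨x, hx⟩, ⟨y, hy⟩⟩ := hQ.nondegenerate _ hv'
        refine ⟨⟨(B : Matrix ι ι F) *ᵥ x, ?_⟩, ⟨(B : Matrix ι ι F) *ᵥ y, ?_⟩⟩
        · rw [hpol, sf_inv_mulVec_cancel]
          exact mul_ne_zero hζ0 hx
        · rw [hpol, sf_inv_mulVec_cancel]
          exact mul_ne_zero hζ0 hy
    obtain ⟨N', hN'⟩ : ∃ N' : Subgroup (GL ι F), N' = N.map (MulAut.conj B).toMonoidHom :=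
      ⟨_, rfl⟩
    have hN'mem : ∀ g ∈ N', ∃ n ∈ N, g = B * n * B⁻¹ := by
      intro g hg
      rw [hN'] at hg
      obtain ⟨n, hn, rfl⟩ := Subgroup.mem_map.mp hg
      exact ⟨n, hn, rfl⟩
    have hirr' : ActsIrreducibly (matrixSet N') := by
      rw [hN']
      exact sf_irr_conj N habs.1 B
    have hrat' : ∀ g ∈ N', ∀ i j, (g : Matrix ι ι F) i j ∈ F₁ := by
      intro g hg i j
      obtain ⟨n, hn, rfl⟩ := hN'mem g hg
      have h := hB _ ⟨n, hn, rfl⟩ i j
      rw [Units.val_mul, Units.val_mul]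
      exact h
    have hiso' : ∀ g ∈ N', ∀ x : ι → F, Q'' ((g : Matrix ι ι F) *ᵥ x) = Q'' x := by
      intro g hg x
      obtain ⟨n, hn, rfl⟩ := hN'mem g hg
      rw [hQ'', hQ'', Matrix.mulVec_mulVec, ← Units.val_mul]
      have e : B⁻¹ * (B * n * B⁻¹) = n * B⁻¹ := by group
      rw [e, Units.val_mul, ← Matrix.mulVec_mulVec, hNO n hn]
    have hG' : ∀ u v : ι → F, (∀ i, u i ∈ F₁) → (∀ i, v i ∈ F₁) →
        QuadraticMap.polar Q'' u v ∈ F₁ := by
      intro u v hu hv
      rw [hpol]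
      exact hform u v hu hv
    intro u hu
    have h := o12_quad_rational_char2 h2 Q'' hQnd F₁ hG' N' hirr' hrat' hiso' hn u hu
    rw [hQ''] at h
    exact h
  · intro u hu
    have h1 := hform u u hu hu
    have h3 : ∀ w : ι → F, QuadraticMap.polar Q w w = 2 * Q w := by
      intro w
      rw [QuadraticMap.polar, ← two_smul F w, hQ.smul]
      ring
    rw [h3] at h1
    have h2mem : (2 : F) ∈ F₁ := by
      rw [← one_add_one_eq_two]
      exact add_mem (one_mem _) (one_mem _)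
    have h4 := F₁.mul_mem (F₁.inv_mem h2mem) h1
    have e : (2 : F)⁻¹ * (ζ * (2 * Q (((B⁻¹ : GL ι F) : Matrix ι ι F) *ᵥ u)))
        = ζ * Q (((B⁻¹ : GL ι F) : Matrix ι ι F) *ᵥ u) := by
      field_simp
    rw [e] at h4
    exact h4

end Cfsg.Agent.Helper88
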