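-- helper88 library: PIECE TC2 of the S5874 call (helper95): in characteristic 2, a quadratic form
-- whose polar form is a tensor product of two alternating forms, preserved by an irreducible
-- subgroup of the tensor product group, vanishes on the pure tensors.
-- (Follows helper96's `Sy.tensor_quad`, keeping the auxiliary quadratic form explicit.)
import Cfsg.Agent.Helper96.SpTQ2
import Cfsg.Agent.Helper95.O12ZP

set_option autoImplicit false
set_option linter.unusedSectionVars false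
set_option linter.unusedVariables false
open Cfsg Cfsg.Geo Matrix
open scoped Kronecker

namespace Cfsg.Agent.Helper88

open Cfsg.Agent.Helper96.Sy

variable {ι : Type} [Fintype ι] [DecidableEq ι] {F : Type*} [Field F]

/-- **Piece TC2 of the S5874 call.** -/
theorem o12_tensor_char2 [Fintype F] (h2 : (2 : F) = 0) (hn : 2 ≤ Fintype.card ι)
    (Q : (ι → F) → F) (hQ : IsNondegenerateQuadraticForm Q) (H : Subgroup (GL ι F))
    (hH : ∀ h ∈ H, ∀ x, Q ((h : Matrix ι ι F) *ᵥ x) = Q x)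
    (hirr : ActsIrreducibly (matrixSet H)) {n₁ n₂ : ℕ} (e : ι ≃ Fin n₁ × Fin n₂) (P : GL ι F)
    (f₁ : (Fin n₁ → F) → (Fin n₁ → F) → F) (f₂ : (Fin n₂ → F) → (Fin n₂ → F) → F)
    (hf₁ : IsSymplecticForm f₁) (hf₂ : IsSymplecticForm f₂)
    (hT : IsTensorFormStructure id (QuadraticMap.polar Q) f₁ f₂ e P)
    (hle : H ≤ tensorProductSubgroup n₁ n₂ e P) :
    ∀ (s : Fin n₁ → F) (y : Fin n₂ → F),
      Q ((P : Matrix ι ι F) *ᵥ ((fun p : Fin n₁ × Fin n₂ => s p.1 * y p.2) ∘ e)) = 0 := by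
  classical
  obtain ⟨f, hfdef⟩ : ∃ f : (ι → F) → (ι → F) → F, f = QuadraticMap.polar Q := ⟨_, rfl⟩
  rw [← hfdef] at hT
  obtain ⟨c, hc, hT⟩ := hT
  have hTphi : ∀ z z' : Fin n₁ × Fin n₂ → F, f (phiL e P z) (phiL e P z') =
      c * formOfGram id (gramMatrix f₁ ⊗ₖ gramMatrix f₂) z z' := fun z z' => hT z z'
  obtain ⟨Q₀, hQdef⟩ : ∃ Q₀ : (ι → F) → F, ∀ v, Q₀ v = c * tq f₁ f₂ (psiL e P v) :=
    ⟨_, fun _ => rfl⟩
  have hpol : ∀ u v, Q₀ (u + v) - Q₀ u - Q₀ v = f u v := by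
    intro u v
    rw [hQdef, hQdef, hQdef, psiL_add]
    have h1 := tq_polar hf₁ hf₂ (psiL e P u) (psiL e P v)
    have h2 := hTphi (psiL e P u) (psiL e P v)
    rw [phiL_psiL, phiL_psiL] at h2
    rw [h2, ← h1]
    ring
  have hsm : ∀ (a : F) v, Q₀ (a • v) = a ^ 2 * Q₀ v := by
    intro a v
    rw [hQdef, hQdef, psiL_smul, tq_smul f₁ hf₂.bilinear]
    ring
  have hfiso : ∀ g ∈ H, ∀ u v,
      f ((g : Matrix ι ι F) *ᵥ u) ((g : Matrix ι ι F) *ᵥ v) = f u v := by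
    intro g hg u v
    rw [hfdef, QuadraticMap.polar, QuadraticMap.polar, ← Matrix.mulVec_add, hH g hg, hH g hg,
      hH g hg]
  have hinv₀ : ∀ g ∈ H, ∀ v, Q₀ ((g : Matrix ι ι F) *ᵥ v) = Q₀ v := by
    intro g hg v
    obtain ⟨A, B, hab⟩ := Helper98.mem_tensorProductSubgroup (hle hg)
    have hact := tensor_act e P hab
    have hq : ∀ z, tq f₁ f₂
        (((A : Matrix (Fin n₁) (Fin n₁) F) ⊗ₖ (B : Matrix (Fin n₂) (Fin n₂) F)) *ᵥ z)
        = tq f₁ f₂ z := by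
      apply quad_unique
      · intro a z
        rw [Matrix.mulVec_smul, tq_smul f₁ hf₂.bilinear]
      · intro a z
        exact tq_smul f₁ hf₂.bilinear a z
      · intro z z'
        rw [Matrix.mulVec_add, tq_polar hf₁ hf₂, tq_polar hf₁ hf₂]
        apply mul_left_cancel₀ hc
        rw [← hTphi, ← hTphi, ← hact, ← hact]
        exact hfiso g hg _ _
      · rintro ⟨a, b⟩
        rw [single_eq_pt, kron_mulVec_pt, tq_pure f₁ hf₂, tq_pure f₁ hf₂]
    rw [hQdef, hQdef]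
    have h1 : psiL e P ((g : Matrix ι ι F) *ᵥ v) =
        ((A : Matrix (Fin n₁) (Fin n₁) F) ⊗ₖ (B : Matrix (Fin n₂) (Fin n₂) F)) *ᵥ psiL e P v := by
      have h2 := hact (psiL e P v)
      rw [phiL_psiL] at h2
      rw [h2, psiL_phiL]
    rw [h1, hq]
  obtain ⟨Δ, hΔ⟩ : ∃ Δ : (ι → F) → F, ∀ x, Δ x = Q x - Q₀ x := ⟨_, fun _ => rfl⟩
  have hΔadd : ∀ x y, Δ (x + y) = Δ x + Δ y := by
    intro x y
    have h1 := hpol x y
    have h3 : Q (x + y) - Q x - Q y = f x y := by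
      rw [hfdef]
      rfl
    rw [hΔ, hΔ, hΔ]
    linear_combination h3 - h1
  have hΔsmul : ∀ (a : F) x, Δ (a • x) = a ^ 2 * Δ x := by
    intro a x
    rw [hΔ, hΔ, hQ.smul, hsm]
    ring
  have hΔinv : ∀ g ∈ H, ∀ x, Δ ((g : Matrix ι ι F) *ᵥ x) = Δ x := by
    intro g hg x
    rw [hΔ, hΔ, hH g hg, hinv₀ g hg]
  have hzero := Cfsg.Agent.Helper95.O12ZP.o12_zero_polar h2 hn Δ hΔadd hΔsmul H hirr hΔinv
  intro s y
  have h1 := hzero (phiL e P (ptL y s))
  rw [hΔ, hQdef, psiL_phiL, tq_pure f₁ hf₂, mul_zero, sub_zero] at h1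
  exact h1

end Cfsg.Agent.Helper88
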