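import Cfsg.Agent.Helper45.OctE

set_option autoImplicit false
set_option linter.unusedSectionVars false
set_option linter.unusedSimpArgs false
set_option linter.unusedVariables false
set_option linter.style.haveILetI false

/-!
# Piece WD of CALL S0817: Witt transitivity on pairs of skew orthogonal totally singular lines.
-/

universe u

namespace Cfsg.Agent.Helper88.OctP

open Cfsg Matrix Module Cfsg.Agent.Helper45 Cfsg.Agent.Helper45.AO Cfsg.Agent.Helper45.OO
  Cfsg.Agent.Helper45.Oct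

section Generic

variable {ι : Type} [Fintype ι] [DecidableEq ι] {F : Type u} [Field F] [Fintype F]
  (Q : QuadraticForm F (ι → F))

/-- spanning vectors of two skew lines are linearly independent -/
theorem wd_indep (L M : Submodule F (ι → F)) (h1 : ¬ Meet L M) (u v u' v' : ι → F)
    (hu : TSP Q u v) (hu' : TSP Q u' v') (hL : L = Submodule.span F {u, v})
    (hM : M = Submodule.span F {u', v'}) (α β α' β' : F)
    (h : α • u + β • v + (α' • u' + β' • v') = 0) : α = 0 ∧ β = 0 ∧ α' = 0 ∧ β' = 0 := by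
  have hx : α • u + β • v = 0 := by
    by_contra hne
    apply h1
    refine ⟨α • u + β • v, hne, ?_, ?_⟩
    · rw [hL]
      exact mem_pair.mpr ⟨α, β, rfl⟩
    · rw [hM]
      refine mem_pair.mpr ⟨-α', -β', ?_⟩
      rw [neg_smul, neg_smul, ← neg_add]
      exact (eq_neg_of_add_eq_zero_left h).symm
  have h' : α' • u' + β' • v' = 0 := by
    rw [hx, zero_add] at h
    exact h
  exact ⟨(hu.2.2.2 α β hx).1, (hu.2.2.2 α β hx).2, (hu'.2.2.2 α' β' h').1,
    (hu'.2.2.2 α' β' h').2⟩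

/-- PIECE WD -/
theorem exists_iso_dpair (hQ : (QuadraticMap.polarBilin Q).Nondegenerate)
    (L M L' M' : Submodule F (ι → F)) (hL : IsLine Q L) (hM : IsLine Q M)
    (hL' : IsLine Q L') (hM' : IsLine Q M') (h1 : ¬ Meet L M) (h2 : Perp Q L M)
    (h1' : ¬ Meet L' M') (h2' : Perp Q L' M') :
    ∃ k : ↥(isometryGroup F ⇑Q), (∀ x, mv ⇑Q k x ∈ L' ↔ x ∈ L) ∧
      (∀ x, mv ⇑Q k x ∈ M' ↔ x ∈ M) := by
  obtain ⟨u, v, huv, hLe⟩ := id hL
  obtain ⟨u', v', huv', hMe⟩ := id hM
  obtain ⟨a, b, hab, hLe'⟩ := id hL'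
  obtain ⟨a', b', hab', hMe'⟩ := id hM'
  obtain ⟨S, hS⟩ : ∃ S : (Fin 4 → F) →ₗ[F] (ι → F),
      ∀ c : Fin 4 → F, S c = c 0 • u + c 1 • v + (c 2 • u' + c 3 • v') := by
    refine ⟨Fintype.linearCombination F ![u, v, u', v'], fun c => ?_⟩
    simp [Fintype.linearCombination_apply, Fin.sum_univ_four, add_assoc]
  obtain ⟨S', hS'⟩ : ∃ S' : (Fin 4 → F) →ₗ[F] (ι → F),
      ∀ c : Fin 4 → F, S' c = c 0 • a + c 1 • b + (c 2 • a' + c 3 • b') := by
    refine ⟨Fintype.linearCombination F ![a, b, a', b'], fun c => ?_⟩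
    simp [Fintype.linearCombination_apply, Fin.sum_univ_four, add_assoc]
  have hSinj : ∀ c, S c = 0 → c = 0 := by
    intro c hc
    rw [hS] at hc
    obtain ⟨e0, e1, e2, e3⟩ := wd_indep Q L M h1 u v u' v' huv huv' hLe hMe _ _ _ _ hc
    funext i
    fin_cases i
    · exact e0
    · exact e1
    · exact e2
    · exact e3
  have hS'inj : ∀ c, S' c = 0 → c = 0 := by
    intro c hc
    rw [hS'] at hc
    obtain ⟨e0, e1, e2, e3⟩ := wd_indep Q L' M' h1' a b a' b' hab hab' hLe' hMe' _ _ _ _ hc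
    funext i
    fin_cases i
    · exact e0
    · exact e1
    · exact e2
    · exact e3
  obtain ⟨π, hπ⟩ := LinearMap.exists_leftInverse_of_injective S (LinearMap.ker_eq_bot'.mpr hSinj)
  have hπS : ∀ c, π (S c) = c := by
    intro c
    have := congrArg (fun f => f c) hπ
    simpa using this
  have hLmem : ∀ α β : F, α • u + β • v ∈ L := by
    intro α β
    rw [hLe]
    exact mem_pair.mpr ⟨α, β, rfl⟩
  have hMmem : ∀ α β : F, α • u' + β • v' ∈ M := by
    intro α β
    rw [hMe]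
    exact mem_pair.mpr ⟨α, β, rfl⟩
  have hL'mem : ∀ α β : F, α • a + β • b ∈ L' := by
    intro α β
    rw [hLe']
    exact mem_pair.mpr ⟨α, β, rfl⟩
  have hM'mem : ∀ α β : F, α • a' + β • b' ∈ M' := by
    intro α β
    rw [hMe']
    exact mem_pair.mpr ⟨α, β, rfl⟩
  have hSU : ∀ c, S c ∈ L ⊔ M := by
    intro c
    rw [hS]
    exact Submodule.add_mem_sup (hLmem _ _) (hMmem _ _)
  have hUmem : ∀ x ∈ L ⊔ M, ∃ c, x = S c := by
    intro x hx
    obtain ⟨y, hy, z, hz, rfl⟩ := Submodule.mem_sup.mp hx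
    rw [hLe] at hy
    rw [hMe] at hz
    obtain ⟨α, β, rfl⟩ := mem_pair.mp hy
    obtain ⟨α', β', rfl⟩ := mem_pair.mp hz
    refine ⟨![α, β, α', β'], ?_⟩
    rw [hS]
    simp
  have hsingS : ∀ c, Q (S c) = 0 := by
    intro c
    rw [hS, Helper13.Q_add', huv.sing, huv'.sing, h2 _ (hLmem _ _) _ (hMmem _ _)]
    simp
  have hsingS' : ∀ c, Q (S' c) = 0 := by
    intro c
    rw [hS', Helper13.Q_add', hab.sing, hab'.sing, h2' _ (hL'mem _ _) _ (hM'mem _ _)]
    simp
  obtain ⟨g, hg, hgx⟩ := Helper13.witt_quad Q hQ (L ⊔ M) (S' ∘ₗ π)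
    (by
      intro x hx
      obtain ⟨c, rfl⟩ := hUmem x hx
      rw [LinearMap.comp_apply, hπS, hsingS, hsingS'])
    (by
      intro x hx h0
      obtain ⟨c, rfl⟩ := hUmem x hx
      rw [LinearMap.comp_apply, hπS] at h0
      rw [hS'inj c h0, map_zero])
  obtain ⟨k, hk⟩ := Helper44.exists_iso_of_linearEquiv Q g hg
  have hgS : ∀ c, g (S c) = S' c := by
    intro c
    rw [hgx _ (hSU c), LinearMap.comp_apply, hπS]
  refine ⟨k, ?_, ?_⟩
  · intro x
    rw [hk]
    constructor
    · intro hx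
      rw [hLe'] at hx
      obtain ⟨α, β, hαβ⟩ := mem_pair.mp hx
      have h3 : g x = g (S ![α, β, 0, 0]) := by
        rw [hgS, hS', ← hαβ]
        simp
      have h4 := g.injective h3
      rw [h4, hS]
      have h5 : (![α, β, 0, 0] : Fin 4 → F) 0 • u + (![α, β, 0, 0] : Fin 4 → F) 1 • v +
          ((![α, β, 0, 0] : Fin 4 → F) 2 • u' + (![α, β, 0, 0] : Fin 4 → F) 3 • v')
          = α • u + β • v := by
        simp
      rw [h5]
      exact hLmem α β
    · intro hx
      rw [hLe] at hx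
      obtain ⟨α, β, rfl⟩ := mem_pair.mp hx
      have h3 : α • u + β • v = S ![α, β, 0, 0] := by
        rw [hS]
        simp
      rw [h3, hgS, hS']
      have h5 : (![α, β, 0, 0] : Fin 4 → F) 0 • a + (![α, β, 0, 0] : Fin 4 → F) 1 • b +
          ((![α, β, 0, 0] : Fin 4 → F) 2 • a' + (![α, β, 0, 0] : Fin 4 → F) 3 • b')
          = α • a + β • b := by
        simp
      rw [h5]
      exact hL'mem α β
  · intro x
    rw [hk]
    constructor
    · intro hx
      rw [hMe'] at hx
      obtain ⟨α, β, hαβ⟩ := mem_pair.mp hx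
      have h3 : g x = g (S ![0, 0, α, β]) := by
        rw [hgS, hS', ← hαβ]
        simp
      have h4 := g.injective h3
      rw [h4, hS]
      have h5 : (![0, 0, α, β] : Fin 4 → F) 0 • u + (![0, 0, α, β] : Fin 4 → F) 1 • v +
          ((![0, 0, α, β] : Fin 4 → F) 2 • u' + (![0, 0, α, β] : Fin 4 → F) 3 • v')
          = α • u' + β • v' := by
        simp
      rw [h5]
      exact hMmem α β
    · intro hx
      rw [hMe] at hx
      obtain ⟨α, β, rfl⟩ := mem_pair.mp hx
      have h3 : α • u' + β • v' = S ![0, 0, α, β] := by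
        rw [hS]
        simp
      rw [h3, hgS, hS']
      have h5 : (![0, 0, α, β] : Fin 4 → F) 0 • a + (![0, 0, α, β] : Fin 4 → F) 1 • b +
          ((![0, 0, α, β] : Fin 4 → F) 2 • a' + (![0, 0, α, β] : Fin 4 → F) 3 • b')
          = α • a' + β • b' := by
        simp
      rw [h5]
      exact hM'mem α β

end Generic

end Cfsg.Agent.Helper88.OctP
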