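import Mathlib
import Cfsg.Agent.Helper45.StDefs

/-! helper88: piece CENTER of CALL S2547 (helper45) (double). -/

set_option autoImplicit false

universe u

namespace Cfsg.Agent.Helper88.StCENTER

open Cfsg Cfsg.Agent.Helper13 Cfsg.Agent.Helper95.SpBN Cfsg.Agent.Helper45 Cfsg.Agent.Helper45.St

variable {ι : Type} [Fintype ι] [DecidableEq ι] {F : Type u} [Field F]
  {Q : QuadraticForm F (ι → F)} {m : ℕ} {L R : Fin m → ι}

theorem p_CENTER (hQ : (QuadraticMap.polarBilin Q).Nondegenerate) (H : HypPairs Q m L R)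
    (hB : BCrit Q L R) (v₀ : ι → F) (hv₀ : InV0 L R v₀) (hq₀ : Q v₀ ≠ 0)
    (z : ↥(isometryGroup F ⇑Q))
    (hz : ∀ i : Fin m, z * xB Q L R (Sum.inl i) v₀ = xB Q L R (Sum.inl i) v₀ * z) :
    z ∈ borelO Q L := by
  apply hB
  intro i
  have hne : ∀ t : F, v₀ ≠ t • ev L R F (Sum.inl i) := by
    intro t h
    apply hq₀
    rw [h, QuadraticMap.map_smul, ev_quad H, smul_zero]
  obtain ⟨x, hx1, hx2⟩ := exists_perp_not_perp Q hQ (ev L R F (Sum.inl i)) v₀ hne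
  have h1 : mv ⇑Q (z * xB Q L R (Sum.inl i) v₀) x = mv ⇑Q (xB Q L R (Sum.inl i) v₀ * z) x := by
    rw [hz i]
  rw [mv_mul, mv_mul, mv_xB H _ v₀ hv₀, mv_xB H _ v₀ hv₀] at h1
  have hx1' : x (idx L R (tauP m (Sum.inl i))) = 0 := by
    rw [← polar_ev H (Sum.inl i) x]
    exact hx1
  rw [hx1', mul_zero, sub_zero, zero_smul, sub_zero, mv_add, mv_smul] at h1
  obtain ⟨a, ha⟩ : ∃ a : F, a = QuadraticMap.polar ⇑Q v₀ x := ⟨_, rfl⟩
  obtain ⟨y, hy⟩ : ∃ y : ι → F, y = mv ⇑Q z x := ⟨_, rfl⟩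
  obtain ⟨w, hw⟩ : ∃ w : ι → F, w = mv ⇑Q z (ev L R F (Sum.inl i)) := ⟨_, rfl⟩
  rw [← ha, ← hy, ← hw] at h1
  rw [← ha] at hx2
  obtain ⟨c, hc⟩ : ∃ c : F, c = QuadraticMap.polar ⇑Q v₀ y -
      Q v₀ * y (idx L R (tauP m (Sum.inl i))) := ⟨_, rfl⟩
  obtain ⟨d, hd⟩ : ∃ d : F, d = y (idx L R (tauP m (Sum.inl i))) := ⟨_, rfl⟩
  rw [← hc, ← hd] at h1
  have h3 : a • w = c • ev L R F (Sum.inl i) - d • v₀ := by
    have h4 : y + a • w = y + (c • ev L R F (Sum.inl i) - d • v₀) := by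
      rw [h1, add_sub_assoc]
    exact add_left_cancel h4
  have h2 : w = (a⁻¹ * c) • ev L R F (Sum.inl i) + (-(a⁻¹ * d)) • v₀ := by
    calc w = a⁻¹ • (a • w) := by rw [smul_smul, inv_mul_cancel₀ hx2, one_smul]
      _ = _ := by rw [h3, smul_sub, smul_smul, smul_smul, neg_smul, sub_eq_add_neg]
  have h4 : Q w = 0 := by
    rw [hw, mv_quad ⇑Q z]
    exact ev_quad H _
  rw [h2, QuadraticMap.map_add Q, QuadraticMap.map_smul, QuadraticMap.map_smul, ev_quad H,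
    QuadraticMap.polar_smul_left, QuadraticMap.polar_smul_right, polar_ev_V0 H _ v₀ hv₀] at h4
  simp only [smul_eq_mul, mul_zero, zero_add, add_zero] at h4
  have h5 : a⁻¹ * d = 0 := by
    rcases mul_eq_zero.1 h4 with h | h
    · rcases mul_eq_zero.1 h with h' | h'
      · exact neg_eq_zero.1 h'
      · exact neg_eq_zero.1 h'
    · exact absurd h hq₀
  rw [h5, neg_zero, zero_smul, add_zero] at h2
  rw [← hw, h2]
  intro c' hc'
  apply flagP_ev (R := R) (F := F) i c'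
  intro h0
  apply hc'
  rw [Pi.smul_apply, h0, smul_zero]

end Cfsg.Agent.Helper88.StCENTER
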