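import Mathlib
import Cfsg.Agent.Helper45.StDefs

/-! helper88: piece PAT of CALL S2547 (helper45): monomial patterns in `O(Q)`. -/

set_option autoImplicit false

universe u

namespace Cfsg.Agent.Helper88.StPAT

open Cfsg Cfsg.Agent.Helper13 Cfsg.Agent.Helper95.SpBN Cfsg.Agent.Helper45 Cfsg.Agent.Helper45.St

variable {ι : Type} [Fintype ι] [DecidableEq ι] {F : Type u} [Field F]
  {Q : QuadraticForm F (ι → F)} {m : ℕ} {L R : Fin m → ι}

omit [Fintype ι] in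
theorem ev_ne_zero88 (a : Fin m ⊕ Fin m) : ev L R F a ≠ 0 := by
  intro h
  have h1 := congrFun h (idx L R a)
  rw [ev_apply, if_pos rfl, Pi.zero_apply] at h1
  exact one_ne_zero h1

theorem mv_zero88 (g : ↥(isometryGroup F ⇑Q)) : mv ⇑Q g (0 : ι → F) = 0 := by
  have h := mv_smul Q g (0 : F) (0 : ι → F)
  rw [zero_smul, zero_smul] at h
  exact h

/-- the coefficient of a monomial isometry is non-zero -/
theorem pat_coeff_ne_zero88 (g : ↥(isometryGroup F ⇑Q)) (a b : Fin m ⊕ Fin m) (c : F)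
    (h : mv ⇑Q g (ev L R F a) = c • ev L R F b) : c ≠ 0 := by
  intro hc
  rw [hc, zero_smul] at h
  have h1 := mv_inv_cancel' Q g (ev L R F a)
  rw [h, mv_zero88] at h1
  exact ev_ne_zero88 a h1.symm

theorem p_PATMUL (H : HypPairs Q m L R) (g h : ↥(isometryGroup F ⇑Q))
    (π ρ : Equiv.Perm (Fin m ⊕ Fin m)) (hg : PatO Q L R g π) (hh : PatO Q L R h ρ) :
    PatO Q L R (g * h) (π * ρ) := by
  intro a
  obtain ⟨c, hc⟩ := hh a
  obtain ⟨d, hd⟩ := hg (ρ a)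
  refine ⟨c * d, ?_⟩
  rw [mv_mul, hc, mv_smul, hd, smul_smul, Equiv.Perm.mul_apply]

theorem p_PATINV (H : HypPairs Q m L R) (g : ↥(isometryGroup F ⇑Q))
    (π : Equiv.Perm (Fin m ⊕ Fin m)) (hg : PatO Q L R g π) : PatO Q L R g⁻¹ π⁻¹ := by
  intro a
  obtain ⟨c, hc⟩ := hg (π⁻¹ a)
  have hπa : π (π⁻¹ a) = a := by
    rw [← Equiv.Perm.mul_apply, mul_inv_cancel, Equiv.Perm.one_apply]
  rw [hπa] at hc
  have hc0 := pat_coeff_ne_zero88 g _ _ c hc
  refine ⟨c⁻¹, ?_⟩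
  have h1 : ev L R F a = c⁻¹ • mv ⇑Q g (ev L R F (π⁻¹ a)) := by
    rw [hc, smul_smul, inv_mul_cancel₀ hc0, one_smul]
  rw [h1, mv_smul, mv_inv_cancel']

theorem p_PATONE : PatO Q L R (1 : ↥(isometryGroup F ⇑Q)) 1 := by
  intro a
  exact ⟨1, by rw [mv_one, one_smul, Equiv.Perm.one_apply]⟩

theorem p_PATTAU (H : HypPairs Q m L R) (g : ↥(isometryGroup F ⇑Q))
    (π : Equiv.Perm (Fin m ⊕ Fin m)) (hg : PatO Q L R g π) :
    ∀ a, π (tauP m a) = tauP m (π a) := by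
  intro a
  obtain ⟨c, hc⟩ := hg a
  obtain ⟨d, hd⟩ := hg (tauP m a)
  have h1 := mv_polar Q g (ev L R F a) (ev L R F (tauP m a))
  rw [hc, hd, polar_ev_ev H a (tauP m a), if_pos rfl, QuadraticMap.polar_smul_left,
    QuadraticMap.polar_smul_right, polar_ev_ev H] at h1
  by_contra hne
  rw [if_neg hne, smul_zero, smul_zero] at h1
  exact zero_ne_one h1

theorem p_NIFF (H : HypPairs Q m L R) (g : ↥(isometryGroup F ⇑Q)) :
    g ∈ monoO Q L R ↔ ∃ π : Equiv.Perm (Fin m ⊕ Fin m), PatO Q L R g π := by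
  constructor
  · intro hg
    unfold monoO at hg
    induction hg using Subgroup.closure_induction with
    | mem x hx => exact hx
    | one => exact ⟨1, p_PATONE⟩
    | mul x y _ _ hx hy =>
      obtain ⟨π, hπ⟩ := hx
      obtain ⟨ρ, hρ⟩ := hy
      exact ⟨π * ρ, p_PATMUL H x y π ρ hπ hρ⟩
    | inv x _ hx =>
      obtain ⟨π, hπ⟩ := hx
      exact ⟨π⁻¹, p_PATINV H x π hπ⟩
  · intro h
    exact Subgroup.subset_closure h

end Cfsg.Agent.Helper88.StPAT
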