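import Mathlib
import Cfsg.Agent.Helper45.StDefs
import Cfsg.Agent.Helper88.StPAT

/-! helper88: piece HD1 of CALL S2547 (helper45). -/

set_option autoImplicit false

universe u

namespace Cfsg.Agent.Helper88.StHD1

open Cfsg Cfsg.Agent.Helper13 Cfsg.Agent.Helper95.SpBN Cfsg.Agent.Helper45 Cfsg.Agent.Helper45.St

variable {ι : Type} [Fintype ι] [DecidableEq ι] {F : Type u} [Field F]
  {Q : QuadraticForm F (ι → F)} {m : ℕ} {L R : Fin m → ι}

theorem p_HD1 (H : HypPairs Q m L R) (g : ↥(isometryGroup F ⇑Q))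
    (π : Equiv.Perm (Fin m ⊕ Fin m)) (hτ : ∀ a, π (tauP m a) = tauP m (π a))
    (hg : g ∈ borelO Q L) (hπ : PatO Q L R g π) : π = 1 := by
  have h1 : ∀ j : Fin m, ∃ i : Fin m, (i : ℕ) ≤ j ∧ π (Sum.inl j) = Sum.inl i := by
    intro j
    obtain ⟨c, hc⟩ := hπ (Sum.inl j)
    have hc0 := Cfsg.Agent.Helper88.StPAT.pat_coeff_ne_zero88 g _ _ c hc
    have hf := flag_of_mem_borelO (R := R) g hg j
    rw [hc] at hf
    have h2 : (c • ev L R F (π (Sum.inl j))) (idx L R (π (Sum.inl j))) ≠ 0 := by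
      rw [Pi.smul_apply, ev_apply, if_pos rfl, smul_eq_mul, mul_one]
      exact hc0
    obtain ⟨i, hi, hiL⟩ := hf _ h2
    refine ⟨i, by omega, ?_⟩
    exact idx_injective H (hiL.trans (idx_inl i).symm)
  have h2 : ∀ n : ℕ, ∀ j : Fin m, (j : ℕ) = n → π (Sum.inl j) = Sum.inl j := by
    intro n
    induction n using Nat.strong_induction_on with
    | _ n ih =>
      intro j hj
      obtain ⟨i, hi, hπi⟩ := h1 j
      rcases Nat.lt_or_ge (i : ℕ) (j : ℕ) with hlt | hge
      · have h3 := ih i (by omega) i rfl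
        have h4 : (Sum.inl i : Fin m ⊕ Fin m) = Sum.inl j := π.injective (h3.trans hπi.symm)
        have h5 : i = j := Sum.inl_injective h4
        rw [h5] at hlt
        exact absurd hlt (lt_irrefl _)
      · have h5 : i = j := Fin.ext (by omega)
        rw [hπi, h5]
  apply Equiv.ext
  intro a
  rw [Equiv.Perm.one_apply]
  rcases a with j | j
  · exact h2 _ j rfl
  · have h3 := hτ (Sum.inl j)
    rw [tauP_inl, h2 _ j rfl, tauP_inl] at h3
    exact h3

end Cfsg.Agent.Helper88.StHD1
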