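import Mathlib
import Cfsg.Agent.Helper45.StDefs

/-! helper88: piece PAT1UP of CALL S2547 (helper45). -/

set_option autoImplicit false

universe u

namespace Cfsg.Agent.Helper88.StPAT1UP

open Cfsg Cfsg.Agent.Helper13 Cfsg.Agent.Helper95.SpBN Cfsg.Agent.Helper45 Cfsg.Agent.Helper45.St

variable {ι : Type} [Fintype ι] [DecidableEq ι] {F : Type u} [Field F]
  {Q : QuadraticForm F (ι → F)} {m : ℕ} {L R : Fin m → ι}

theorem p_PAT1UP (H : HypPairs Q m L R) (hB : BCrit Q L R) (g : ↥(isometryGroup F ⇑Q))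
    (hg : PatO Q L R g 1) : g ∈ borelO Q L := by
  apply hB
  intro j
  obtain ⟨c, hc⟩ := hg (Sum.inl j)
  rw [hc, Equiv.Perm.one_apply]
  intro c' hc'
  apply flagP_ev (R := R) (F := F) j c'
  intro h0
  apply hc'
  rw [Pi.smul_apply, h0, smul_zero]

end Cfsg.Agent.Helper88.StPAT1UP
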