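import Mathlib
import Cfsg.Agent.Helper45.StDefs

/-! helper88: piece TORA of CALL S2547 (helper45). -/

set_option autoImplicit false

universe u

namespace Cfsg.Agent.Helper88.StTORA

open Cfsg Cfsg.Agent.Helper13 Cfsg.Agent.Helper95.SpBN Cfsg.Agent.Helper45 Cfsg.Agent.Helper45.St

variable {ι : Type} [Fintype ι] [DecidableEq ι] {F : Type u} [Field F]
  {Q : QuadraticForm F (ι → F)} {m : ℕ} {L R : Fin m → ι}

theorem p_TORA (H : HypPairs Q m L R) (p : ℕ) [Fact p.Prime] [CharP F p]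
    (g : ↥(isometryGroup F ⇑Q)) (hg : PatO Q L R g 1) (hgp : g ^ p = 1) :
    ∀ a, mv ⇑Q g (ev L R F a) = ev L R F a := by
  intro a
  obtain ⟨c, hc⟩ := hg a
  rw [Equiv.Perm.one_apply] at hc
  have hpow : ∀ k : ℕ, mv ⇑Q (g ^ k) (ev L R F a) = c ^ k • ev L R F a := by
    intro k
    induction k with
    | zero => rw [pow_zero, mv_one, pow_zero, one_smul]
    | succ k ih => rw [pow_succ, mv_mul, hc, mv_smul, ih, smul_smul, pow_succ, mul_comm]
  have h1 := hpow p
  rw [hgp, mv_one] at h1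
  have h2 := congrFun h1 (idx L R a)
  rw [Pi.smul_apply, ev_apply, if_pos rfl, smul_eq_mul, mul_one] at h2
  have h3 : (c - 1) ^ p = 0 := by
    rw [sub_pow_char, one_pow, ← h2, sub_self]
  have h4 : c = 1 := sub_eq_zero.1 ((pow_eq_zero_iff (Fact.out : p.Prime).ne_zero).1 h3)
  rw [hc, h4, one_smul]

end Cfsg.Agent.Helper88.StTORA
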