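import Mathlib
import Cfsg.Agent.Helper45.StDefs

/-! helper88: piece XADD of CALL S2547 (helper45). -/

set_option autoImplicit false

universe u

namespace Cfsg.Agent.Helper88.StXADD

open Cfsg Cfsg.Agent.Helper13 Cfsg.Agent.Helper95.SpBN Cfsg.Agent.Helper45 Cfsg.Agent.Helper45.St

variable {ι : Type} [Fintype ι] [DecidableEq ι] {F : Type u} [Field F]
  {Q : QuadraticForm F (ι → F)} {m : ℕ} {L R : Fin m → ι}

theorem eichO_congr88 (u b b' : ι → F) (hu : Q u = 0) (hub : QuadraticMap.polar ⇑Q u b = 0)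
    (hub' : QuadraticMap.polar ⇑Q u b' = 0) (h : b = b') :
    eichO Q u b hu hub = eichO Q u b' hu hub' := by
  subst h
  rfl

theorem p_XSADD (H : HypPairs Q m L R) (a b : Fin m ⊕ Fin m) (hab : b ≠ tauP m a) (t u : F) :
    xS Q L R a b (t + u) = xS Q L R a b t * xS Q L R a b u := by
  have h1 : QuadraticMap.polar ⇑Q (ev L R F a) (t • ev L R F b + u • ev L R F b) = 0 := by
    rw [← add_smul]
    exact polar_ev_smul_ev H a b hab (t + u)
  rw [xS_eq H a b hab t, xS_eq H a b hab u, xS_eq H a b hab (t + u),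
    eichO_mul Q _ _ _ _ _ _ h1]
  exact eichO_congr88 _ _ _ _ _ _ (add_smul t u _)

theorem p_XBADD (H : HypPairs Q m L R) (a : Fin m ⊕ Fin m) (v w : ι → F) (hv : InV0 L R v)
    (hw : InV0 L R w) : xB Q L R a (v + w) = xB Q L R a v * xB Q L R a w := by
  have hvw : InV0 L R (v + w) := (V0 L R F).add_mem hv hw
  rw [xB_eq H a v hv, xB_eq H a w hw, xB_eq H a (v + w) hvw, eichO_mul Q _ _ _ _ _ _ _]

end Cfsg.Agent.Helper88.StXADD
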