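import Mathlib
import Cfsg.Prelude.Def_GeometricClasses
import Cfsg.Prelude.Def_Classical
import Cfsg.Agent.Helper35.S88Defs
import Cfsg.Agent.Helper58.TSDefs
import Cfsg.Agent.Helper43.PrimeOrdO3
import Cfsg.Agent.Helper33.OType
import Cfsg.Agent.Helper43.S88OEDefs
import Cfsg.Agent.Helper98.TBSPLIT
import Cfsg.Agent.Helper93.TBPROD

set_option autoImplicit false

/-!
# helper88: sub-CALL S88OE (helper43, row S5988), piece BLKPROD (`oe_blk_prod`)

The orthogonal sum of two flagged blocks.  The direction of PSND that is needed is proved here under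
a fresh name (`blkprod_sub_nd88`).
-/

namespace Cfsg.Agent.Helper88.S88OE

open Module Polynomial Cfsg Cfsg.Geo Cfsg.Agent.Helper58.TS Cfsg.Agent.Helper35.S88
open Cfsg.Agent.Helper43 Cfsg.Agent.Helper43.OrthEven Cfsg.Agent.Helper43.CycFactors
  Cfsg.Agent.Helper43.PrimeOrdMat Cfsg.Agent.Helper43.S88OE
open scoped MatrixGroups

universe u

section lin

variable {F : Type*} [Field F] {Va Vb : Type*} [AddCommGroup Va] [Module F Va] [AddCommGroup Vb]
  [Module F Vb]

/-- the polar form of a restricted form -/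
theorem polar_comp_subtype88 {V : Type*} [AddCommGroup V] [Module F V] (Q : QuadraticForm F V)
    (U : Submodule F V) (x y : U) :
    QuadraticMap.polar (Q.comp U.subtype) x y = QuadraticMap.polar Q (x : V) (y : V) := by
  unfold QuadraticMap.polar
  rw [QuadraticMap.comp_apply, QuadraticMap.comp_apply, QuadraticMap.comp_apply]
  rfl

/-- a product subspace of two nondegenerate subspaces is nondegenerate -/
theorem blkprod_sub_nd88 (Qa : QuadraticForm F Va) (Qb : QuadraticForm F Vb) (Ua : Submodule F Va)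
    (Ub : Submodule F Vb) (ha : PolarNondeg (Qa.comp Ua.subtype))
    (hb : PolarNondeg (Qb.comp Ub.subtype)) :
    PolarNondeg ((Qa.prod Qb).comp (Ua.prod Ub).subtype) := by
  intro v hv
  have hv1 := (Submodule.mem_prod.1 v.2).1
  have hv2 := (Submodule.mem_prod.1 v.2).2
  have h1 : (⟨v.1.1, hv1⟩ : Ua) = 0 := by
    apply ha
    intro w
    have h := hv ⟨((w : Va), 0), Submodule.mem_prod.2 ⟨w.2, Ub.zero_mem⟩⟩
    rw [polar_comp_subtype88, QuadraticMap.polar_prod] at h
    rw [polar_comp_subtype88]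
    simpa using h
  have h2 : (⟨v.1.2, hv2⟩ : Ub) = 0 := by
    apply hb
    intro w
    have h := hv ⟨(0, (w : Vb)), Submodule.mem_prod.2 ⟨Ua.zero_mem, w.2⟩⟩
    rw [polar_comp_subtype88, QuadraticMap.polar_prod] at h
    rw [polar_comp_subtype88]
    simpa using h
  have h1' : v.1.1 = 0 := congrArg Subtype.val h1
  have h2' : v.1.2 = 0 := congrArg Subtype.val h2
  apply Subtype.ext
  exact Prod.ext h1' h2'

/-- BLKPROD: the orthogonal sum of two flagged blocks. -/
theorem oe_blk_prod [FiniteDimensional F Va] [FiniteDimensional F Vb] (r : ℕ)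
    (Qa : QuadraticForm F Va) (Ta : Module.End F Va) (Qb : QuadraticForm F Vb)
    (Tb : Module.End F Vb) (ha : Blk r Qa Ta) (hb : Blk r Qb Tb) (i na nb : ℕ)
    (hfa : Flag Qa Ta i na) (hfb : Flag Qb Tb i nb) :
    Blk r (Qa.prod Qb) (Ta.prodMap Tb) ∧ Flag (Qa.prod Qb) (Ta.prodMap Tb) i (na + nb) ∧
      (Ta.prodMap Tb).charpoly = Ta.charpoly * Tb.charpoly := by
  refine ⟨⟨Cfsg.Agent.Helper93.TB.tb_prod_nd Qa Qb ha.1 hb.1, ?_, ?_⟩, ?_,
    LinearMap.charpoly_prodMap Ta Tb⟩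
  · intro v
    rw [QuadraticMap.prod_apply, QuadraticMap.prod_apply]
    have h1 : (Ta.prodMap Tb v).1 = Ta v.1 := rfl
    have h2 : (Ta.prodMap Tb v).2 = Tb v.2 := rfl
    rw [h1, h2, ha.2.1, hb.2.1]
  · rw [Cfsg.Agent.Helper98.TB.tb_aeval_prod, ha.2.2, hb.2.2]
    exact LinearMap.prodMap_zero
  · intro s hs
    obtain ⟨Ua, hUa, hUand, hUad⟩ := hfa (min s na) (min_le_right _ _)
    obtain ⟨Ub, hUb, hUbnd, hUbd⟩ := hfb (s - min s na) (by omega)
    refine ⟨Ua.prod Ub, ?_, blkprod_sub_nd88 Qa Qb Ua Ub hUand hUbnd, ?_⟩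
    · rintro _ ⟨⟨a, b⟩, hab, rfl⟩
      obtain ⟨ha', hb'⟩ := Submodule.mem_prod.1 hab
      exact Submodule.mem_prod.2 ⟨hUa ⟨a, ha', rfl⟩, hUb ⟨b, hb', rfl⟩⟩
    · rw [LinearEquiv.finrank_eq (Cfsg.Agent.Helper93.TB.subProdEquiv Ua Ub),
        Module.finrank_prod, hUad, hUbd, ← Nat.mul_add]
      congr 1
      omega

end lin

end Cfsg.Agent.Helper88.S88OE
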