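import Mathlib
import Cfsg.Agent.Helper96.OHDefs
import Cfsg.Agent.Helper33.OType
import Cfsg.Agent.Helper43.OrthEven
import Cfsg.Agent.Helper43.OrthPlane
import Cfsg.Agent.S2617
import Cfsg.Agent.Helper84.OEETRANSFIXCore

set_option autoImplicit false
set_option linter.unusedSectionVars false
set_option linter.unusedVariables false

/-!
# helper88: EISO in ALL characteristics (reusable for S5988 / CALL S88: CAU, NDIV, OOB, OEB)

`oe_iso_all`: two nondegenerate subspaces of the same even dimension and of the same type are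
isometric - no hypothesis on the characteristic (`Helper14.OEEISO.oe_iso` needs `2 ≠ 0`).
Route: `OType.plus_iff_hasTS`, `Helper43.OrthEven.exists_plus_of_hasTS` (both plus) resp.
`exists_minus_of_not_hasTS` + `Helper43.OrthEven.exists_minus_of_not_hasTS'` (both minus, the second
one recognised with the anisotropic binary form of the first).
-/

namespace Cfsg.Agent.Helper88.OEAll

open Module Polynomial Cfsg Cfsg.Geo
open Cfsg.Agent.Helper13.TIu Cfsg.Agent.Helper96.OH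

variable {ι : Type} [Fintype ι] [DecidableEq ι] {F : Type*} [Field F] (Q : (ι → F) → F)

/-- EISO, all characteristics (dimension given as `2 * l`). -/
theorem oe_iso_all [Fintype F] (hQ : IsNondegenerateQuadraticForm Q)
    (W W' : Submodule F (ι → F)) (hW : ONd Q W) (hW' : ONd Q W') (l : ℕ)
    (hdim : finrank F W = 2 * l) (hdim' : finrank F W' = 2 * l)
    (hty : OPl Q W ↔ OPl Q W') : AreIsometricFor Q W W' := by
  have hnd := Cfsg.Agent.Helper33.OType.polarNondeg_restr Q hQ W hW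
  have hnd' := Cfsg.Agent.Helper33.OType.polarNondeg_restr Q hQ W' hW'
  have hiff := Cfsg.Agent.Helper33.OType.plus_iff_hasTS Q hQ W hW hdim
  have hiff' := Cfsg.Agent.Helper33.OType.plus_iff_hasTS Q hQ W' hW' hdim'
  by_cases hl : l = 0
  · -- both spaces are zero
    have h0 : finrank F W = 0 := by rw [hdim, hl]
    have h0' : finrank F W' = 0 := by rw [hdim', hl]
    have hb : W = ⊥ := Submodule.finrank_eq_zero.mp h0
    have hb' : W' = ⊥ := Submodule.finrank_eq_zero.mp h0'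
    subst hb
    subst hb'
    exact ⟨LinearEquiv.refl F _, fun w => rfl⟩
  · have hl1 : 1 ≤ l := Nat.one_le_iff_ne_zero.mpr hl
    by_cases hpl : OPl Q W
    · obtain ⟨Ψ₁, hΨ₁⟩ := Cfsg.Agent.Helper43.OrthEven.exists_plus_of_hasTS hl1 hdim
        (Cfsg.Agent.Helper33.OType.restr Q hQ W) hnd (hiff.mp hpl)
      obtain ⟨Ψ₂, hΨ₂⟩ := Cfsg.Agent.Helper43.OrthEven.exists_plus_of_hasTS hl1 hdim'
        (Cfsg.Agent.Helper33.OType.restr Q hQ W') hnd' (hiff'.mp (hty.mp hpl))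
      refine ⟨Ψ₁.symm.trans Ψ₂, fun w => ?_⟩
      have e1 : Q ((Ψ₂ (Ψ₁.symm w) : W') : ι → F) = Cfsg.quadFormPlus l F (Ψ₁.symm w) :=
        hΨ₂ (Ψ₁.symm w)
      have e2 : Q ((Ψ₁ (Ψ₁.symm w) : W) : ι → F) = Cfsg.quadFormPlus l F (Ψ₁.symm w) :=
        hΨ₁ (Ψ₁.symm w)
      rw [LinearEquiv.apply_symm_apply] at e2
      rw [LinearEquiv.trans_apply, e1, e2]
    · have hpl' : ¬ OPl Q W' := fun h => hpl (hty.mpr h)
      obtain ⟨ζ, hζ, Ψ₁, hΨ₁⟩ := Cfsg.Agent.Helper43.OrthEven.exists_minus_of_not_hasTS hl1 hdim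
        (Cfsg.Agent.Helper33.OType.restr Q hQ W) hnd (fun h => hpl (hiff.mpr h))
      have hac := Cfsg.Agent.S2617.aniso ζ hζ
      obtain ⟨Ψ₂, hΨ₂⟩ := Cfsg.Agent.Helper43.OrthEven.exists_minus_of_not_hasTS' hl1 hdim'
        (Cfsg.Agent.Helper33.OType.restr Q hQ W') hnd' (fun h => hpl' (hiff'.mpr h)) 1 ζ hac
      refine ⟨Ψ₁.symm.trans Ψ₂, fun w => ?_⟩
      have e1 : Q ((Ψ₂ (Ψ₁.symm w) : W') : ι → F) =
          Cfsg.quadFormMinus (l - 1) F 1 ζ (Ψ₁.symm w) := hΨ₂ (Ψ₁.symm w)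
      have e2 : Q ((Ψ₁ (Ψ₁.symm w) : W) : ι → F) =
          Cfsg.quadFormMinus (l - 1) F 1 ζ (Ψ₁.symm w) := hΨ₁ (Ψ₁.symm w)
      rw [LinearEquiv.apply_symm_apply] at e2
      rw [LinearEquiv.trans_apply, e1, e2]

/-- ETRANSFIX, all characteristics: `oe_iso_all` + the Witt half `Helper84.oetransfix_core`. -/
theorem oe_trans_fix_all [Fintype F] (hQ : IsNondegenerateQuadraticForm Q)
    (K W W' : Submodule F (ι → F)) (hK : ONd Q K) (hW : ONd Q W) (hW' : ONd Q W') (hWK : W ≤ K)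
    (hW'K : W' ≤ K) (l : ℕ) (hdim : finrank F W = 2 * l) (hdim' : finrank F W' = 2 * l)
    (hty : OPl Q W ↔ OPl Q W') :
    ∃ g : Module.End F (ι → F), OPres Q g ∧ Function.Bijective g ∧ W.map g = W' ∧
      ∀ v, (∀ u ∈ K, QuadraticMap.polar Q u v = 0) → g v = v :=
  Cfsg.Agent.Helper84.OE5993.oetransfix_core Q hQ K W W' hK hW hW' hWK hW'K
    (oe_iso_all Q hQ W W' hW hW' l hdim hdim' hty)

end Cfsg.Agent.Helper88.OEAll
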