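import Cfsg.Agent.Lead.LWDefs

/-!
Helper88: core of PIECE A10 of CALL S0747 (lead): the assembly with the pieces T4, A5, A8, A11, A12
as hypotheses.
-/

set_option autoImplicit false

namespace Cfsg.Agent.Helper88.LWA10

open Cfsg.Agent.Lead.LW

variable {α : Type*} [Fintype α] [DecidableEq α]

theorem good_of_odd_core (G : Subgroup (Equiv.Perm α)) (k : ℕ) (hk : 4 ≤ k) (Γ : Finset α)
    (hT4 : Fintype.card α ≤ k + 3 ∨ (Fintype.card α = k + 7 ∧ pstab G Γ = ⊥))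
    (hA5 : Fintype.card α ≤ 2 * k → Good G k)
    (hA8 : (k = 4 ∨ k = 5) → Fintype.card α = k + 7 →
      (∀ Γ : Finset α, Γ.card = k → pstab G Γ = ⊥) → Good G k)
    (hA11 : pstab G Γ = ⊥ → ∀ Γ' : Finset α, Γ'.card = k → pstab G Γ' = ⊥)
    (hA12 : Fintype.card α = k + 7 → (∀ Γ : Finset α, Γ.card = k → pstab G Γ = ⊥) →
      k = 4 ∨ k = 5) : Good G k := by
  rcases hT4 with h | ⟨hn, hb⟩
  · exact hA5 (by omega)
  · have hs := hA11 hb
    exact hA8 (hA12 hn hs) hn hs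

end Cfsg.Agent.Helper88.LWA10
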