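import Cfsg.Agent.Lead.LWDefs
import Cfsg.Agent.Helper88.LWA10Core
import Cfsg.Agent.Helper58.LWT4
import Cfsg.Agent.Helper39.LWA5
import Cfsg.Agent.Helper39.LWA8
import Cfsg.Agent.Helper55.LWA11
import Cfsg.Agent.Helper55.LWA12

/-!
Helper88: PIECE A10 of CALL S0747 (lead): assembly of T4, A5, A8, A11, A12.
-/

set_option autoImplicit false

namespace Cfsg.Agent.Helper88.LWA10

open Cfsg.Agent.Lead.LW

variable {α : Type*} [Fintype α] [DecidableEq α]

-- PIECE A10  (assembly: T4 A5 A8 A11 A12)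
theorem good_of_odd (G : Subgroup (Equiv.Perm α)) (k : ℕ) (hk : 4 ≤ k) (hkn : k < Fintype.card α)
    (hG : KTrans G k) (Γ : Finset α) (hΓ : Γ.card = k) (hodd : Odd (Nat.card (pstab G Γ))) :
    Good G k :=
  good_of_odd_core G k hk Γ
    (Cfsg.Agent.Helper58.LWT4.card_of_odd G k hk hG Γ hΓ hodd)
    (fun h => Cfsg.Agent.Helper39.LWA5.good_of_small G k hk hkn h hG)
    (fun h4 hn hs => Cfsg.Agent.Helper39.LWA8.good_of_seven G k h4 hn hG hs)
    (fun hb => Cfsg.Agent.Helper55.LWA11.pstab_eq_bot_all G k hG Γ hΓ hb)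
    (fun hn hs => Cfsg.Agent.Helper55.LWA12.sharp_seven_le_five G k hk hn hG hs)

end Cfsg.Agent.Helper88.LWA10
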