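import Mathlib
import Cfsg.Agent.Helper64.LW2Defs

/-!
# S0745 piece ALT (helper88): a subgroup of half the order of the symmetric group is the
alternating group.
-/

set_option autoImplicit false

namespace Cfsg.Agent.Helper88.LW2ALT

open Cfsg.Agent.Lead.LW Cfsg.Agent.Helper64.LW2

variable {α : Type*} [Fintype α] [DecidableEq α]

-- PIECE ALT
theorem eq_alternating_of_card (G : Subgroup (Equiv.Perm α))
    (h : 2 * Nat.card G = (Fintype.card α).factorial) : G = alternatingGroup α := by
  apply Equiv.Perm.eq_alternatingGroup_of_index_eq_two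
  have h1 : G.index * Nat.card G = Nat.card (Equiv.Perm α) := G.index_mul_card
  rw [Nat.card_eq_fintype_card (α := Equiv.Perm α), Fintype.card_perm, ← h] at h1
  have hpos : 0 < Nat.card G := Nat.card_pos
  exact Nat.eq_of_mul_eq_mul_right hpos h1

end Cfsg.Agent.Helper88.LW2ALT
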