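import Mathlib
import Cfsg.Prelude.Def_GeometricClasses
import Cfsg.Prelude.Def_LieClassical
import Cfsg.Agent.Helper69.E4Def
import Cfsg.Agent.Helper69.E4UDef
import Cfsg.Agent.Helper97.UForm
import Cfsg.Agent.Helper69.E4NF4P
import Cfsg.Agent.Helper66.E4BASE2
import Cfsg.Agent.Helper42.E3UNFU

/-!
# Piece NFU of CALL S6001 (helper88): unitary normal form of `4 ∘ 2^{1+4} ≤ GU_4(p)`
(adapted from `Cfsg.Agent.Helper42.e3u_normal_form`, the 3-dimensional model).
-/

set_option autoImplicit false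

namespace Cfsg.Agent.Helper88

open Cfsg.Agent.Helper69 Cfsg.Agent.Helper97
open scoped Matrix

/-- from `eᵀ M e^σ = M` for a symmetric, `σ`-fixed involutory matrix `e` to commutation -/
theorem e4u_commute_of_inv88 {F : Type*} [Field F] (σ : F ≃+* F)
    (M e : Matrix (Fin 4) (Fin 4) F) (het : eᵀ = e) (heσ : e.map σ = e) (hee : e * e = 1)
    (h : eᵀ * M * e.map σ = M) : M * e = e * M := by
  rw [het, heσ] at h
  calc M * e = e * e * (M * e) := by rw [hee, one_mul]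
    _ = e * (e * M * e) := by simp only [Matrix.mul_assoc]
    _ = e * M := by rw [h]

/-- PIECE NFU -/
theorem e4u_normal_form {F : Type*} [Field F] [Fintype F] {p : ℕ} [Fact p.Prime] [CharP F p]
    (hF : Fintype.card F = p ^ 2) (h2 : (2 : F) ≠ 0)
    (R : Subgroup (GL (Fin 4) F)) (hRs : Cfsg.Geo.IsSymplecticTypeGroup 2 R)
    (hRi : Cfsg.Geo.ActsAbsolutelyIrreducibly (Cfsg.Geo.matrixSet R))
    (hRU : R ≤ Cfsg.GU 4 F p) (hR6 : Nat.card R = 2 ^ 6)
    (hRZ : Nat.card (Subgroup.center R) = 4) :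
    ∃ (ι : F) (P : GL (Fin 4) F), ι ^ 2 = -1 ∧ P ∈ Cfsg.GU 4 F p ∧
      R = (E4 ι).map (MulAut.conj P).toMonoidHom := by
  obtain ⟨ι, P₀, hι, hRP⟩ := e4_normal_form' h2 R hRs hRi hR6 hRZ
  obtain ⟨σ, hσ⟩ := exists_sigma hF
  set A : Matrix (Fin 4) (Fin 4) F := (P₀ : Matrix (Fin 4) (Fin 4) F) with hA
  set B : Matrix (Fin 4) (Fin 4) F := ((P₀⁻¹ : GL (Fin 4) F) : Matrix (Fin 4) (Fin 4) F) with hB
  have hAB : A * B = 1 := by rw [hA, hB, ← Units.val_mul, mul_inv_cancel, Units.val_one]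
  have hBA : B * A = 1 := by rw [hA, hB, ← Units.val_mul, inv_mul_cancel, Units.val_one]
  set M : Matrix (Fin 4) (Fin 4) F := Aᵀ * A.map σ with hM
  have hinv : ∀ e ∈ E4 ι, (e : Matrix (Fin 4) (Fin 4) F)ᵀ * M *
      (e : Matrix (Fin 4) (Fin 4) F).map σ = M := by
    intro e he
    apply Cfsg.Agent.Helper42.e3u_gram_invariant hσ P₀ e
    apply hRU
    rw [hRP]
    exact Subgroup.mem_map_of_mem _ he
  have hX1 : M * e4X1 F = e4X1 F * M := by
    have h1 := hinv _ (Cfsg.Agent.Helper66.e4gX1_mem ι)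
    have h2' : ((Cfsg.Agent.Helper66.e4gX1 F : GL (Fin 4) F) : Matrix (Fin 4) (Fin 4) F) =
        e4X1 F := rfl
    rw [h2'] at h1
    have het : (e4X1 F)ᵀ = e4X1 F := by
      ext i j
      fin_cases i <;> fin_cases j <;> simp [e4X1]
    have heσ : (e4X1 F).map σ = e4X1 F := by
      ext i j
      fin_cases i <;> fin_cases j <;> simp [e4X1]
    exact e4u_commute_of_inv88 σ M (e4X1 F) het heσ Cfsg.Agent.Helper66.e4X1_mul_self h1
  have hZ1 : M * e4Z1 F = e4Z1 F * M := by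
    have h1 := hinv _ (Cfsg.Agent.Helper66.e4gZ1_mem ι)
    have h2' : ((Cfsg.Agent.Helper66.e4gZ1 F : GL (Fin 4) F) : Matrix (Fin 4) (Fin 4) F) =
        e4Z1 F := rfl
    rw [h2'] at h1
    have het : (e4Z1 F)ᵀ = e4Z1 F := by
      ext i j
      fin_cases i <;> fin_cases j <;> simp [e4Z1]
    have heσ : (e4Z1 F).map σ = e4Z1 F := by
      ext i j
      fin_cases i <;> fin_cases j <;> simp [e4Z1]
    exact e4u_commute_of_inv88 σ M (e4Z1 F) het heσ Cfsg.Agent.Helper66.e4Z1_mul_self h1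
  have hX2 : M * e4X2 F = e4X2 F * M := by
    have h1 := hinv _ (Cfsg.Agent.Helper66.e4gX2_mem ι)
    have h2' : ((Cfsg.Agent.Helper66.e4gX2 F : GL (Fin 4) F) : Matrix (Fin 4) (Fin 4) F) =
        e4X2 F := rfl
    rw [h2'] at h1
    have het : (e4X2 F)ᵀ = e4X2 F := by
      ext i j
      fin_cases i <;> fin_cases j <;> simp [e4X2]
    have heσ : (e4X2 F).map σ = e4X2 F := by
      ext i j
      fin_cases i <;> fin_cases j <;> simp [e4X2]
    exact e4u_commute_of_inv88 σ M (e4X2 F) het heσ Cfsg.Agent.Helper66.e4X2_mul_self h1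
  have hZ2 : M * e4Z2 F = e4Z2 F * M := by
    have h1 := hinv _ (Cfsg.Agent.Helper66.e4gZ2_mem ι)
    have h2' : ((Cfsg.Agent.Helper66.e4gZ2 F : GL (Fin 4) F) : Matrix (Fin 4) (Fin 4) F) =
        e4Z2 F := rfl
    rw [h2'] at h1
    have het : (e4Z2 F)ᵀ = e4Z2 F := by
      ext i j
      fin_cases i <;> fin_cases j <;> simp [e4Z2]
    have heσ : (e4Z2 F).map σ = e4Z2 F := by
      ext i j
      fin_cases i <;> fin_cases j <;> simp [e4Z2]
    exact e4u_commute_of_inv88 σ M (e4Z2 F) het heσ Cfsg.Agent.Helper66.e4Z2_mul_self h1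
  obtain ⟨c, hc⟩ := Cfsg.Agent.Helper66.e4_scalar_of_commute h2 M hX1 hZ1 hX2 hZ2
  -- c ≠ 0
  have hc0 : c ≠ 0 := by
    rintro rfl
    rw [zero_smul] at hc
    have h1 : A.map σ = 0 := by
      have : Bᵀ * M = 0 := by rw [hc, mul_zero]
      rw [hM, ← Matrix.mul_assoc, ← Matrix.transpose_mul, hAB, Matrix.transpose_one, one_mul]
        at this
      exact this
    have h2' : B.map σ * A.map σ = 1 := by
      rw [← Cfsg.Agent.Helper42.e3u_map_mul, hBA, Matrix.map_one _ (map_zero σ) (map_one σ)]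
    rw [h1, mul_zero] at h2'
    have := congrFun (congrFun h2' 0) 0
    simp at this
  -- σ c = c
  have hσc : σ c = c := by
    have h1 : Mᵀ = M.map σ := by
      rw [hM, Matrix.transpose_mul, Matrix.transpose_transpose, Cfsg.Agent.Helper42.e3u_map_mul]
      have e1 : (A.map σ)ᵀ = Aᵀ.map σ := by
        ext i j; simp
      have e2 : (A.map σ).map σ = A := by
        ext i j; simp [hσ.inv]
      rw [e1, e2]
    rw [hc] at h1
    have := congrFun (congrFun h1 0) 0
    simp at this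
    exact this.symm
  obtain ⟨μ, hμ⟩ := hσ.exists_norm_eq hF c⁻¹ (by rw [map_inv₀, hσc]) (inv_ne_zero hc0)
  have hμ0 : μ ≠ 0 := by
    rintro rfl
    rw [zero_mul] at hμ
    exact inv_ne_zero hc0 hμ.symm
  let P : GL (Fin 4) F := ⟨μ • A, μ⁻¹ • B,
    by rw [Matrix.smul_mul, Matrix.mul_smul, smul_smul, mul_inv_cancel₀ hμ0, one_smul, hAB],
    by rw [Matrix.smul_mul, Matrix.mul_smul, smul_smul, inv_mul_cancel₀ hμ0, one_smul, hBA]⟩
  have hPval : (P : Matrix (Fin 4) (Fin 4) F) = μ • A := rfl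
  have hPinv : ((P⁻¹ : GL (Fin 4) F) : Matrix (Fin 4) (Fin 4) F) = μ⁻¹ • B := rfl
  refine ⟨ι, P, hι, ?_, ?_⟩
  · apply Cfsg.Agent.Helper42.e3u_mem_GU_of_matrix hσ
    rw [hPval]
    have h1 : (μ • A).map σ = σ μ • A.map σ := by
      ext i j
      simp
    rw [h1, Matrix.transpose_smul, Matrix.smul_mul, Matrix.mul_smul, smul_smul, ← hM, hc,
      smul_smul, hμ, inv_mul_cancel₀ hc0, one_smul]
  · rw [hRP]
    have hconj : MulAut.conj P = MulAut.conj P₀ := by
      ext e : 1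
      apply Units.ext
      rw [MulAut.conj_apply, MulAut.conj_apply, Units.val_mul, Units.val_mul, Units.val_mul,
        Units.val_mul, hPval, hPinv, Matrix.smul_mul, Matrix.smul_mul, Matrix.mul_smul, smul_smul,
        mul_inv_cancel₀ hμ0, one_smul]
    rw [hconj]

end Cfsg.Agent.Helper88
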