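-- helper88 library: PIECE G2 of the S4648 call (helper77): the centre of the block algebra over the
-- residue field has dimension at most the number of characters of the block.
-- (Generalises helper77's `not_linearIndependent_of_pair` from two characters to any block.)
import Cfsg.Agent.Helper77.K2Block

set_option autoImplicit false
open Cfsg Cfsg.Agent.Helper77

namespace Cfsg.Agent.Helper88

universe u

variable {G : Type u} [Group G] [Fintype G] {M : Ideal Cfsg.AlgInt} (hM : M.IsMaximal)

theorem kul_omega_sum {ι : Type*} (ψ : G → ℂ) (s : Finset ι) (a : ι → G → ℂ) :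
    Helper81.omega ψ (∑ i ∈ s, a i) = ∑ i ∈ s, Helper81.omega ψ (a i) := by
  classical
  induction s using Finset.induction_on with
  | empty =>
    rw [Finset.sum_empty, Finset.sum_empty]
    exact Helper16.omega_zero ψ
  | insert i s hi ih => rw [Finset.sum_insert hi, Finset.sum_insert hi, Helper81.omega_add, ih]

/-- A class function supported (in the sense of `Ω`) on a finite set of characters is a
combination of their idempotents. -/
theorem kul_eq_sum_of_omega (S : Finset (Cfsg.IrrCharacter G)) {X : G → ℂ}
    (hX : Cfsg.IsClassFunction G X)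
    (h0 : ∀ ψ : Cfsg.IrrCharacter G, ψ ∉ S → Helper81.omega (ψ : G → ℂ) X = 0) :
    X = ∑ χ ∈ S, Helper81.omega (χ : G → ℂ) X • Cfsg.blockCoeff {χ} := by
  classical
  have hcl : Cfsg.IsClassFunction G
      (∑ χ ∈ S, Helper81.omega (χ : G → ℂ) X • Cfsg.blockCoeff {χ}) := by
    intro g h
    simp only [Finset.sum_apply, Pi.smul_apply]
    refine Finset.sum_congr rfl fun χ _ => ?_
    rw [blockCoeff_isClassFunction {χ} g h]
  apply eq_of_omega_eq hX hcl
  intro ψ
  rw [kul_omega_sum]
  have h1 : ∀ χ ∈ S, Helper81.omega (ψ : G → ℂ)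
      (Helper81.omega (χ : G → ℂ) X • Cfsg.blockCoeff {χ})
      = if χ = ψ then Helper81.omega (ψ : G → ℂ) X else 0 := by
    intro χ _
    rw [Helper81.omega_smul]
    by_cases h : χ = ψ
    · subst h
      rw [if_pos rfl, omega_blockCoeff_of_mem (Set.mem_singleton χ), mul_one]
    · rw [if_neg h, omega_blockCoeff_of_not_mem (B := {χ})
        (fun h' => h (Set.mem_singleton_iff.mp h').symm), mul_zero]
  rw [Finset.sum_congr rfl h1, Finset.sum_ite_eq' S ψ]
  by_cases hψ : ψ ∈ S
  · rw [if_pos hψ]
  · rw [if_neg hψ, h0 ψ hψ]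

/-- **Piece G2 of the S4648 call.**  The centre of the block algebra over the residue field has
dimension at most the number of characters of the block. -/
theorem kul_center_le {B : Set (Cfsg.IrrCharacter G)} (hB : Cfsg.IsPBlock M B)
    (v : Fin (Nat.card B + 1) → ConvAlg (ResField M hM) G)
    (hv : ∀ i, (∀ y, v i * y = y * v i) ∧ redIdem hM B * v i = v i) :
    ¬ LinearIndependent (ResField M hM) v := by
  classical
  intro hli
  have := Fintype.ofFinite (Cfsg.IrrCharacter G)
  have heR := blockCoeff_memLocalRing hM hB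
  have heC := blockCoeff_isClassFunction B
  set X : Fin (Nat.card B + 1) → G → ℂ :=
    fun i => Helper81.conv (Cfsg.blockCoeff B) (liftFun hM (v i)) with hXdef
  have hXR : ∀ i g, Cfsg.MemLocalRing M (X i g) := fun i g =>
    Helper81.conv_mem (localSubring M hM) heR (liftFun_mem hM (v i)) g
  have hXC : ∀ i, Cfsg.IsClassFunction G (X i) := fun i =>
    Helper81.conv_isClassFunction heC (liftFun_isClassFunction hM (hv i).1)
  have hXred : ∀ i, redFun hM (X i) = v i := by
    intro i
    rw [hXdef]
    show redFun hM (Helper81.conv (Cfsg.blockCoeff B) (liftFun hM (v i))) = v i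
    rw [redFun_conv hM heR (liftFun_mem hM (v i)), redFun_liftFun]
    exact (hv i).2
  have hli' : LinearIndependent (ResField M hM)
      (fun i => fun g => resHom M hM (⟨X i g, hXR i g⟩ : localSubring M hM)) := by
    have h0 : (fun i => fun g => resHom M hM (⟨X i g, hXR i g⟩ : localSubring M hM))
        = (ConvAlg.linEquivFun (ResField M hM) G).toLinearMap ∘ v := by
      funext i g
      show _ = v i g
      rw [← hXred i, redFun_apply, resMap_of_mem hM (hXR i g)]
    rw [h0]
    exact hli.map' _ (LinearEquiv.ker _)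
  have hC : LinearIndependent ℂ X :=
    Lead.k2_li_lift (resHom M hM) (localSubring M hM).subtype Subtype.val_injective
      (fun i g => (⟨X i g, hXR i g⟩ : localSubring M hM)) hli'
  obtain ⟨S, hS⟩ : ∃ S : Finset (Cfsg.IrrCharacter G), ∀ χ, χ ∈ S ↔ χ ∈ B :=
    ⟨Finset.univ.filter (fun χ => χ ∈ B), fun χ => by simp⟩
  have hScard : Nat.card B = S.card := Nat.subtype_card S (fun χ => hS χ)
  have hspan : ∀ i, X i ∈ Submodule.span ℂ
      ((S.image (fun χ => Cfsg.blockCoeff ({χ} : Set (Cfsg.IrrCharacter G)))
        : Finset (G → ℂ)) : Set (G → ℂ)) := by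
    intro i
    have h0 : ∀ ψ : Cfsg.IrrCharacter G, ψ ∉ S → Helper81.omega (ψ : G → ℂ) (X i) = 0 := by
      intro ψ hψ
      exact omega_conv_blockCoeff_of_not_mem (fun h => hψ ((hS ψ).mpr h))
        (liftFun_isClassFunction hM (hv i).1)
    rw [kul_eq_sum_of_omega S (hXC i) h0]
    refine Submodule.sum_mem _ (fun χ hχ => Submodule.smul_mem _ _ (Submodule.subset_span ?_))
    exact Finset.mem_coe.mpr (Finset.mem_image_of_mem _ hχ)
  have h3 := finrank_span_eq_card hC
  have hle : Submodule.span ℂ (Set.range X) ≤ Submodule.span ℂ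
      ((S.image (fun χ => Cfsg.blockCoeff ({χ} : Set (Cfsg.IrrCharacter G)))
        : Finset (G → ℂ)) : Set (G → ℂ)) := by
    apply Submodule.span_le.mpr
    rintro _ ⟨i, rfl⟩
    exact hspan i
  have h4 := Submodule.finrank_mono hle
  have h5 := finrank_span_finset_le_card (R := ℂ)
    (S.image (fun χ => Cfsg.blockCoeff ({χ} : Set (Cfsg.IrrCharacter G))))
  have h6 : (S.image (fun χ => Cfsg.blockCoeff ({χ} : Set (Cfsg.IrrCharacter G)))).card ≤ S.card :=
    Finset.card_image_le
  have h7 : Module.finrank ℂ (Submodule.span ℂ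
      ((S.image (fun χ => Cfsg.blockCoeff ({χ} : Set (Cfsg.IrrCharacter G)))
        : Finset (G → ℂ)) : Set (G → ℂ))) ≤ S.card := le_trans h5 h6
  rw [Fintype.card_fin] at h3
  omega

end Cfsg.Agent.Helper88
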