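import Mathlib
import Cfsg.Prelude.Def_GeometricClasses
import Cfsg.Prelude.Def_Classical
import Cfsg.Agent.Helper35.S88Defs
import Cfsg.Agent.Helper58.TSDefs
import Cfsg.Agent.Helper43.PrimeOrdO3
import Cfsg.Agent.Helper33.OType
import Cfsg.Agent.Helper43.S88OEDefs
import Cfsg.Agent.Helper43.TBPAR

set_option autoImplicit false

/-!
# helper88: sub-CALL S88OE (helper43, row S5988), piece BLKTYPE modulo BLKCHAR (`oe_blk_type_of`)
-/

namespace Cfsg.Agent.Helper88.S88OE

open Module Polynomial Cfsg Cfsg.Geo Cfsg.Agent.Helper58.TS Cfsg.Agent.Helper35.S88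
open Cfsg.Agent.Helper43 Cfsg.Agent.Helper43.OrthEven Cfsg.Agent.Helper43.CycFactors
  Cfsg.Agent.Helper43.PrimeOrdMat Cfsg.Agent.Helper43.S88OE
open scoped MatrixGroups

universe u

section fin

variable {F : Type u} [Field F] [Fintype F]

/-- BLKTYPE from the conclusion of BLKCHAR. -/
theorem oe_blk_type_of (p : ℕ) [Fact p.Prime] [CharP F p] (r : ℕ) [Fact r.Prime] (hr2 : 2 < r)
    (hrp : r ≠ p) (heven : Even (orderOf ((Fintype.card F : ℕ) : ZMod r))) {V : Type u}
    [AddCommGroup V] [Module F V] [FiniteDimensional F V] (Q : QuadraticForm F V)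
    (T : Module.End F V) (hblk : Blk r Q T)
    (hchar : ∃ c : F[X] → ℕ, T.charpoly = ∏ P ∈ cycJ F r, P ^ c P) :
    ∃ n, finrank F V = 2 * (orderOf ((Fintype.card F : ℕ) : ZMod r) / 2 * n) ∧
      (HasTS Q (orderOf ((Fintype.card F : ℕ) : ZMod r) / 2 * n) ↔ Even n) := by
  have hr : r.Prime := Fact.out
  obtain ⟨c, hch⟩ := hchar
  have hch' : T.charpoly = psi r 0 c := by rw [hch, psi, pow_zero, one_mul]
  have hfin : finrank F V =
      2 * (orderOf ((Fintype.card F : ℕ) : ZMod r) / 2 * ∑ P ∈ cycJ F r, c P) := by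
    have h1 := LinearMap.charpoly_natDegree T
    rw [hch', psi_natDegree (p := p) rfl hr hrp, zero_add] at h1
    rw [← h1, ← mul_assoc, Nat.mul_div_cancel' heven.two_dvd]
  exact ⟨∑ P ∈ cycJ F r, c P, hfin,
    Cfsg.Agent.Helper43.TB.tb_par p r hr2 hrp heven Q T hblk.1 hblk.2.1 hblk.2.2 c hch _ hfin⟩

end fin

end Cfsg.Agent.Helper88.S88OE
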