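import Mathlib
import Cfsg.Agent.Helper15.B42Defs
import Cfsg.Agent.Helper77.D1Fourier

/-!
# S4503 piece FIXPROD (helper88): the fixed-point multiplicity of `χ₁ · conj χ₂` for two
"small exceptional" shapes `(t, l₀)` and `(t, v l₀)`.
-/

universe u
set_option autoImplicit false
open Cfsg Cfsg.Agent.Helper77 Cfsg.Agent.Helper15
open scoped ComplexConjugate

namespace Cfsg.Agent.Helper88

variable {G : Type u} [Group G] [Finite G]

theorem b42_fix_prod (p : ℕ) [Fact p.Prime] (x : G) (hx : orderOf x = p)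
    (F : Subgroup (ZMod p)ˣ) (hF : (F : Set (ZMod p)ˣ) = normUnits p x)
    (χ₁ χ₂ : G → ℂ) (t : ℕ) (l₀ : ZMod p) (hl₀ : l₀ ≠ 0) (v : (ZMod p)ˣ)
    (h1 : B42Shape p x χ₁ t l₀) (h2 : B42Shape p x χ₂ t ((v : ZMod p) * l₀)) :
    (v ∈ F → b42Fix p x (b42Prod χ₁ χ₂) = ((t ^ 2 * Nat.card F : ℕ) : ℂ)) ∧
      (v ∉ F → b42Fix p x (b42Prod χ₁ χ₂) = 0) := by
  classical
  have hp : p.Prime := Fact.out
  have hζ : IsPrimitiveRoot (d1zeta p) p := Complex.isPrimitiveRoot_exp p hp.ne_zero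
  have hζp := hζ.pow_eq_one
  unfold B42Shape at h1 h2
  generalize d1zeta p = ζ at hζ hζp h1 h2
  let Fs : Finset (ZMod p)ˣ := Finset.univ.filter (· ∈ F)
  have hmemFs : ∀ s : (ZMod p)ˣ, s ∈ Fs ↔ s ∈ F := fun s => by simp [Fs]
  have hfs : ∀ f : (ZMod p)ˣ → ℂ, ∑ᶠ s ∈ normUnits p x, f s = ∑ s ∈ Fs, f s := by
    intro f
    have hset : (F : Set (ZMod p)ˣ) = (Fs : Set (ZMod p)ˣ) := by
      ext s; simp [Fs]
    rw [← hF, hset, finsum_mem_coe_finset]
  have hcard : Fs.card = Nat.card F := by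
    rw [Nat.card_eq_fintype_card]
    exact (Fintype.card_of_subtype Fs hmemFs).symm
  have hconj : ∀ a : ZMod p, conj (ζ ^ a.val) = ζ ^ (-a).val := by
    intro a
    have hn : ‖ζ ^ a.val‖ = 1 := by
      rw [norm_pow, Complex.norm_eq_one_of_pow_eq_one hζp hp.ne_zero, one_pow]
    have h1 : ζ ^ a.val * ζ ^ (-a).val = 1 := by
      rw [← d1f_add p ζ hζp, add_neg_cancel, ZMod.val_zero, pow_zero]
    rw [← Complex.inv_eq_conj hn]
    exact (eq_inv_of_mul_eq_one_right h1).symm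
  have hrange : ∀ g : ZMod p → ℂ, ∑ b ∈ Finset.range p, g (b : ZMod p) = ∑ i : ZMod p, g i := by
    intro g
    refine Finset.sum_nbij' (fun b => (b : ZMod p)) (fun i => i.val) ?_ ?_ ?_ ?_ ?_
    · intro b _; exact Finset.mem_univ _
    · intro i _; exact Finset.mem_range.mpr (ZMod.val_lt i)
    · intro b hb; exact ZMod.val_natCast_of_lt (Finset.mem_range.mp hb)
    · intro i _; exact ZMod.natCast_zmod_val i
    · intro b _; rfl
  have hcond : ∀ s s' : (ZMod p)ˣ,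
      ((s : ZMod p) * l₀ - (s' : ZMod p) * ((v : ZMod p) * l₀) = 0) ↔ s = s' * v := by
    intro s s'
    constructor
    · intro h
      have h' : ((s : ZMod p) - (s' : ZMod p) * (v : ZMod p)) * l₀ = 0 := by rw [← h]; ring
      rcases mul_eq_zero.mp h' with h'' | h''
      · apply Units.ext; rw [Units.val_mul]; exact sub_eq_zero.mp h''
      · exact absurd h'' hl₀
    · rintro rfl; rw [Units.val_mul]; ring
  have hp0 : (p : ℂ) ≠ 0 := Nat.cast_ne_zero.mpr hp.ne_zero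
  have hmain : b42Fix p x (b42Prod χ₁ χ₂)
      = (t : ℂ) ^ 2 * ∑ s ∈ Fs, ∑ s' ∈ Fs, (if s = s' * v then (1 : ℂ) else 0) := by
    unfold b42Fix b42Prod
    have hterm : ∀ b : ℕ, χ₁ (x ^ b) * conj (χ₂ (x ^ b)) = (t : ℂ) ^ 2 * ∑ s ∈ Fs, ∑ s' ∈ Fs,
        ζ ^ ((b : ZMod p) * ((s : ZMod p) * l₀ - (s' : ZMod p) * ((v : ZMod p) * l₀))).val := by
      intro b
      rw [h1 b, h2 b, hfs, hfs, map_mul, map_sum, Complex.conj_natCast]
      simp only [hconj]
      rw [mul_mul_mul_comm, ← sq, Finset.sum_mul_sum]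
      congr 1
      refine Finset.sum_congr rfl (fun s _ => Finset.sum_congr rfl (fun s' _ => ?_))
      rw [← d1f_add p ζ hζp]
      congr 2; ring
    simp only [hterm]
    rw [← Finset.mul_sum]
    have hsum : ∑ b ∈ Finset.range p, ∑ s ∈ Fs, ∑ s' ∈ Fs,
        ζ ^ ((b : ZMod p) * ((s : ZMod p) * l₀ - (s' : ZMod p) * ((v : ZMod p) * l₀))).val
        = ∑ s ∈ Fs, ∑ s' ∈ Fs, (if s = s' * v then (p : ℂ) else 0) := by
      rw [Finset.sum_comm]
      refine Finset.sum_congr rfl (fun s _ => ?_)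
      rw [Finset.sum_comm]
      refine Finset.sum_congr rfl (fun s' _ => ?_)
      rw [hrange (fun i => ζ ^ (i * ((s : ZMod p) * l₀ - (s' : ZMod p) * ((v : ZMod p) * l₀))).val),
        d1f_sum p ζ hζ]
      simp only [hcond]
    have h3 : ∑ s ∈ Fs, ∑ s' ∈ Fs, (if s = s' * v then (p : ℂ) else 0)
        = (p : ℂ) * ∑ s ∈ Fs, ∑ s' ∈ Fs, (if s = s' * v then (1 : ℂ) else 0) := by
      rw [Finset.mul_sum]
      refine Finset.sum_congr rfl (fun s _ => ?_)
      rw [Finset.mul_sum]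
      refine Finset.sum_congr rfl (fun s' _ => ?_)
      split_ifs <;> simp
    rw [hsum, h3]
    field_simp
  constructor
  · intro hv
    rw [hmain, Finset.sum_comm]
    have hone : ∀ s' ∈ Fs, ∑ s ∈ Fs, (if s = s' * v then (1 : ℂ) else 0) = 1 := by
      intro s' hs'
      rw [Finset.sum_ite_eq' Fs (s' * v)]
      have hmem : s' * v ∈ Fs := (hmemFs _).mpr (F.mul_mem ((hmemFs _).mp hs') hv)
      rw [if_pos hmem]
    rw [Finset.sum_congr rfl hone]
    simp only [Finset.sum_const, nsmul_eq_mul, mul_one, hcard]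
    push_cast
    ring
  · intro hv
    rw [hmain]
    have hzero : ∀ s ∈ Fs, ∀ s' ∈ Fs, (if s = s' * v then (1 : ℂ) else 0) = 0 := by
      intro s hs s' hs'
      rw [if_neg]
      rintro rfl
      apply hv
      have h1 : s'⁻¹ * (s' * v) ∈ F := F.mul_mem (F.inv_mem ((hmemFs _).mp hs')) ((hmemFs _).mp hs)
      simpa using h1
    rw [Finset.sum_congr rfl (fun s hs => Finset.sum_congr rfl (fun s' hs' => hzero s hs s' hs'))]
    simp

end Cfsg.Agent.Helper88
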