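import Mathlib
import Cfsg.Prelude.Def_CaseTheorems

/-!
# CALL S1382 (helper1), piece NDP (helper88): a nilpotent subgroup `D ≠ 1` has a characteristic
Sylow subgroup `R ≠ 1` (nilpotent version of `Helper68.bg63_exists_R`, whose last steps are
reused here).
-/

set_option autoImplicit false

namespace Cfsg.Agent.Helper88

open Cfsg Subgroup

universe u

variable {G : Type u} [Group G] [Finite G]

/-- NDP (pure). A nilpotent subgroup `D ≠ 1` has a characteristic Sylow subgroup `R ≠ 1`. -/
theorem bg16c_exists_R {Γ : Type u} [Group Γ] [Finite Γ] {D : Subgroup Γ}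
    (hDnil : Group.IsNilpotent ↥D) (hD1 : D ≠ ⊥) :
    ∃ (r : ℕ) (R : Subgroup Γ), r.Prime ∧ R ≤ D ∧ R ≠ ⊥ ∧ IsPGroup r R ∧
      ¬ r ∣ R.relIndex D ∧ ∀ g ∈ normalizer (D : Set Γ), g ∈ normalizer (R : Set Γ) := by
  have hcard : Nat.card D ≠ 1 := fun h => hD1 (Subgroup.card_eq_one.mp h)
  obtain ⟨r, hr, hrd⟩ := Nat.exists_prime_and_dvd hcard
  have hfact : Fact r.Prime := Fact.mk hr
  obtain ⟨n, hn⟩ : ∃ n : ℕ, n = (Nat.card D).factorization r := ⟨_, rfl⟩
  obtain ⟨P⟩ : Nonempty (Sylow r D) := inferInstance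
  have hPcard : Nat.card P = r ^ n := by rw [hn]; exact P.card_eq_multiplicity
  have hPnormal : (P : Subgroup D).Normal := by
    have hnil : Group.IsNilpotent ↥D := hDnil
    infer_instance
  have huniq : Unique (Sylow r D) := Sylow.unique_of_normal P hPnormal
  have hRmem : ∀ x : Γ, x ∈ (P : Subgroup D).map D.subtype ↔ x ∈ D ∧ x ^ (r ^ n) = 1 := by
    intro x
    constructor
    · rintro ⟨y, hy, rfl⟩
      refine ⟨y.2, ?_⟩
      have h1 : (⟨y, hy⟩ : (P : Subgroup D)) ^ (r ^ n) = 1 := by
        rw [← hPcard]; exact pow_card_eq_one'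
      have h2 : y ^ (r ^ n) = 1 := by
        have := congrArg Subtype.val h1
        simpa using this
      have h3 := congrArg Subtype.val h2
      simpa using h3
    · rintro ⟨hxD, hx⟩
      have hy : (⟨x, hxD⟩ : D) ^ (r ^ n) = 1 := by
        apply Subtype.ext
        simpa using hx
      have hpg : IsPGroup r (Subgroup.zpowers (⟨x, hxD⟩ : D)) := by
        rintro ⟨g, hg⟩
        obtain ⟨j, rfl⟩ := Subgroup.mem_zpowers_iff.mp hg
        refine ⟨n, Subtype.ext ?_⟩
        show ((⟨x, hxD⟩ : D) ^ j) ^ (r ^ n) = 1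
        rw [← zpow_natCast, ← zpow_mul, mul_comm, zpow_mul, zpow_natCast, hy, one_zpow]
      obtain ⟨Q, hQ⟩ := hpg.exists_le_sylow
      have hQP : Q = P := Subsingleton.elim _ _
      rw [hQP] at hQ
      exact ⟨⟨x, hxD⟩, hQ (Subgroup.mem_zpowers _), rfl⟩
  refine ⟨r, (P : Subgroup D).map D.subtype, hr, ?_, ?_, ?_, ?_, ?_⟩
  · intro x hx
    exact ((hRmem x).mp hx).1
  · -- `R ≠ ⊥`
    intro hbot
    have hP1 : Nat.card P = 1 := by
      have h2 : (P : Subgroup D) = ⊥ := (Subgroup.map_eq_bot_iff_of_injective _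
        D.subtype_injective).mp hbot
      rw [h2]; exact Subgroup.card_bot
    have hn0 : n ≠ 0 := by
      rw [hn]
      exact (Nat.Prime.factorization_pos_of_dvd hr Nat.card_pos.ne' hrd).ne'
    rw [hPcard] at hP1
    exact hn0 (by
      by_contra h0
      have := Nat.one_lt_pow h0 hr.one_lt
      omega)
  · -- `IsPGroup r R`
    intro x
    refine ⟨n, ?_⟩
    apply Subtype.ext
    simpa using ((hRmem x.1).mp x.2).2
  · -- index prime to `r`
    intro hd
    have h2 : ((P : Subgroup D).map D.subtype).relIndex D = (P : Subgroup D).index := by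
      unfold Subgroup.relIndex
      have : ((P : Subgroup D).map D.subtype).subgroupOf D = (P : Subgroup D) :=
        Subgroup.comap_map_eq_self_of_injective D.subtype_injective _
      rw [this]
    rw [h2] at hd
    exact P.not_dvd_index hd
  · -- characteristic
    have key : ∀ g ∈ normalizer (D : Set Γ), ∀ x ∈ (P : Subgroup D).map D.subtype,
        g * x * g⁻¹ ∈ (P : Subgroup D).map D.subtype := by
      intro g hg x hx
      have hx' := (hRmem x).mp hx
      refine (hRmem _).mpr ⟨(mem_normalizer_iff.mp hg x).mp hx'.1, ?_⟩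
      rw [conj_pow, hx'.2]
      group
    intro g hg
    rw [mem_normalizer_iff]
    intro x
    constructor
    · exact key g hg x
    · intro hx
      have h1 := key g⁻¹ (inv_mem hg) _ hx
      have h2 : g⁻¹ * (g * x * g⁻¹) * g⁻¹⁻¹ = x := by group
      rwa [h2] at h1

end Cfsg.Agent.Helper88
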