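import Mathlib
import Cfsg.Agent.S0678
import Cfsg.Agent.S0495
import Cfsg.Agent.S0249

/-!
# PIECE B7 of CALL S2553 (helper65): transitive non-solvable even groups of degree 7

`g42_deg7`: a finite group acting faithfully, transitively and by even permutations on 7
points, which is not solvable, is `A₇` or `GL₃(2)`.
-/

set_option autoImplicit false
set_option linter.unusedSectionVars false

namespace Cfsg.Agent.Helper88

/-- Over `ZMod 2` the centre of `SL₃` is trivial. -/
theorem b7_center_sl3_two :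
    Subgroup.center (Matrix.SpecialLinearGroup (Fin 3) (ZMod 2)) = ⊥ := by
  rw [eq_bot_iff]
  intro A hA
  rw [Matrix.SpecialLinearGroup.mem_center_iff] at hA
  obtain ⟨r, hr, hA⟩ := hA
  have hr1 : r = 1 := by
    clear hA
    revert hr
    revert r
    decide
  rw [Subgroup.mem_bot]
  apply Subtype.ext
  rw [← hA, hr1]
  simp

/-- Over `ZMod 2`, `SL₃ → GL₃` is bijective. -/
theorem b7_toGL_bijective :
    Function.Bijective
      (Matrix.SpecialLinearGroup.toGL : Matrix.SpecialLinearGroup (Fin 3) (ZMod 2) →* _) := by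
  constructor
  · intro a b hab
    apply Subtype.ext
    have := congrArg (fun g : GL (Fin 3) (ZMod 2) => (g : Matrix (Fin 3) (Fin 3) (ZMod 2))) hab
    simpa using this
  · intro g
    have hdet : (g : Matrix (Fin 3) (Fin 3) (ZMod 2)).det = 1 := by
      have hu : IsUnit (g : Matrix (Fin 3) (Fin 3) (ZMod 2)).det :=
        (Matrix.isUnit_iff_isUnit_det _).mp g.isUnit
      have h0 : (g : Matrix (Fin 3) (Fin 3) (ZMod 2)).det ≠ 0 := hu.ne_zero
      revert h0
      generalize (g : Matrix (Fin 3) (Fin 3) (ZMod 2)).det = d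
      revert d
      decide
    refine ⟨⟨(g : Matrix (Fin 3) (Fin 3) (ZMod 2)), hdet⟩, ?_⟩
    apply Units.ext
    rfl

/-- `GL₃(2) ≃* PSL₃(2)`. -/
noncomputable def b7_gl3_equiv_psl3 :
    GL (Fin 3) (ZMod 2) ≃* Matrix.ProjectiveSpecialLinearGroup (Fin 3) (ZMod 2) :=
  ((MulEquiv.ofBijective _ b7_toGL_bijective).symm).trans
    (((QuotientGroup.quotientMulEquivOfEq b7_center_sl3_two).trans
      QuotientGroup.quotientBot).symm)

theorem b7_gl3_simple : IsSimpleGroup (GL (Fin 3) (ZMod 2)) := by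
  haveI : IsSimpleGroup (Matrix.ProjectiveSpecialLinearGroup (Fin 3) (ZMod 2)) :=
    Cfsg.Agent.S0249.result 3 le_rfl
  exact b7_gl3_equiv_psl3.isSimpleGroup

theorem b7_gl3_card : Nat.card (GL (Fin 3) (ZMod 2)) = 168 := by
  rw [Matrix.card_GL_field, Fin.prod_univ_three, ZMod.card]
  rfl

/-- A simple group of order 168 is `GL₃(2)`. -/
theorem b7_simple168 {G : Type*} [Group G] [Finite G] [IsSimpleGroup G]
    (h : Nat.card G = 168) : Nonempty (G ≃* GL (Fin 3) (ZMod 2)) := by
  haveI : Fact (Nat.Prime 7) := ⟨by norm_num⟩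
  have hF : Fintype.card (ZMod 7) = 7 := ZMod.card 7
  obtain ⟨e1⟩ := Cfsg.Agent.S0495.result h (F := ZMod 7) hF
  haveI := b7_gl3_simple
  obtain ⟨e2⟩ := Cfsg.Agent.S0495.result b7_gl3_card (F := ZMod 7) hF
  exact ⟨e1.trans e2.symm⟩

theorem g42_deg7 {G : Type*} [Group G] [Finite G] {α : Type*} [Fintype α] [DecidableEq α]
    (hα : Fintype.card α = 7) (σ : G →* Equiv.Perm α) (hσ : Function.Injective σ)
    (hsign : ∀ g, Equiv.Perm.sign (σ g) = 1)
    (htr : ∀ x y : α, ∃ g : G, σ g x = y) (hns : ¬ Group.IsSolvable G) :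
    Nonempty (G ≃* alternatingGroup (Fin 7)) ∨ Nonempty (G ≃* GL (Fin 3) (ZMod 2)) := by
  classical
  -- the range of σ
  have e0 : G ≃* σ.range := MonoidHom.ofInjective hσ
  haveI : MulAction.IsPretransitive σ.range α := by
    constructor
    intro x y
    obtain ⟨g, hg⟩ := htr x y
    exact ⟨⟨σ g, ⟨g, rfl⟩⟩, hg⟩
  have hns' : ¬ Group.IsSolvable σ.range := by
    intro hsol
    apply hns
    exact Group.isSolvable_of_isSolvable_injective (f := e0.toMonoidHom) e0.injective
  by_cases hA : alternatingGroup α ≤ σ.range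
  · left
    have hle : σ.range ≤ alternatingGroup α := by
      rintro _ ⟨g, rfl⟩
      exact Equiv.Perm.mem_alternatingGroup.mpr (hsign g)
    have heq : σ.range = alternatingGroup α := le_antisymm hle hA
    have e1 : σ.range ≃* alternatingGroup α := MulEquiv.subgroupCongr heq
    have e2 : α ≃ Fin 7 := Fintype.equivFinOfCardEq hα
    exact ⟨(e0.trans e1).trans (Equiv.altCongrHom e2)⟩
  · right
    obtain ⟨hc, hs⟩ := Cfsg.Agent.S0678.result hα σ.range hns' hA
    haveI := hs
    obtain ⟨e1⟩ := b7_simple168 hc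
    exact ⟨e0.trans e1⟩

end Cfsg.Agent.Helper88
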