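import Mathlib
import Cfsg.Agent.Helper90.HTDefs
import Cfsg.Agent.Helper90.BGChain
import Cfsg.Agent.Helper46.BGLIRR

set_option autoImplicit false

/-!
# S5953 piece HANISO, core (helper88)

The self-dual case: reduction to the pieces CWH, HCYC and HEIG (taken here as hypotheses).
-/

namespace Cfsg.Agent.Helper88.HT5953

open Module Polynomial Cfsg.Agent.Helper90.HT

/-- arithmetic of the orders (self-dual case) -/
theorem aniso_arith88 (r q : ℕ) [Fact r.Prime] (hrq : ¬ r ∣ q)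
    (hi : orderOf ((q : ℕ) : ZMod r) % 4 = 2) :
    (orderOf ((q : ℕ) : ZMod r) = 2 → r ∣ q + 1) ∧
    (orderOf ((q : ℕ) : ZMod r) ≠ 2 → 3 ≤ orderOf (((q ^ 2 : ℕ) : ℕ) : ZMod r)) ∧
    orderOf (((q ^ 2 : ℕ) : ℕ) : ZMod r) ∣ r - 1 := by
  have hx0 : ((q : ℕ) : ZMod r) ≠ 0 := by
    rw [Ne, ZMod.natCast_eq_zero_iff]
    exact hrq
  have hb : orderOf (((q ^ 2 : ℕ) : ℕ) : ZMod r) = orderOf ((q : ℕ) : ZMod r) / 2 := by
    rw [Nat.cast_pow, orderOf_pow' _ (by norm_num : (2 : ℕ) ≠ 0)]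
    congr 1
    have h2 : 2 ∣ orderOf ((q : ℕ) : ZMod r) := by omega
    exact Nat.gcd_eq_right h2
  refine ⟨?_, ?_, ?_⟩
  · intro h2
    have h1 : ((q : ℕ) : ZMod r) ^ 2 = 1 := by rw [← h2]; exact pow_orderOf_eq_one _
    have hne : ((q : ℕ) : ZMod r) ≠ 1 := by
      intro h
      rw [h, orderOf_one] at h2
      omega
    have h3 : (((q : ℕ) : ZMod r) - 1) * (((q : ℕ) : ZMod r) + 1) = 0 := by
      linear_combination h1
    rcases mul_eq_zero.mp h3 with h4 | h4
    · exact absurd (sub_eq_zero.mp h4) hne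
    · rw [← ZMod.natCast_eq_zero_iff]
      push_cast
      exact h4
  · intro hne2
    rw [hb]
    omega
  · rw [Nat.cast_pow]
    exact ZMod.orderOf_dvd_card_sub_one (pow_ne_zero 2 hx0)

theorem pow_mem_of_inv88 {F : Type*} [Field F] {V : Type*} [AddCommGroup V] [Module F V]
    (T : Module.End F V) (U : Submodule F V) (hU : U.map T ≤ U) (j : ℕ) (v : V) (hv : v ∈ U) :
    (T ^ j) v ∈ U := by
  induction j with
  | zero => simpa using hv
  | succ j ih =>
    rw [pow_succ', Module.End.mul_apply]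
    exact hU (Submodule.mem_map_of_mem ih)

theorem ht_aniso_core88 {F : Type*} [Field F] {V : Type*} [AddCommGroup V] [Module F V]
    [FiniteDimensional F V] (h : V → V → F) [Fintype F] (q : ℕ) (hq : Fintype.card F = q ^ 2)
    (T : Module.End F V) (r : ℕ) [Fact r.Prime]
    (hr2 : 2 < r) (hrF : (r : F) ≠ 0) (hTr : T ^ r = 1)
    (hi : orderOf ((q : ℕ) : ZMod r) % 4 = 2) (U : Submodule F V) (hU : U.map T ≤ U)
    (hUk : U ⊓ LinearMap.ker (T - 1) = ⊥) (hdim : r ≤ finrank F U)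
    (hcw : ∀ (g : Fin ((r + 1) / 2) → V → V → F),
      (∀ j u u' v, g j (u + u') v = g j u v + g j u' v) →
      (∀ j u v v', g j u (v + v') = g j u v + g j u v') →
      2 * Fintype.card (Fin ((r + 1) / 2)) < finrank F U → ∃ v ∈ U, v ≠ 0 ∧ ∀ j, g j v v = 0)
    (hcyc : ∀ v : V, (∀ j ∈ Finset.range ((r + 1) / 2), h v ((T ^ j) v) = 0) →
      HTI h (Submodule.span F (Set.range fun j : ℕ => (T ^ j) v)) ∧
      (Submodule.span F (Set.range fun j : ℕ => (T ^ j) v)).map T ≤
        Submodule.span F (Set.range fun j : ℕ => (T ^ j) v))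
    (heig : r ∣ q + 1 → ∃ W' : Submodule F V, W' ≤ U ∧ HTI h W' ∧ W'.map T ≤ W' ∧ W' ≠ ⊥)
    (hadd1 : ∀ u u' v, h (u + u') v = h u v + h u' v)
    (hadd2 : ∀ u v v', h u (v + v') = h u v + h u v') :
    ∃ W' : Submodule F V, W' ≤ U ∧ HTI h W' ∧ W'.map T ≤ W' ∧ W' ≠ ⊥ := by
  have hrp : r.Prime := Fact.out
  have hrq : ¬ r ∣ q := by
    intro hd
    obtain ⟨p, hp⟩ := CharP.exists F
    haveI := hp
    haveI : Fact p.Prime := ⟨CharP.char_is_prime F p⟩
    obtain ⟨n, hpn, hcard⟩ := FiniteField.card F p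
    have h1 : r ∣ p ^ (n : ℕ) := by rw [← hcard, hq]; exact dvd_pow hd (by norm_num)
    have h2 : r ∣ p := hrp.dvd_of_dvd_pow h1
    have h3 : r = p := (Nat.prime_dvd_prime_iff_eq hrp hpn).mp h2
    apply hrF
    rw [h3]
    exact CharP.cast_eq_zero F p
  obtain ⟨h2c, hn2c, hbr⟩ := aniso_arith88 r q hrq hi
  by_cases hi2 : orderOf ((q : ℕ) : ZMod r) = 2
  · exact heig (h2c hi2)
  · have hb3 := hn2c hi2
    have hbU : orderOf (((q ^ 2 : ℕ) : ℕ) : ZMod r) ∣ finrank F U := by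
      have := Cfsg.Agent.Helper90.BG.cyc_dvd T r (orderOf ((Fintype.card F : ℕ) : ZMod r)) hrF hTr
        (fun g hg hdvd => Cfsg.Agent.Helper46.bgl_irr_factor_degree r hrF g hg hdvd) U hU
      rw [hUk, finrank_bot, Nat.sub_zero, hq] at this
      exact this
    have hdim2 : r + 1 < finrank F U := by
      by_contra hcon
      have hcases : finrank F U = r ∨ finrank F U = r + 1 := by omega
      rcases hcases with he | he
      · rw [he] at hbU
        have h1 : orderOf (((q ^ 2 : ℕ) : ℕ) : ZMod r) ∣ 1 := by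
          have h0 := Nat.dvd_sub hbU hbr
          have h1 : r - (r - 1) = 1 := by omega
          rwa [h1] at h0
        have := Nat.le_of_dvd one_pos h1
        omega
      · rw [he] at hbU
        have h1 : orderOf (((q ^ 2 : ℕ) : ℕ) : ZMod r) ∣ 2 := by
          have h0 := Nat.dvd_sub hbU hbr
          have h1 : r + 1 - (r - 1) = 2 := by omega
          rwa [h1] at h0
        have := Nat.le_of_dvd two_pos h1
        omega
    obtain ⟨v, hvU, hv0, hv⟩ := hcw (fun j u w => h u ((T ^ (j : ℕ)) w))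
      (fun j u u' w => hadd1 _ _ _) (fun j u w w' => by rw [map_add]; exact hadd2 _ _ _)
      (by
        rw [Fintype.card_fin]
        have hodd : Odd r := hrp.odd_of_ne_two (by omega)
        obtain ⟨k, hk⟩ := hodd
        omega)
    obtain ⟨hTI, hinv⟩ := hcyc v (fun j hj => hv ⟨j, Finset.mem_range.mp hj⟩)
    refine ⟨_, ?_, hTI, hinv, ?_⟩
    · rw [Submodule.span_le]
      rintro _ ⟨j, rfl⟩
      exact pow_mem_of_inv88 T U hU j v hvU
    · intro hbot
      have hmem : v ∈ Submodule.span F (Set.range fun j : ℕ => (T ^ j) v) :=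
        Submodule.subset_span ⟨0, by simp⟩
      rw [hbot] at hmem
      exact hv0 ((Submodule.mem_bot F).mp hmem)

end Cfsg.Agent.Helper88.HT5953
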