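import Mathlib
import Cfsg.Agent.Helper90.HTDefs
import Cfsg.Agent.Helper27.HTHISO

set_option autoImplicit false

/-!
# S5953 piece HEIG (helper88, double): `r ∣ q + 1`, an eigenspace of dimension `≥ 2` has an
isotropic eigenvector.
-/

namespace Cfsg.Agent.Helper88.HT5953

open Module Polynomial Cfsg.Agent.Helper90.HT

theorem finrank_finset_sup_le88 {F : Type*} [Field F] {V : Type*} [AddCommGroup V] [Module F V]
    [FiniteDimensional F V] {ι : Type*} (s : Finset ι) (f : ι → Submodule F V) :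
    finrank F ↥(s.sup f) ≤ ∑ j ∈ s, finrank F ↥(f j) := by
  classical
  induction s using Finset.induction_on with
  | empty => simp
  | insert a s ha ih =>
    rw [Finset.sup_insert, Finset.sum_insert ha]
    exact (Submodule.finrank_add_le_finrank_add_finrank _ _).trans (Nat.add_le_add_left ih _)

theorem pow_mem_inv_eig88 {F : Type*} [Field F] {V : Type*} [AddCommGroup V] [Module F V]
    (T : Module.End F V) (U : Submodule F V) (hU : U.map T ≤ U) (j : ℕ) (v : V) (hv : v ∈ U) :
    (T ^ j) v ∈ U := by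
  induction j with
  | zero => simpa using hv
  | succ j ih =>
    rw [pow_succ', Module.End.mul_apply]
    exact hU (Submodule.mem_map_of_mem ih)

/-- eigen-decomposition of an operator of order `r` when `F` has a primitive `r`-th root of
unity -/
theorem eig_decomp88 {F : Type*} [Field F] {V : Type*} [AddCommGroup V] [Module F V]
    (T : Module.End F V) (r : ℕ) (hr0 : 0 < r) (hrF : (r : F) ≠ 0) (hTr : T ^ r = 1) (ζ : F)
    (hζr : ζ ^ r = 1) (hζ : ∀ k, 0 < k → k < r → ζ ^ k ≠ 1) (U : Submodule F V)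
    (hU : U.map T ≤ U) (u : V) (hu : u ∈ U) :
    u ∈ (Finset.range r).sup
      (fun j => U ⊓ LinearMap.ker (T - ζ ^ j • (1 : Module.End F V))) := by
  have hζ0 : ζ ≠ 0 := by
    intro h0
    rw [h0, zero_pow hr0.ne'] at hζr
    exact zero_ne_one hζr
  obtain ⟨w, hw⟩ : ∃ w : ℕ → V, ∀ j, w j = ∑ k ∈ Finset.range r, (ζ⁻¹) ^ (j * k) • (T ^ k) u :=
    ⟨_, fun _ => rfl⟩
  have hwU : ∀ j, w j ∈ U := fun j => by
    rw [hw]
    exact U.sum_mem (fun k _ => U.smul_mem _ (pow_mem_inv_eig88 T U hU k u hu))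
  have hwT : ∀ j, T (w j) = ζ ^ j • w j := by
    intro j
    have hshift : ∑ k ∈ Finset.range r, (ζ⁻¹) ^ (j * (k + 1)) • (T ^ (k + 1)) u = w j := by
      have h1 := Finset.sum_range_succ' (fun k => (ζ⁻¹) ^ (j * k) • (T ^ k) u) r
      have h2 := Finset.sum_range_succ (fun k => (ζ⁻¹) ^ (j * k) • (T ^ k) u) r
      have h3 : (ζ⁻¹) ^ (j * r) • (T ^ r) u = (ζ⁻¹) ^ (j * 0) • (T ^ 0) u := by
        rw [hTr, mul_comm j r, pow_mul, inv_pow, hζr]
        simp
      rw [h2, h3] at h1
      rw [hw]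
      exact (add_right_cancel h1).symm
    calc T (w j) = T (∑ k ∈ Finset.range r, (ζ⁻¹) ^ (j * k) • (T ^ k) u) := by rw [hw]
      _ = ∑ k ∈ Finset.range r, (ζ⁻¹) ^ (j * k) • (T ^ (k + 1)) u := by
          rw [map_sum]
          refine Finset.sum_congr rfl fun k _ => ?_
          rw [map_smul, pow_succ' T k, Module.End.mul_apply]
      _ = ζ ^ j • ∑ k ∈ Finset.range r, (ζ⁻¹) ^ (j * (k + 1)) • (T ^ (k + 1)) u := by
          rw [Finset.smul_sum]
          refine Finset.sum_congr rfl fun k _ => ?_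
          rw [smul_smul]
          congr 1
          rw [mul_add, mul_one, pow_add, inv_pow ζ j]
          field_simp
      _ = ζ ^ j • w j := by rw [hshift]
  have hsum : ∑ j ∈ Finset.range r, w j = (r : F) • u := by
    simp only [hw]
    rw [Finset.sum_comm]
    have hk : ∀ k ∈ Finset.range r, ∑ j ∈ Finset.range r, (ζ⁻¹) ^ (j * k) • (T ^ k) u =
        (if k = 0 then (r : F) else 0) • (T ^ k) u := by
      intro k hk
      rw [← Finset.sum_smul]
      congr 1
      split_ifs with hk0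
      · subst hk0
        simp
      · have hk' : k < r := Finset.mem_range.mp hk
        have hc : (ζ⁻¹) ^ k ≠ 1 := by
          rw [inv_pow]
          intro h
          exact hζ k (Nat.pos_of_ne_zero hk0) hk' (inv_eq_one.mp h)
        have hgeo := mul_geom_sum ((ζ⁻¹) ^ k) r
        have hcr : ((ζ⁻¹) ^ k) ^ r = 1 := by
          rw [← pow_mul, mul_comm k r, pow_mul, inv_pow, hζr, inv_one, one_pow]
        rw [hcr, sub_self] at hgeo
        have h0 := (mul_eq_zero.mp hgeo).resolve_left (sub_ne_zero.mpr hc)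
        rw [← h0]
        refine Finset.sum_congr rfl fun j _ => ?_
        rw [mul_comm j k, pow_mul]
    rw [Finset.sum_congr rfl hk, Finset.sum_eq_single 0]
    · simp
    · intro k _ hk0
      simp [hk0]
    · intro h0
      exact absurd (Finset.mem_range.mpr hr0) h0
  have hu' : u = (r : F)⁻¹ • ∑ j ∈ Finset.range r, w j := by
    rw [hsum, smul_smul, inv_mul_cancel₀ hrF, one_smul]
  rw [hu']
  refine Submodule.smul_mem _ _ (Submodule.sum_mem _ fun j hj => ?_)
  have hle : U ⊓ LinearMap.ker (T - ζ ^ j • (1 : Module.End F V)) ≤ (Finset.range r).sup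
      (fun j => U ⊓ LinearMap.ker (T - ζ ^ j • (1 : Module.End F V))) :=
    Finset.le_sup (f := fun j => U ⊓ LinearMap.ker (T - ζ ^ j • (1 : Module.End F V))) hj
  apply hle
  refine Submodule.mem_inf.mpr ⟨hwU j, ?_⟩
  rw [LinearMap.mem_ker, LinearMap.sub_apply, LinearMap.smul_apply, Module.End.one_apply, hwT j,
    sub_self]

section geom2

variable {F : Type*} [Field F] {V : Type*} [AddCommGroup V] [Module F V] [FiniteDimensional F V]
  (σ : F →+* F) (h : V → V → F)

variable [Fintype F] (q : ℕ) (hq : Fintype.card F = q ^ 2) (hσ : ∀ a, σ a = a ^ q)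

include hq hσ

/-- HEIG (uses HISO): `r ∣ q + 1`, an eigenspace of dimension ≥ 2 has an isotropic eigenvector. -/
theorem ht_eig (hh : IsHerm σ h) (T : Module.End F V) (hT : HPres h T) (r : ℕ) [Fact r.Prime]
    (hr2 : 2 < r) (hrq : r ∣ q + 1) (hTr : T ^ r = 1) (U : Submodule F V) (hU : U.map T ≤ U)
    (hUk : U ⊓ LinearMap.ker (T - 1) = ⊥) (hdim : r ≤ finrank F U) :
    ∃ W' : Submodule F V, W' ≤ U ∧ HTI h W' ∧ W'.map T ≤ W' ∧ W' ≠ ⊥ := by
  classical
  have hrp : r.Prime := Fact.out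
  have hq1 : 1 ≤ q := by
    rcases Nat.eq_zero_or_pos q with h0 | h0
    · have h1 := Fintype.one_lt_card (α := F)
      rw [hq, h0] at h1
      norm_num at h1
    · exact h0
  have hrF : (r : F) ≠ 0 := by
    intro h0
    obtain ⟨p, hp⟩ := CharP.exists F
    haveI := hp
    haveI : Fact p.Prime := ⟨CharP.char_is_prime F p⟩
    obtain ⟨n, hpn, hcard⟩ := FiniteField.card F p
    have h1 : p ∣ r := (CharP.cast_eq_zero_iff F p r).mp h0
    have h2 : p = r := (Nat.prime_dvd_prime_iff_eq hpn hrp).mp h1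
    have h3 : r ∣ q ^ 2 := by
      rw [← hq, hcard, ← h2]
      exact dvd_pow_self p n.ne_zero
    have h4 : r ∣ q := hrp.dvd_of_dvd_pow h3
    have h5 : r ∣ 1 := (Nat.dvd_add_right h4).mp hrq
    exact hrp.one_lt.ne' (Nat.dvd_one.mp h5)
  have hcardu : r ∣ Fintype.card Fˣ := by
    rw [Fintype.card_units, hq]
    have h1 : q ^ 2 - 1 = (q - 1) * (q + 1) := by
      obtain ⟨m, hm⟩ : ∃ m, q = m + 1 := ⟨q - 1, by omega⟩
      rw [hm]
      apply Nat.sub_eq_of_eq_add
      simp only [Nat.add_sub_cancel]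
      ring
    rw [h1]
    exact Dvd.dvd.mul_left hrq _
  obtain ⟨x, hx⟩ := exists_prime_orderOf_dvd_card r hcardu
  obtain ⟨ζ, hζdef⟩ : ∃ ζ : F, ζ = (x : F) := ⟨_, rfl⟩
  have hζr : ζ ^ r = 1 := by
    rw [hζdef, ← Units.val_pow_eq_pow_val, ← hx, pow_orderOf_eq_one]
    rfl
  have hζ : ∀ k, 0 < k → k < r → ζ ^ k ≠ 1 := by
    intro k hk0 hkr h1
    have h2 : x ^ k = 1 := by
      apply Units.ext
      rw [Units.val_pow_eq_pow_val, ← hζdef, h1]
      rfl
    have h3 := orderOf_dvd_of_pow_eq_one h2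
    rw [hx] at h3
    exact absurd (Nat.le_of_dvd hk0 h3) (by omega)
  obtain ⟨j, hj0, hjr, hj2⟩ : ∃ j, j ≠ 0 ∧ j < r ∧
      2 ≤ finrank F ↥(U ⊓ LinearMap.ker (T - ζ ^ j • (1 : Module.End F V))) := by
    by_contra hcon
    push Not at hcon
    have hle : U ≤ (Finset.range r).sup
        (fun j => U ⊓ LinearMap.ker (T - ζ ^ j • (1 : Module.End F V))) :=
      fun u hu => eig_decomp88 T r hrp.pos hrF hTr ζ hζr hζ U hU u hu
    have h1 := Submodule.finrank_mono hle
    have h2 := finrank_finset_sup_le88 (Finset.range r)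
      (fun j => U ⊓ LinearMap.ker (T - ζ ^ j • (1 : Module.End F V)))
    have h3 : ∑ j ∈ Finset.range r,
        finrank F ↥(U ⊓ LinearMap.ker (T - ζ ^ j • (1 : Module.End F V))) ≤ r - 1 := by
      obtain ⟨r', hr'⟩ : ∃ r', r = r' + 1 := ⟨r - 1, by omega⟩
      rw [hr', Finset.sum_range_succ']
      have h0 : finrank F ↥(U ⊓ LinearMap.ker (T - ζ ^ 0 • (1 : Module.End F V))) = 0 := by
        rw [pow_zero, one_smul, hUk, finrank_bot]
      rw [h0, add_zero]
      calc ∑ k ∈ Finset.range r',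
            finrank F ↥(U ⊓ LinearMap.ker (T - ζ ^ (k + 1) • (1 : Module.End F V)))
          ≤ ∑ _k ∈ Finset.range r', 1 := Finset.sum_le_sum (fun k hk => by
              have hk' := Finset.mem_range.mp hk
              have := hcon (k + 1) (by omega) (by omega)
              omega)
        _ = r' + 1 - 1 := by simp
    omega
  obtain ⟨v, hv, hv0, hvv⟩ := Cfsg.Agent.Helper27.HT5953.ht_iso σ h q hq hσ hh _ hj2
  obtain ⟨hvU, hvE⟩ := hv
  have hTv : T v = ζ ^ j • v := by
    have h0 := LinearMap.mem_ker.mp hvE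
    rw [LinearMap.sub_apply, LinearMap.smul_apply, Module.End.one_apply, sub_eq_zero] at h0
    exact h0
  refine ⟨Submodule.span F {v}, ?_, ?_, ?_, ?_⟩
  · rw [Submodule.span_le]
    intro y hy
    rw [Set.mem_singleton_iff.mp hy]
    exact hvU
  · intro a ha b hb
    obtain ⟨x1, rfl⟩ := Submodule.mem_span_singleton.mp ha
    obtain ⟨x2, rfl⟩ := Submodule.mem_span_singleton.mp hb
    rw [hh.smul_left, hh.smul_right, hvv, mul_zero, mul_zero]
  · rintro _ ⟨y, hy, rfl⟩
    obtain ⟨x1, rfl⟩ := Submodule.mem_span_singleton.mp hy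
    rw [map_smul, hTv, smul_smul]
    exact Submodule.mem_span_singleton.mpr ⟨_, rfl⟩
  · intro hbot
    have hmem : v ∈ Submodule.span F {v} := Submodule.mem_span_singleton_self v
    rw [hbot] at hmem
    exact hv0 ((Submodule.mem_bot F).mp hmem)

end geom2

end Cfsg.Agent.Helper88.HT5953
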