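import Mathlib
import Cfsg.Prelude.Def_GeometricClasses
import Cfsg.Prelude.Def_Classical
import Cfsg.Agent.Helper13.NPDefs
import Cfsg.Agent.Helper96.OHDefs
import Cfsg.Agent.Helper37.OHOFIXCONGR
import Cfsg.Agent.Helper31.OHOFIX

/-!
# helper88: CALL NP (helper13, row S5989), piece BADDIR - general core `np_bad_gen`

The case analysis of the stage BAD for a general nondegenerate `Q` of even dimension `n`, with the bad
element (BADX + `hL`), `o_cdvd` and NDSUBCARD passed in as hypotheses.  Mirror of helper31's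
`o_bad_dir_gen` (Helper31/OHOBADDIRcore.lean) with "hyperbolic `m`-space" replaced by "member of the
isometry class of `W₀`", `m` odd.
-/

set_option autoImplicit false
set_option linter.unusedSectionVars false
set_option linter.unusedVariables false

namespace Cfsg.Agent.Helper88.NP5989

open Module Cfsg Cfsg.Geo Cfsg.Agent.Helper13.NP Cfsg.Agent.Helper96.OH

variable {ι : Type} [Fintype ι] [DecidableEq ι] {F : Type*} [Field F] (Q : (ι → F) → F)

/-- the predicate "nondegenerate `m`-space isometric to `W₀`" is stable under an injective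
isometry -/
theorem npbd_pred_map (T : Module.End F (ι → F)) (hT : OPres Q T) (hinj : Function.Injective T)
    (W₀ : Submodule F (ι → F)) (m : ℕ) (W : Submodule F (ι → F)) (hW : NPX Q W₀ m W) :
    NPX Q W₀ m (W.map T) := by
  have hfin : ∀ U : Submodule F (ι → F), finrank F (U.map T) = finrank F U := fun U =>
    (Submodule.equivMapOfInjective T hinj U).finrank_eq.symm
  have hpol : ∀ u v, QuadraticMap.polar Q (T u) (T v) = QuadraticMap.polar Q u v := by
    intro u v
    unfold QuadraticMap.polar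
    rw [← map_add, hT, hT, hT]
  obtain ⟨h1, h2, e, he⟩ := hW
  refine ⟨by rw [hfin, h1], ?_, ?_⟩
  · rintro w' ⟨w, hw, rfl⟩ hw0
    have hw0' : w ≠ 0 := by
      rintro rfl
      exact hw0 (map_zero T)
    obtain ⟨⟨x, hx, hx1⟩, ⟨y, hy, hy1⟩⟩ := h2 w hw hw0'
    exact ⟨⟨T x, Submodule.mem_map_of_mem hx, by rw [hpol]; exact hx1⟩,
      ⟨T y, Submodule.mem_map_of_mem hy, by rw [hpol]; exact hy1⟩⟩
  · refine ⟨(Submodule.equivMapOfInjective T hinj W).symm.trans e, fun w' => ?_⟩
    rw [LinearEquiv.trans_apply, he]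
    have h3 : ((Submodule.equivMapOfInjective T hinj W
        ((Submodule.equivMapOfInjective T hinj W).symm w') : W.map T) : ι → F) =
        T (((Submodule.equivMapOfInjective T hinj W).symm w' : W) : ι → F) :=
      Submodule.coe_equivMapOfInjective_apply T hinj W _
    rw [LinearEquiv.apply_symm_apply] at h3
    rw [h3, hT]

/-- BADDIR, general core. -/
theorem np_bad_gen [Fintype F] (hQ : IsNondegenerateQuadraticForm Q) (n m r i c : ℕ)
    [Fact r.Prime] (hrF : (r : F) ≠ 0) (hi0 : 0 < i) (hc : c = if Even i then i else 2 * i)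
    (hn : Fintype.card ι = n) (hneven : Even n) (hmo : Odd m)
    (W₀ : Submodule F (ι → F)) (hW₀ : NPX Q W₀ m W₀)
    (hΩ : r ∣ Nat.card {W : Submodule F (ι → F) // NPX Q W₀ m W})
    (hbad : c ≤ n → (Odd i ∨ 0 < n % c ∨ Even (n / c)) →
      ∃ T : Module.End F (ι → F), OPres Q T ∧ T ^ r = 1 ∧
      finrank F (LinearMap.ker (T - 1)) ≤ n % c ∧
      ∃ W : Submodule F (ι → F), NPX Q W₀ m W ∧ W.map T ≤ W)
    (hcdvd : ∀ T : Module.End F (ι → F), OPres Q T → T ^ r = 1 →
      ∀ N : Submodule F (ι → F), N.map T ≤ N → ONd Q N →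
      c ∣ finrank F N - finrank F (N ⊓ LinearMap.ker (T - 1) : Submodule F (ι → F)))
    (hndsub : ∀ K : Submodule F (ι → F), ONd Q K → finrank F K < c →
      ∀ W₁ : Submodule F (ι → F), (NPX Q W₀ m W₁ ∧ W₁ ≤ K) →
      ¬ r ∣ Nat.card {W : Submodule F (ι → F) // NPX Q W₀ m W ∧ W ≤ K}) :
    (Odd i ∧ c ≤ m ∧ 0 < m % c ∧ m % c < n % c) ∨
      (Even i ∧ ((n % c = 0 ∧ Odd (n / i)) ∨ (i ≤ m ∧ 0 < m % c ∧ m % c < n % c))) := by
  classical
  have hrpr : r.Prime := Fact.out
  have hcpos : 0 < c := by
    rw [hc]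
    split_ifs <;> omega
  have hceven : 2 ∣ c := by
    rw [hc]
    split_ifs with hie
    · exact hie.two_dvd
    · exact dvd_mul_right 2 i
  have hfV : finrank F (ι → F) = n := by
    rw [Module.finrank_fintype_fun_eq_card, hn]
  have hkeven : n % c % 2 = 0 := by
    rw [Nat.mod_mod_of_dvd _ hceven]
    exact Nat.even_iff.1 hneven
  have hmcodd : m % c % 2 = 1 := by
    rw [Nat.mod_mod_of_dvd _ hceven]
    exact Nat.odd_iff.1 hmo
  have hklt : n % c < c := Nat.mod_lt _ hcpos
  -- case `c > n`
  by_cases hcn : c ≤ n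
  swap
  · rw [not_le] at hcn
    exfalso
    refine hndsub ⊤ (ond_top Q hQ) (by rw [finrank_top, hfV]; exact hcn) W₀ ⟨hW₀, le_top⟩ ?_
    have h3 : Nat.card {W : Submodule F (ι → F) // NPX Q W₀ m W ∧ W ≤ ⊤} =
        Nat.card {W : Submodule F (ι → F) // NPX Q W₀ m W} := by
      apply Nat.card_congr
      apply Equiv.subtypeEquivRight
      intro W
      exact and_iff_left le_top
    rw [h3]
    exact hΩ
  -- the special case
  by_cases hsp : Even i ∧ n % c = 0 ∧ Odd (n / i)
  · exact Or.inr ⟨hsp.1, Or.inl hsp.2⟩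
  have hcond : Odd i ∨ 0 < n % c ∨ Even (n / c) := by
    by_cases hie : Even i
    · have hci : c = i := by rw [hc, if_pos hie]
      by_cases h0 : n % c = 0
      · right
        right
        rw [hci]
        exact Nat.not_odd_iff_even.mp (fun ho => hsp ⟨hie, h0, ho⟩)
      · right
        left
        omega
    · exact Or.inl (Nat.not_even_iff_odd.mp hie)
  obtain ⟨T, hT, hTr, hfix, W, hW, hWT⟩ := hbad hcn hcond
  have hana : ∀ W : Submodule F (ι → F), NPX Q W₀ m W → W.map T ≤ W →
      c ∣ m - finrank F (W ⊓ LinearMap.ker (T - 1) : Submodule F (ι → F)) := by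
    intro W hW hWT
    have h3 := hcdvd T hT hTr W hWT hW.2.1
    rwa [hW.1] at h3
  have h4 := hana W hW hWT
  have h5 : finrank F (W ⊓ LinearMap.ker (T - 1) : Submodule F (ι → F)) ≤ finrank F W :=
    Submodule.finrank_mono inf_le_left
  have h6 : finrank F (W ⊓ LinearMap.ker (T - 1) : Submodule F (ι → F)) ≤
      finrank F (LinearMap.ker (T - 1)) := Submodule.finrank_mono inf_le_right
  rw [hW.1] at h5
  obtain ⟨j, hj⟩ := h4
  have h7 : m = finrank F (W ⊓ LinearMap.ker (T - 1) : Submodule F (ι → F)) + c * j := by omega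
  have h8 : m % c = finrank F (W ⊓ LinearMap.ker (T - 1) : Submodule F (ι → F)) := by
    conv_lhs => rw [h7]
    rw [Nat.add_mul_mod_self_left]
    exact Nat.mod_eq_of_lt (by omega)
  have h9 : m % c ≤ n % c := by
    rw [h8]
    exact le_trans h6 hfix
  have hpos : 0 < m % c := by omega
  have hlt : m % c < n % c := by omega
  -- `c ≤ m`
  have hcm : c ≤ m := by
    by_contra hlt'
    rw [not_le] at hlt'
    have hin : ∀ W : Submodule F (ι → F), NPX Q W₀ m W → W.map T ≤ W →
        W ≤ LinearMap.ker (T - 1) := by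
      intro W hW hWT
      have h4 := hana W hW hWT
      have h5 : finrank F (W ⊓ LinearMap.ker (T - 1) : Submodule F (ι → F)) ≤ finrank F W :=
        Submodule.finrank_mono inf_le_left
      have h6 := Nat.eq_zero_of_dvd_of_lt h4 (by omega)
      have h7 : W ⊓ LinearMap.ker (T - 1) = W :=
        Submodule.eq_of_le_of_finrank_eq inf_le_left (by rw [hW.1] at h5 ⊢; omega)
      rw [← h7]
      exact inf_le_right
    have hKnd : ONd Q (LinearMap.ker (T - 1)) := by
      have h := (Cfsg.Agent.Helper31.OH5992.o_fix Q hQ T hT r hrpr.pos hrF hTr ⊤ le_top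
        (ond_top Q hQ)).1
      rwa [top_inf_eq] at h
    have hinj : Function.Injective T := by
      intro u v huv
      have h : T ^ (r - 1) * T = 1 := by
        rw [← pow_succ, Nat.sub_add_cancel hrpr.pos, hTr]
      have hu := congrArg (fun S : Module.End F (ι → F) => S u) h
      have hv := congrArg (fun S : Module.End F (ι → F) => S v) h
      simp only [Module.End.mul_apply, Module.End.one_apply] at hu hv
      rw [← hu, ← hv, huv]
    have h1 := Cfsg.Agent.Helper37.OH5992.o_fix_congr T r hTr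
      (fun W => NPX Q W₀ m W)
      (fun W hW => npbd_pred_map Q T hT hinj W₀ m W hW)
    have h2' := (h1.dvd_iff (dvd_refl r)).mp hΩ
    have h3 : Nat.card {W : Submodule F (ι → F) // NPX Q W₀ m W ∧ W.map T ≤ W} =
        Nat.card {W : Submodule F (ι → F) // NPX Q W₀ m W ∧ W ≤ LinearMap.ker (T - 1)} := by
      apply Nat.card_congr
      apply Equiv.subtypeEquivRight
      intro W
      constructor
      · rintro ⟨hW, hWT⟩
        exact ⟨hW, hin W hW hWT⟩
      · rintro ⟨hW, hWK⟩
        refine ⟨hW, ?_⟩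
        rintro _ ⟨w, hw, rfl⟩
        have h8 := hWK hw
        rw [LinearMap.mem_ker, LinearMap.sub_apply, Module.End.one_apply, sub_eq_zero] at h8
        rw [h8]
        exact hw
    rw [h3] at h2'
    exact hndsub (LinearMap.ker (T - 1)) hKnd (by omega) W ⟨hW, hin W hW hWT⟩ h2'
  by_cases hie : Even i
  · have hci : c = i := by rw [hc, if_pos hie]
    exact Or.inr ⟨hie, Or.inr ⟨by omega, hpos, hlt⟩⟩
  · exact Or.inl ⟨Nat.not_even_iff_odd.mp hie, hcm, hpos, hlt⟩

end Cfsg.Agent.Helper88.NP5989
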