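import Mathlib
import Cfsg.Prelude.Def_GeometricClasses
import Cfsg.Prelude.Def_Classical
import Cfsg.Agent.Helper13.NPDefs
import Cfsg.Agent.Helper96.OHDefs
import Cfsg.Agent.Helper88.NPBADDIRcore
import Cfsg.Agent.Helper70.NPNDSUBCARD
import Cfsg.Agent.Helper26.OHOCDVD
import Cfsg.Agent.Helper70.TSR2CH2
import Cfsg.Agent.Helper35.TSSTDP
import Cfsg.Agent.Helper31.OTMODD
import Cfsg.Agent.Helper80.TSNONSCAL
import Cfsg.Agent.Helper13.TIChar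
import Cfsg.Agent.Helper51.TIORD
import Cfsg.Agent.Helper43.OrthEven
import Cfsg.Agent.Helper43.Spinor2

/-!
# helper88: CALL NP (helper13, row S5989), piece BADDIR for the standard plus form, with the piece
BADX passed in as a hypothesis (`np_bad_of`); NDSUBCARD is helper70's `np_nd_sub_card`.
-/

set_option autoImplicit false
set_option linter.unusedSectionVars false
set_option linter.unusedVariables false

namespace Cfsg.Agent.Helper88.NP5989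

open Module Cfsg Cfsg.Geo Cfsg.Agent.Helper13.NP Cfsg.Agent.Helper96.OH
open scoped MatrixGroups

variable {F : Type*} [Field F] [Fintype F]

/-- BADDIR from BADX. -/
theorem np_bad_of (p : ℕ) [Fact p.Prime] [CharP F p] (q : ℕ) (hq : Fintype.card F = q)
    (hodd : Odd q) (d m : ℕ) (hd : 4 ≤ d) (hm : Odd m) (hmd : m < d)
    (W₀ : Submodule F (Fin d ⊕ Fin d → F))
    (hW₀ : Module.finrank F ↥W₀ = m ∧
      IsNondegenerateOn (QuadraticMap.polar (Cfsg.quadFormPlus d F)) W₀)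
    (r : ℕ) [Fact r.Prime] (hr2 : 2 < r) (hrp : r ≠ p)
    (hrΩ : r ∣ Nat.card {W : Submodule F (Fin d ⊕ Fin d → F) //
      NPX (Cfsg.quadFormPlus d F) W₀ m W})
    (i c : ℕ) (hi : i = orderOf ((q : ℕ) : ZMod r)) (hc : c = if Even i then i else 2 * i)
    (hL : ∀ x : GL (Fin d ⊕ Fin d) F, x ∈ Cfsg.Geo.omegaGL (Cfsg.quadFormPlus d F) →
      (∃ z : F, ((x ^ r : GL (Fin d ⊕ Fin d) F) : Matrix (Fin d ⊕ Fin d) (Fin d ⊕ Fin d) F) =
        z • (1 : Matrix (Fin d ⊕ Fin d) (Fin d ⊕ Fin d) F)) →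
      (∀ z : F, (x : Matrix (Fin d ⊕ Fin d) (Fin d ⊕ Fin d) F) ≠
        z • (1 : Matrix (Fin d ⊕ Fin d) (Fin d ⊕ Fin d) F)) →
      NPFix (Cfsg.quadFormPlus d F) W₀ m (x : Matrix (Fin d ⊕ Fin d) (Fin d ⊕ Fin d) F))
    (hbadx : c ≤ 2 * d → (Odd i ∨ 0 < (2 * d) % c ∨ Even ((2 * d) / c)) →
      ∃ g : GL (Fin d ⊕ Fin d) F, g ∈ Cfsg.isometryGroup F (Cfsg.quadFormPlus d F) ∧
        orderOf g = r ∧
        finrank F (LinearMap.ker (Matrix.toLin'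
          (g : Matrix (Fin d ⊕ Fin d) (Fin d ⊕ Fin d) F) - 1)) ≤ (2 * d) % c) :
    (Odd i ∧ c ≤ m ∧ 0 < m % c ∧ m % c < (2 * d) % c) ∨
      (Even i ∧ (((2 * d) % c = 0 ∧ Odd ((2 * d) / i)) ∨
        (i ≤ m ∧ 0 < m % c ∧ m % c < (2 * d) % c))) := by
  classical
  subst hq
  have hrpr : r.Prime := Fact.out
  obtain ⟨hrF, hrq⟩ := Cfsg.Agent.Helper13.TIsp.ti_char_facts (F := F) p r hrp
  obtain ⟨hi0, hir⟩ := Cfsg.Agent.Helper51.TI5955.ord_pos r (Fintype.card F) hrq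
  rw [← hi] at hi0 hir
  have h2 : (2 : F) ≠ 0 := Cfsg.Agent.Helper70.TSR2.r2_two_ne hodd
  have hQ : IsNondegenerateQuadraticForm (Cfsg.quadFormPlus d F) :=
    (Cfsg.Agent.Helper35.TS5973.ts_std_plus (F := F) d).1
  have hcard : Fintype.card (Fin d ⊕ Fin d) = 2 * d := by
    simp
    ring
  have hW₀' : NPX (Cfsg.quadFormPlus d F) W₀ m W₀ :=
    ⟨hW₀.1, hW₀.2, ⟨LinearEquiv.refl F _, fun _ => rfl⟩⟩
  have hrodd : Odd r := hrpr.odd_of_ne_two (by omega)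
  refine np_bad_gen (Cfsg.quadFormPlus d F) hQ (2 * d) m r i c hrF hi0 hc hcard ⟨d, by ring⟩ hm
    W₀ hW₀' hrΩ ?_
    (fun T hT hTr N hNT hN =>
      Cfsg.Agent.Helper26.OH5992.o_cdvd (Cfsg.quadFormPlus d F) hQ h2 T hT r hr2 hrF hTr i c hi hc
        N hNT hN)
    (fun K hK hKc W₁ hW₁ =>
      Cfsg.Agent.Helper70.NP5989.np_nd_sub_card (Cfsg.quadFormPlus d F) hQ h2 r hr2 hrF i c hi hc
        m K hK hKc W₀ W₁ hW₁)
  intro hcn hcond
  obtain ⟨g, hg, hgr, hgfix⟩ := hbadx hcn hcond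
  have h1 : g ^ r = 1 := by
    rw [← hgr]
    exact pow_orderOf_eq_one g
  have hg1 : g ≠ 1 := by
    rintro rfl
    rw [orderOf_one] at hgr
    exact hrpr.one_lt.ne hgr
  have hgΩ : g ∈ Cfsg.Geo.omegaGL (Cfsg.quadFormPlus d F) := by
    have hg' : g ∈ Cfsg.isometryGroup F ⇑(Cfsg.Agent.Helper43.plusQF d F) := hg
    have ho : Odd (orderOf (⟨g, hg'⟩ : ↥(Cfsg.isometryGroup F ⇑(Cfsg.Agent.Helper43.plusQF d F)))) := by
      rw [Subgroup.orderOf_mk, hgr]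
      exact hrodd
    have h := Cfsg.Agent.Helper31.OT5972.ot_omega_odd (Cfsg.Agent.Helper43.plusQF d F) h2
      (Cfsg.Agent.Helper43.OrthEven.plusQF_nondeg d) (by rw [hcard]; omega) ⟨g, hg'⟩ ho
    exact h
  have hscal : ∃ z : F, ((g ^ r : GL (Fin d ⊕ Fin d) F) :
      Matrix (Fin d ⊕ Fin d) (Fin d ⊕ Fin d) F) =
      z • (1 : Matrix (Fin d ⊕ Fin d) (Fin d ⊕ Fin d) F) := by
    refine ⟨1, ?_⟩
    rw [h1, one_smul]
    rfl
  have hns := Cfsg.Agent.Helper80.TS5973.ts_nonscalar (Cfsg.quadFormPlus d F) hQ r hrodd g hg h1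
    hg1
  obtain ⟨W, hW, hWg⟩ := hL g hgΩ hscal hns
  refine ⟨Matrix.toLin' (g : Matrix (Fin d ⊕ Fin d) (Fin d ⊕ Fin d) F), ?_, ?_, hgfix, W, hW,
    hWg⟩
  · intro v
    rw [Matrix.toLin'_apply]
    exact hg v v
  · rw [← Matrix.toLin'_pow]
    have h3 : (g : Matrix (Fin d ⊕ Fin d) (Fin d ⊕ Fin d) F) ^ r = 1 := by
      rw [← Units.val_pow_eq_pow_val, h1]
      rfl
    rw [h3, Matrix.toLin'_one]
    rfl

end Cfsg.Agent.Helper88.NP5989
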