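-- helper88 library: copy of helper95's structure theorem `Helper95.O12.o_core` (Helper95/O12Core.lean)
-- for `n = 10`, with the field outcomes refined by helper94's `o10_field_cases` (a self-adjoint field
-- of degree two in odd characteristic / a unitary field of degree two acting by similarities).
import Cfsg.Agent.Helper95.O12Row
import Cfsg.Agent.Helper94.O10F

set_option autoImplicit false
set_option linter.unusedSectionVars false
set_option linter.unusedVariables false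
open Cfsg Cfsg.Geo Matrix
open Cfsg.Agent.Helper96
open scoped Kronecker

namespace Cfsg.Agent.Helper88.O10

variable {F : Type*} [Field F]

/-- The outcomes of the refined structure theorem in dimension ten: those of
`Helper95.O12.Outcome`, with the field outcome replaced by a self-adjoint field of degree two (odd
characteristic) and the unitary field of degree two appended. -/
def OutcomeX [Fintype F] (Q : (Fin 10 → F) → F) (H : Subgroup (GL (Fin 10) F)) : Prop :=
  (∃ W : Submodule F (Fin 10 → F), W ≠ ⊥ ∧ IsTotallySingularQuad Q W ∧ H ≤ subspaceStabilizer W) ∨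
  ((2 : F) = 0 ∧ ∃ v : Fin 10 → F, Q v ≠ 0 ∧ H ≤ subspaceStabilizer (Submodule.span F {v})) ∨
  (∃ W W' : Submodule F (Fin 10 → F), W ≠ ⊥ ∧ W' ≠ ⊥ ∧ IsNondegenerateOn (QuadraticMap.polar Q) W ∧
      IsNondegenerateOn (QuadraticMap.polar Q) W' ∧ AreOrthogonalFor (QuadraticMap.polar Q) W W' ∧
      W ⊓ W' = ⊥ ∧ W ⊔ W' = ⊤ ∧ H ≤ subspaceStabilizer W ∧ H ≤ subspaceStabilizer W') ∨
  (ActsIrreducibly (matrixSet H) ∧ ∃ (t k : ℕ) (D : Fin t → Submodule F (Fin 10 → F)),
      IsNondegenerateMDecomposition (QuadraticMap.polar Q) k D ∧ H ≤ decompositionStabilizer D) ∨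
  ((2 : F) ≠ 0 ∧ ∃ K : Subalgebra F (Matrix (Fin 10) (Fin 10) F), IsFieldSubalgebra 2 K ∧
      IsSelfAdjointFor (QuadraticMap.polar Q) K ∧ H ≤ subalgebraNormalizer K) ∨
  IsPlusTypeOn Q ⊤ ∨
  ((2 : F) ≠ 0 ∧ ActsIrreducibly (matrixSet H) ∧
    ∃ (n₁ n₂ : ℕ) (e : Fin 10 ≃ Fin n₁ × Fin n₂) (P : GL (Fin 10) F)
      (f₁ : (Fin n₁ → F) → (Fin n₁ → F) → F) (f₂ : (Fin n₂ → F) → (Fin n₂ → F) → F),
      2 ≤ n₁ ∧ 2 ≤ n₂ ∧ IsSymmetricForm f₁ ∧ IsSymmetricForm f₂ ∧
      IsTensorFormStructure id (QuadraticMap.polar Q) f₁ f₂ e P ∧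
      H ≤ tensorProductSubgroup n₁ n₂ e P) ∨
  (∃ (F₁ : Subfield F) (r : ℕ) (P : GL (Fin 10) F) (ζ : F), r.Prime ∧
      Fintype.card F = Nat.card F₁ ^ r ∧ ζ ≠ 0 ∧
      IsQuadFormRationalStructure (fun v : Fin 10 → F => ζ * Q v) F₁ P ∧
      H ≤ subfieldSubgroup F₁ P) ∨
  InOrthogonalResidualClass H ∨
  (∃ (r j : ℕ) (N : Subgroup (GL (Fin 10) F)), r.Prime ∧ 10 * 10 = r ^ j ∧ (r : F) ≠ 0 ∧ N ≤ H ∧
      ActsAbsolutelyIrreducibly (matrixSet N) ∧
      (∀ a ∈ N, ∀ b ∈ N, a * b * a⁻¹ * b⁻¹ ∈ scalars (Fin 10) F) ∧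
      (∀ x ∈ N, x ^ r ∈ scalars (Fin 10) F)) ∨
  (∃ (d t k : ℕ) (N S : Subgroup (GL (Fin 10) F)) (e : Fin 10 ≃ Fin d × Fin k) (P : GL (Fin 10) F)
      (ρ : Matrix (Fin 10) (Fin 10) F → Matrix (Fin d) (Fin d) F), 2 ≤ d ∧ 2 ≤ t ∧ 10 = d ^ t ∧
      N ≤ H ∧ ActsIrreducibly (matrixSet N) ∧ S ≤ N ∧ (∀ x ∈ N, ∀ s ∈ S, x * s * x⁻¹ ∈ S) ∧
      ⁅S, S⁆ = S ∧ TensorData S d k e P ρ) ∨
  (∃ K : Subalgebra F (Matrix (Fin 10) (Fin 10) F), IsFieldSubalgebra 2 K ∧
      IsAdjointClosedFor (QuadraticMap.polar Q) K ∧ ¬ IsSelfAdjointFor (QuadraticMap.polar Q) K ∧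
      (∀ k ∈ K, ∃ c : F, ∀ v : Fin 10 → F, Q (k *ᵥ v) = c * Q v) ∧
      H ≤ subalgebraNormalizer K)

/-- Every group of isometries of a non-degenerate quadratic form on `F^10` stabilises one of the
listed structures (copy of `Helper95.O12.o_core` for `n = 10`, with the field outcomes refined by
helper94's `o10_field_cases`). -/
theorem o_core_10 [Fintype F] (Q : (Fin 10 → F) → F)
    (hQ : IsNondegenerateQuadraticForm Q) (H : Subgroup (GL (Fin 10) F))
    (hH : ∀ h ∈ H, ∀ x, Q ((h : Matrix (Fin 10) (Fin 10) F) *ᵥ x) = Q x) : OutcomeX Q H := by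
  classical
  have hn : 3 ≤ 10 := by norm_num
  have hnz : NeZero 10 := ⟨by omega⟩
  have hZc : ∀ z ∈ scalars (Fin 10) F, ∀ g : GL (Fin 10) F, z * g = g * z :=
    fun z hz g => Helper97.scalars_comm hz g
  by_cases hirr : ActsIrreducibly (matrixSet H)
  swap
  · rcases Cfsg.Agent.Helper66.o12_reducible Q hQ H hH hirr with h | h | h
    · exact Or.inl h
    · exact Or.inr (Or.inl h)
    · exact Or.inr (Or.inr (Or.inl h))
  have hHZ : ¬ H ≤ scalars (Fin 10) F := Helper97.not_le_scalars_of_irreducible (by omega) H hirr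
  obtain ⟨N, hNH, hNn, hNZ, hNmin⟩ := Helper97.exists_minimal_normal (scalars (Fin 10) F) H hHZ
  rcases Cfsg.Agent.Helper94.O10.o10_field_cases Q hQ H N hH hirr hNH hNn hNZ hNmin with
    h | ⟨k, D, hD, hts, hle⟩ | h | h | hsc
  · exact Or.inr (Or.inr (Or.inr (Or.inl ⟨hirr, h⟩)))
  · refine Or.inr (Or.inr (Or.inr (Or.inr (Or.inr (Or.inl ⟨D 0, le_top, hts 0, ?_⟩)))))
    have h1 := Helper95.O12.decomp_card_gen D hD
    rw [hD.finrank_eq, finrank_top, Module.finrank_fintype_fun_eq_card, Fintype.card_fin]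
    omega
  · exact Or.inr (Or.inr (Or.inr (Or.inr (Or.inl h))))
  · exact Or.inr (Or.inr (Or.inr (Or.inr (Or.inr (Or.inr (Or.inr (Or.inr (Or.inr (Or.inr
      (Or.inr h))))))))))
  obtain ⟨d, k, e, P, ρ, hTD⟩ := tensorData_of_zcent_scalar (by omega) H N hirr hNn hsc
  by_cases hd1 : d = 1
  · exact absurd (hTD.le_scalars_of_one hd1) hNZ
  have hd2 : 2 ≤ d := by have := hTD.hd; omega
  by_cases hk1 : k = 1
  swap
  · have hk2 : 2 ≤ k := by have := hTD.hk; omega
    rcases Helper95.O12.o_tensor (by omega) Q hQ H N hH hirr hNH hNn hTD hd2 hk2 with h | ⟨h2, h⟩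
    · exact Or.inr (Or.inr (Or.inr (Or.inr (Or.inr (Or.inl h)))))
    · exact Or.inr (Or.inr (Or.inr (Or.inr (Or.inr (Or.inr (Or.inl ⟨h2, hirr, h⟩))))))
  -- `N` is absolutely irreducible
  have habs : ActsAbsolutelyIrreducibly (matrixSet N) := hTD.absIrred_of_one hk1
  have hCN : ⁅N, N⁆ ≤ N := by
    rw [Subgroup.commutator_le]
    intro a ha b hb
    rw [commutatorElement_def]
    exact N.mul_mem (N.mul_mem (N.mul_mem ha hb) (N.inv_mem ha)) (N.inv_mem hb)
  rcases hNmin ⁅N, N⁆ hCN (Helper97.commutator_normalized H N hNn) with hC | hC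
  · -- class two modulo scalars
    have hab : ∀ a ∈ N, ∀ b ∈ N, a * b * a⁻¹ * b⁻¹ ∈ scalars (Fin 10) F := by
      intro a ha b hb
      have := Subgroup.commutator_mem_commutator ha hb
      rw [commutatorElement_def] at this
      exact hC this
    obtain ⟨r, hr, hpow⟩ := Helper97.exists_prime_pow_mem (scalars (Fin 10) F) H N hZc hNn hNZ hNmin hab
    obtain ⟨j, hj⟩ := sq_eq_prime_pow_of_class_two N habs hab r hr hpow
    have hr0 := Sy.c2_char_ne (by omega) N hNZ habs hab r hr hpow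
    exact Or.inr (Or.inr (Or.inr (Or.inr (Or.inr (Or.inr (Or.inr (Or.inr (Or.inr (Or.inl
      ⟨r, j, N, hr, hj, hr0, hNH, habs, hab, hpow⟩)))))))))
  -- perfect
  have hperf : ⁅N, N⁆ = N := hC
  have hirrN : ActsIrreducibly (matrixSet N) := habs.1
  have hcentN : ∀ c : GL (Fin 10) F, (∀ s ∈ N, c * s = s * c) → c ∈ scalars (Fin 10) F := by
    intro c hc
    obtain ⟨a, ha⟩ := habs.2 (c : Matrix (Fin 10) (Fin 10) F) (by
      rintro _ ⟨s, hs, rfl⟩
      rw [← Units.val_mul, ← Units.val_mul, hc s hs])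
    exact (Helper97.scalar_mem_scalars_iff c).mpr ⟨a, ha⟩
  rcases perfect_structure (scalars (Fin 10) F) H N hZc hNn hNZ hNmin hperf with
    hsimple | ⟨S, hSN, hSn, hSZ, hSperf, hne, hcomm, hgen⟩
  swap
  · -- central product of conjugates
    have hsc' : ∀ M, ZCent (matrixSet S) M → ∃ c : F, M = c • (1 : Matrix (Fin 10) (Fin 10) F) := by
      intro M hM
      apply habs.2
      have hyc : ∀ h ∈ H, ∀ y ∈ Helper97.cj h S,
          M * (y : Matrix (Fin 10) (Fin 10) F) = (y : Matrix (Fin 10) (Fin 10) F) * M := by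
        intro h hh y hy'
        rcases hcomm h hh with h1 | h1
        · rw [h1] at hy'
          exact hM.1 _ (Helper97.coe_mem_matrixSet hy')
        · apply hM.2
          rintro _ ⟨s', hs', rfl⟩
          rw [← Units.val_mul, ← Units.val_mul, h1 s' hs' y hy']
      have key : ∀ x ∈ Subgroup.closure {x | ∃ h ∈ H, x ∈ Helper97.cj h S},
          M * (x : Matrix (Fin 10) (Fin 10) F) = (x : Matrix (Fin 10) (Fin 10) F) * M ∧
          M * ((x⁻¹ : GL (Fin 10) F) : Matrix (Fin 10) (Fin 10) F) =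
            ((x⁻¹ : GL (Fin 10) F) : Matrix (Fin 10) (Fin 10) F) * M := by
        intro x hx
        induction hx using Subgroup.closure_induction with
        | mem y hy =>
          obtain ⟨h, hh, hy'⟩ := hy
          exact ⟨hyc h hh y hy', hyc h hh y⁻¹ (Subgroup.inv_mem _ hy')⟩
        | one =>
          rw [inv_one, Units.val_one, mul_one, one_mul]
          exact ⟨rfl, rfl⟩
        | mul y z _ _ hy hz =>
          rw [_root_.mul_inv_rev, Units.val_mul, Units.val_mul]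
          constructor
          · rw [← mul_assoc, hy.1, mul_assoc, hz.1, ← mul_assoc]
          · rw [← mul_assoc, hz.2, mul_assoc, hy.2, ← mul_assoc]
        | inv y _ hy =>
          rw [inv_inv]
          exact ⟨hy.2, hy.1⟩
      rintro _ ⟨x, hx, rfl⟩
      exact (key x (by rw [hgen]; exact hx)).1
    obtain ⟨d', k', e', P', ρ', hTD'⟩ := tensorData_of_zcent_scalar (by omega) N S hirrN hSn hsc'
    have hd'2 : 2 ≤ d' := by
      have h1 := hTD'.hd
      have h2 : d' ≠ 1 := fun h => hSZ (hTD'.le_scalars_of_one h)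
      omega
    obtain ⟨t, ht, hnt⟩ := eq_pow_of_central_product H N S hTD' habs hne hcomm hgen
    exact Or.inr (Or.inr (Or.inr (Or.inr (Or.inr (Or.inr (Or.inr (Or.inr (Or.inr (Or.inr
      (Or.inl ⟨d', t, k', N, S, e', P', ρ', hd'2, ht, hnt, hNH, hirrN, hSN, hSn, hSperf, hTD'⟩))))))))))
  -- simple modulo scalars
  have hne0 : Nonempty (Fin 10) := ⟨⟨0, by omega⟩⟩
  by_cases hsub : ∃ F₀ : Subfield F, F₀ ≠ ⊤ ∧ RealisableOver F₀ (matrixSet N)
  · obtain ⟨F₀, hF₀, B, hB⟩ := hsub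
    obtain ⟨F₁, r, hle, hr, hcard⟩ := Helper97.Gen.exists_prime_index_subfield F₀ hF₀
    obtain ⟨P', ζ, hζ, hnorm, hrat⟩ := Cfsg.Agent.Helper88.o12_subfield_quad Q hQ
      (by rw [Fintype.card_fin]; omega) F₁ N (fun g hg x => hH g (hNH hg) x) habs B
      (fun s hs i j => hle (hB s hs i j))
    exact Or.inr (Or.inr (Or.inr (Or.inr (Or.inr (Or.inr (Or.inr (Or.inl
      ⟨F₁, r, P', ζ, hr, hcard, hζ, hrat, fun h hh => hnorm h (hNn h hh)⟩)))))))
  have hcore : IsResidualCore H N :=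
    { le := hNH
      normal := hNn
      perfect := hperf
      simple := Helper97.isSimpleGroup_quot (scalars (Fin 10) F) N hNZ hsimple
      nonabelian := Helper97.not_commutative_quot (scalars (Fin 10) F) N hNZ hperf
      centralizer_scalar := fun h _ hh =>
        Helper97.mem_of_centralizes_mod (scalars (Fin 10) F) N hZc hperf hcentN h hh
      absIrred := habs
      no_subfield := fun F₀ hF₀ hreal => hsub ⟨F₀, hF₀, hreal⟩ }
  refine Or.inr (Or.inr (Or.inr (Or.inr (Or.inr (Or.inr (Or.inr (Or.inr (Or.inl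
    ⟨N, hcore, ?_⟩))))))))
  rintro ⟨σ, f', hf', hfix⟩
  have hsq := Helper97.Gen.isSesq_of_bilinear hQ.polar_bilinear
  have hdet : (Helper97.Gen.gram (QuadraticMap.polar Q)).det ≠ 0 :=
    hsq.det_gram_ne_zero (fun v hv => (hQ.nondegenerate v hv).1)
  have hgram : ∀ g ∈ N, (g : Matrix (Fin 10) (Fin 10) F)ᵀ * Helper97.Gen.gram (QuadraticMap.polar Q)
      * (g : Matrix (Fin 10) (Fin 10) F) = Helper97.Gen.gram (QuadraticMap.polar Q) := by
    intro g hg
    have h1 := hsq.gram_of_similar (g : Matrix (Fin 10) (Fin 10) F) 1 (fun u v => by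
      rw [one_mul]
      exact Helper95.O12.polar_fix (hH g (hNH hg)) u v)
    rwa [one_smul, Sy.map_refl'] at h1
  obtain ⟨F₀, hF₀, hreal⟩ := Sy.realisable_of_fixes_unitary_gram
    (Helper97.Gen.gram (QuadraticMap.polar Q)) hdet N hgram habs σ f' hf' hfix
  exact hsub ⟨F₀, hF₀, hreal⟩


end Cfsg.Agent.Helper88.O10
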