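-- helper88 library (S5850): a tensor decomposition of the polar form of a quadratic form with an
-- anisotropic two-dimensional first factor gives a field of degree two of unitary type (closed
-- under adjoints, not self-adjoint, acting by similarities of `Q`) normalised by the isometries in
-- the tensor product subgroup.  Merge of `Helper88.o12_tensor_two_field` (O12T4c.lean) and of
-- helper67's `o10_tensor_two_sim` (Helper67/O10T2S.lean), for the same field.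
import Cfsg.Agent.Helper88.O12T4c
import Cfsg.Agent.Helper67.O10T2S

set_option autoImplicit false
set_option linter.unusedSectionVars false
set_option linter.unusedVariables false
open Cfsg Cfsg.Geo Matrix
open scoped Kronecker

namespace Cfsg.Agent.Helper88

open Cfsg.Agent.Helper96.Sy

variable {ι : Type} [Fintype ι] [DecidableEq ι] {F : Type*} [Field F]

theorem o10_tensor_two_unitary (h2 : (2 : F) ≠ 0) (Q : (ι → F) → F)
    (hQ : IsNondegenerateQuadraticForm Q)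
    {n₂ : ℕ} (hn₂ : 0 < n₂) (e : ι ≃ Fin 2 × Fin n₂) (P : GL ι F)
    (f₁ : (Fin 2 → F) → (Fin 2 → F) → F) (f₂ : (Fin n₂ → F) → (Fin n₂ → F) → F)
    (hf₁ : IsSymmetricForm f₁) (hf₂ : IsSymmetricForm f₂)
    (hT : IsTensorFormStructure id (QuadraticMap.polar Q) f₁ f₂ e P)
    (haniso : ∀ s : Fin 2 → F, f₁ s s = 0 → s = 0) :
    ∃ K : Subalgebra F (Matrix ι ι F), IsFieldSubalgebra 2 K ∧
      IsAdjointClosedFor (QuadraticMap.polar Q) K ∧ ¬ IsSelfAdjointFor (QuadraticMap.polar Q) K ∧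
      (∀ k ∈ K, ∃ c : F, ∀ v : ι → F, Q (k *ᵥ v) = c * Q v) ∧
      ∀ g ∈ tensorProductSubgroup 2 n₂ e P,
        (∀ u v : ι → F, QuadraticMap.polar Q ((g : Matrix ι ι F) *ᵥ u)
          ((g : Matrix ι ι F) *ᵥ v) = QuadraticMap.polar Q u v) →
        g ∈ subalgebraNormalizer K := by
  obtain ⟨f, hfdef⟩ : ∃ f : (ι → F) → (ι → F) → F, f = QuadraticMap.polar Q := ⟨_, rfl⟩
  have hf : IsSymmetricForm f := by
    rw [hfdef]
    exact ⟨hQ.polar_bilinear, fun u v => QuadraticMap.polar_comm Q u v, hQ.nondegenerate⟩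
  rw [← hfdef] at hT ⊢
  have hT0 := hT
  classical
  obtain ⟨c, hc, hT⟩ := hT
  have hkey : ∀ (u u' : Fin 2 → F) (v v' : Fin n₂ → F),
      f (phiL e P (ptL v u)) (phiL e P (ptL v' u')) = c * (f₁ u u' * f₂ v v') := by
    intro u u' v v'
    rw [phiL_apply, phiL_apply, hT, formOfGram_pt hf₁.bilinear hf₂.bilinear]
  obtain ⟨G, hGdef⟩ : ∃ G : Matrix (Fin 2) (Fin 2) F, G = gramMatrix f₁ := ⟨_, rfl⟩
  have hs : G 1 0 = G 0 1 := by rw [hGdef]; exact hf₁.symm _ _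
  obtain ⟨δ, hδ⟩ : ∃ δ : F, δ = G 0 0 * G 1 1 - G 0 1 ^ 2 := ⟨_, rfl⟩
  have hani : ∀ v : Fin 2 → F, v ≠ 0 → f₁ v v ≠ 0 := fun v hv h0 => hv (haniso v h0)
  have hN : ∀ α β : F, α ^ 2 + δ * β ^ 2 = 0 → α = 0 ∧ β = 0 := by
    intro α β h
    rw [hδ, hGdef] at h
    exact aniso_norm hf₁ hani α β h
  have hδ0 : δ ≠ 0 := by
    intro h0
    have := (hN 0 1 (by rw [h0]; ring)).2
    exact one_ne_zero this
  have hGdet : G.det ≠ 0 := by
    rw [det_two G hs, ← hδ]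
    exact hδ0
  have hcard : Fintype.card ι = 2 * n₂ := by
    have := Fintype.card_congr e
    rw [Fintype.card_prod, Fintype.card_fin, Fintype.card_fin] at this
    exact this
  have hne : Nonempty ι := by
    apply Fintype.card_pos_iff.mp
    rw [hcard]
    omega
  obtain ⟨Jh, hJh⟩ : ∃ Jh : Matrix ι ι F,
      Jh = Helper98.conjReindex e P (jm G ⊗ₖ (1 : Matrix (Fin n₂) (Fin n₂) F)) := ⟨_, rfl⟩
  have hJsq : Jh * Jh = (-δ) • (1 : Matrix ι ι F) := by
    rw [hJh, ← map_mul, ← Matrix.mul_kronecker_mul, Matrix.one_mul, jm_sq, ← hδ,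
      Matrix.smul_kronecker, Matrix.one_kronecker_one, map_smul, map_one]
  obtain ⟨K, hKf, hK⟩ := quadField Jh δ hJsq hN
  obtain ⟨G₂, hG₂def⟩ : ∃ G₂ : Matrix (Fin n₂) (Fin n₂) F, G₂ = gramMatrix f₂ := ⟨_, rfl⟩
  -- every element of `K` is a similarity of the polar form
  have hpol : ∀ (α β : F) (u v : ι → F),
      f ((α • (1 : Matrix ι ι F) + β • Jh) *ᵥ u) ((α • (1 : Matrix ι ι F) + β • Jh) *ᵥ v)
        = (α ^ 2 + δ * β ^ 2) * f u v := by
    intro α β u v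
    obtain ⟨M, hM⟩ : ∃ M : Matrix (Fin 2) (Fin 2) F,
        M = α • (1 : Matrix (Fin 2) (Fin 2) F) + β • jm G := ⟨_, rfl⟩
    have hkN : α • (1 : Matrix ι ι F) + β • Jh
        = Helper98.conjReindex e P (M ⊗ₖ (1 : Matrix (Fin n₂) (Fin n₂) F)) := by
      rw [hM, Matrix.add_kronecker, Matrix.smul_kronecker, Matrix.smul_kronecker,
        Matrix.one_kronecker_one, map_add, map_smul, map_smul, map_one, hJh]
    have hMG : Mᵀ * G * M = (α ^ 2 + δ * β ^ 2) • G := by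
      rw [hM, hδ]
      exact Helper67.o10t2s_sim2 G hs α β
    have hNG : (M ⊗ₖ (1 : Matrix (Fin n₂) (Fin n₂) F))ᵀ * (G ⊗ₖ G₂) *
        (M ⊗ₖ (1 : Matrix (Fin n₂) (Fin n₂) F)) = (α ^ 2 + δ * β ^ 2) • (G ⊗ₖ G₂) := by
      rw [← Matrix.kroneckerMap_transpose, Matrix.transpose_one, ← Matrix.mul_kronecker_mul,
        ← Matrix.mul_kronecker_mul, Matrix.one_mul, Matrix.mul_one, hMG, Matrix.smul_kronecker]
    have h3 : ∀ x y : Fin 2 × Fin n₂ → F,
        f ((α • (1 : Matrix ι ι F) + β • Jh) *ᵥ phiL e P x)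
            ((α • (1 : Matrix ι ι F) + β • Jh) *ᵥ phiL e P y)
          = (α ^ 2 + δ * β ^ 2) * f (phiL e P x) (phiL e P y) := by
      intro x y
      rw [hkN, conj_act, conj_act, phiL_apply, phiL_apply, phiL_apply, phiL_apply, hT, hT,
        ← hGdef, ← hG₂def, formOfGram_dot, formOfGram_dot, Helper67.o10t2s_dot, hNG,
        Matrix.smul_mulVec, dotProduct_smul, smul_eq_mul]
      ring
    have h4 := h3 (psiL e P u) (psiL e P v)
    rw [phiL_psiL, phiL_psiL] at h4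
    exact h4
  have hmulK : ∀ α β : F, (α • (1 : Matrix ι ι F) + β • Jh) * (α • (1 : Matrix ι ι F) + (-β) • Jh)
      = (α ^ 2 + δ * β ^ 2) • (1 : Matrix ι ι F) := by
    intro α β
    simp only [add_mul, mul_add, smul_mul_assoc, mul_smul_comm, one_mul, mul_one, hJsq, smul_smul]
    module
  have hadj : ∀ (α β : F) (u v : ι → F),
      f ((α • (1 : Matrix ι ι F) + β • Jh) *ᵥ u) v
        = f u ((α • (1 : Matrix ι ι F) + (-β) • Jh) *ᵥ v) := by
    intro α β u v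
    by_cases hN0 : α ^ 2 + δ * β ^ 2 = 0
    · obtain ⟨rfl, rfl⟩ := hN α β hN0
      simp only [zero_smul, neg_zero, add_zero, Matrix.zero_mulVec]
      have hzl : f 0 v = 0 := by
        have := hf.bilinear.smul_left (0 : F) (0 : ι → F) v
        simpa using this
      have hzr : f u 0 = 0 := by
        have := hf.bilinear.smul_right (0 : F) u (0 : ι → F)
        simpa using this
      rw [hzl, hzr]
    · have h5 := hpol α β u ((α • (1 : Matrix ι ι F) + (-β) • Jh) *ᵥ v)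
      rw [Matrix.mulVec_mulVec, hmulK, Matrix.smul_mulVec, Matrix.one_mulVec,
        hf.bilinear.smul_right] at h5
      exact mul_left_cancel₀ hN0 h5
  refine ⟨K, hKf, ?_, ?_, ?_, ?_⟩
  · intro k hk
    obtain ⟨α, β, rfl⟩ := (hK k).mp hk
    exact ⟨α • (1 : Matrix ι ι F) + (-β) • Jh, (hK _).mpr ⟨α, -β, rfl⟩, hadj α β⟩
  · intro hsa
    have hJK : Jh ∈ K := (hK Jh).mpr ⟨0, 1, by rw [zero_smul, zero_add, one_smul]⟩
    have h6 : ∀ u v : ι → F, f (Jh *ᵥ u) v = 0 := by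
      intro u v
      have h7 := hsa Jh hJK u v
      have h8 := hadj 0 1 u v
      have hnr : f u (-(Jh *ᵥ v)) = - f u (Jh *ᵥ v) := by
        have := hf.bilinear.smul_right (-1 : F) u (Jh *ᵥ v)
        simpa using this
      rw [zero_smul, zero_add, zero_add, one_smul, neg_smul, one_smul, Matrix.neg_mulVec,
        hnr] at h8
      have h9 : (2 : F) * f (Jh *ᵥ u) v = 0 := by linear_combination h8 + h7
      exact (mul_eq_zero.mp h9).resolve_left h2
    obtain ⟨i₀⟩ := hne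
    have h10 : Jh *ᵥ (Pi.single i₀ (1 : F)) = 0 := by
      by_contra hne0
      obtain ⟨⟨x, hx⟩, -⟩ := hf.nondegenerate _ hne0
      apply hx
      have := h6 (Pi.single i₀ (1 : F)) x
      rw [hf.symm]
      exact this
    have h11 : (Jh * Jh) *ᵥ (Pi.single i₀ (1 : F)) = 0 := by
      rw [← Matrix.mulVec_mulVec, h10, Matrix.mulVec_zero]
    rw [hJsq, Matrix.smul_mulVec, Matrix.one_mulVec] at h11
    have h12 := congrFun h11 i₀
    simp at h12
    exact hδ0 h12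
  · intro k hk
    obtain ⟨α, β, rfl⟩ := (hK k).mp hk
    refine ⟨α ^ 2 + δ * β ^ 2, fun v => ?_⟩
    have hps : ∀ w : ι → F, f w w = 2 * Q w := by
      intro w
      have h1 : w + w = (2 : F) • w := (two_smul F w).symm
      rw [hfdef, QuadraticMap.polar, h1, hQ.smul]
      ring
    have h3 := hpol α β v v
    rw [hps, hps] at h3
    exact mul_left_cancel₀ h2 (by linear_combination h3)
  intro g hgT hgS
  obtain ⟨A, B, hab⟩ := Helper98.mem_tensorProductSubgroup hgT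
  have hact : ∀ (u : Fin 2 → F) (v : Fin n₂ → F),
      (g : Matrix ι ι F) *ᵥ phiL e P (ptL v u) =
        phiL e P (ptL ((B : Matrix (Fin n₂) (Fin n₂) F) *ᵥ v)
          ((A : Matrix (Fin 2) (Fin 2) F) *ᵥ u)) := by
    intro u v
    rw [hab, conj_act, kron_mulVec_pt]
  have hprod : ∀ (u u' : Fin 2 → F) (v v' : Fin n₂ → F),
      f₁ ((A : Matrix (Fin 2) (Fin 2) F) *ᵥ u) ((A : Matrix (Fin 2) (Fin 2) F) *ᵥ u') *
        f₂ ((B : Matrix (Fin n₂) (Fin n₂) F) *ᵥ v) ((B : Matrix (Fin n₂) (Fin n₂) F) *ᵥ v')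
        = f₁ u u' * f₂ v v' := by
    intro u u' v v'
    have h3 := hgS (phiL e P (ptL v u)) (phiL e P (ptL v' u'))
    rw [hact, hact, hkey, hkey] at h3
    exact mul_left_cancel₀ hc h3
  obtain ⟨u₀, hu₀⟩ : ∃ u₀ : Fin 2 → F, u₀ ≠ 0 := by
    refine ⟨Pi.single 0 1, ?_⟩
    intro h
    have := congrFun h 0
    simp at this
  have hu := hani u₀ hu₀
  obtain ⟨v₁, v₂, hv⟩ := exists_ne_form hn₂ hf₂.nondegenerate
  have hβ : f₂ ((B : Matrix (Fin n₂) (Fin n₂) F) *ᵥ v₁)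
      ((B : Matrix (Fin n₂) (Fin n₂) F) *ᵥ v₂) ≠ 0 := by
    intro h0
    have h3 := hprod u₀ u₀ v₁ v₂
    rw [h0, mul_zero] at h3
    exact mul_ne_zero hu hv h3.symm
  obtain ⟨μ, hμdef⟩ : ∃ μ : F, μ = f₂ v₁ v₂ / f₂ ((B : Matrix (Fin n₂) (Fin n₂) F) *ᵥ v₁)
      ((B : Matrix (Fin n₂) (Fin n₂) F) *ᵥ v₂) := ⟨_, rfl⟩
  have hμ : μ ≠ 0 := by
    rw [hμdef]
    exact div_ne_zero hv hβ
  have hsim : ∀ u u', f₁ ((A : Matrix (Fin 2) (Fin 2) F) *ᵥ u)
      ((A : Matrix (Fin 2) (Fin 2) F) *ᵥ u') = μ * f₁ u u' := by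
    intro u u'
    have h3 := hprod u u' v₁ v₂
    rw [hμdef, div_mul_eq_mul_div, eq_div_iff hβ, h3]
    ring
  have hrel : (A : Matrix (Fin 2) (Fin 2) F)ᵀ * G * (A : Matrix (Fin 2) (Fin 2) F) = μ • G := by
    have h1 := (Helper97.Gen.isSesq_of_bilinear hf₁.bilinear).gram_of_similar
      (A : Matrix (Fin 2) (Fin 2) F) μ hsim
    rw [hGdef]
    exact h1
  have hAdet : (A : Matrix (Fin 2) (Fin 2) F).det ≠ 0 :=
    ((Matrix.isUnit_iff_isUnit_det _).mp A.isUnit).ne_zero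
  have hAJ := jm_comm G (A : Matrix (Fin 2) (Fin 2) F) hs hGdet hAdet hrel
  obtain ⟨lam, hlam⟩ : ∃ lam : F, lam = μ / (A : Matrix (Fin 2) (Fin 2) F).det := ⟨_, rfl⟩
  rw [← hlam] at hAJ
  have hlam0 : lam ≠ 0 := by
    rw [hlam]
    exact div_ne_zero hμ hAdet
  have hgJ : (g : Matrix ι ι F) * Jh = lam • (Jh * (g : Matrix ι ι F)) := by
    rw [hab, hJh, ← map_mul, ← map_mul, ← Matrix.mul_kronecker_mul, ← Matrix.mul_kronecker_mul,
      Matrix.mul_one, Matrix.one_mul, hAJ, Matrix.smul_kronecker, map_smul]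
  have hgi : (g : Matrix ι ι F) * ((g⁻¹ : GL ι F) : Matrix ι ι F) = 1 := by
    rw [← Units.val_mul, mul_inv_cancel, Units.val_one]
  have hig : ((g⁻¹ : GL ι F) : Matrix ι ι F) * (g : Matrix ι ι F) = 1 := by
    rw [← Units.val_mul, inv_mul_cancel, Units.val_one]
  have hconj : (g : Matrix ι ι F) * Jh * ((g⁻¹ : GL ι F) : Matrix ι ι F) = lam • Jh := by
    rw [hgJ, Matrix.smul_mul, Matrix.mul_assoc, hgi, Matrix.mul_one]
  have hconj' : ((g⁻¹ : GL ι F) : Matrix ι ι F) * Jh * (g : Matrix ι ι F) = lam⁻¹ • Jh := by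
    have h1 : Jh * (g : Matrix ι ι F) = lam⁻¹ • ((g : Matrix ι ι F) * Jh) := by
      rw [hgJ, smul_smul, inv_mul_cancel₀ hlam0, one_smul]
    rw [Matrix.mul_assoc, h1, Matrix.mul_smul, ← Matrix.mul_assoc, hig, Matrix.one_mul]
  rw [Helper97.Gen.mem_subalgebraNormalizer_iff]
  intro k
  constructor
  · intro hk
    obtain ⟨α, β, rfl⟩ := (hK k).mp hk
    refine (hK _).mpr ⟨α, β * lam, ?_⟩
    rw [Matrix.mul_add, Matrix.add_mul, Matrix.mul_smul, Matrix.smul_mul, Matrix.mul_one, hgi,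
      Matrix.mul_smul, Matrix.smul_mul, hconj, smul_smul]
  · intro hk
    obtain ⟨α, β, hk⟩ := (hK _).mp hk
    refine (hK _).mpr ⟨α, β * lam⁻¹, ?_⟩
    have h1 : k = ((g⁻¹ : GL ι F) : Matrix ι ι F) *
        ((g : Matrix ι ι F) * k * ((g⁻¹ : GL ι F) : Matrix ι ι F)) * (g : Matrix ι ι F) := by
      rw [← Matrix.mul_assoc, ← Matrix.mul_assoc, hig, Matrix.one_mul, Matrix.mul_assoc, hig,
        Matrix.mul_one]
    rw [h1, hk, Matrix.mul_add, Matrix.add_mul, Matrix.mul_smul, Matrix.smul_mul, Matrix.mul_one,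
      hig, Matrix.mul_smul, Matrix.smul_mul, hconj', smul_smul]

end Cfsg.Agent.Helper88
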