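-- helper88 library: the maximal subgroups of Ω_10^-(q) — row assembly (pattern of helper95's
-- Helper95/O12Row.lean) from the refined structure theorem `O10.o_core_10`.
import Cfsg.Agent.Helper88.O10Core
import Cfsg.Agent.Helper88.O10T4d
import Cfsg.Agent.Helper80.O12pN2s
import Cfsg.Agent.Helper10.O12pFS
import Cfsg.Agent.Helper94.Blocks3
import Cfsg.Agent.Helper94.ONd4
import Cfsg.Agent.Helper33.OTwo

set_option autoImplicit false
set_option linter.unusedSectionVars false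
set_option linter.unusedVariables false
open Cfsg Cfsg.Geo Matrix
open Cfsg.Agent.Helper96
open Cfsg.Agent.Helper95.O12

namespace Cfsg.Agent.Helper88.O10

theorem inj0 {p0 p1 p2 p3 p4 p5 p6 p7 p8 p9 p10 p11 p12 p13 : Prop} (h : p0) : p0 ∨ p1 ∨ p2 ∨ p3 ∨ p4 ∨ p5 ∨ p6 ∨ p7 ∨ p8 ∨ p9 ∨ p10 ∨ p11 ∨ p12 ∨ p13 := Or.inl h

theorem inj1 {p0 p1 p2 p3 p4 p5 p6 p7 p8 p9 p10 p11 p12 p13 : Prop} (h : p1) : p0 ∨ p1 ∨ p2 ∨ p3 ∨ p4 ∨ p5 ∨ p6 ∨ p7 ∨ p8 ∨ p9 ∨ p10 ∨ p11 ∨ p12 ∨ p13 := Or.inr (Or.inl h)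

theorem inj2 {p0 p1 p2 p3 p4 p5 p6 p7 p8 p9 p10 p11 p12 p13 : Prop} (h : p2) : p0 ∨ p1 ∨ p2 ∨ p3 ∨ p4 ∨ p5 ∨ p6 ∨ p7 ∨ p8 ∨ p9 ∨ p10 ∨ p11 ∨ p12 ∨ p13 := Or.inr (Or.inr (Or.inl h))

theorem inj3 {p0 p1 p2 p3 p4 p5 p6 p7 p8 p9 p10 p11 p12 p13 : Prop} (h : p3) : p0 ∨ p1 ∨ p2 ∨ p3 ∨ p4 ∨ p5 ∨ p6 ∨ p7 ∨ p8 ∨ p9 ∨ p10 ∨ p11 ∨ p12 ∨ p13 := Or.inr (Or.inr (Or.inr (Or.inl h)))

theorem inj4 {p0 p1 p2 p3 p4 p5 p6 p7 p8 p9 p10 p11 p12 p13 : Prop} (h : p4) : p0 ∨ p1 ∨ p2 ∨ p3 ∨ p4 ∨ p5 ∨ p6 ∨ p7 ∨ p8 ∨ p9 ∨ p10 ∨ p11 ∨ p12 ∨ p13 := Or.inr (Or.inr (Or.inr (Or.inr (Or.inl h))))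

theorem inj5 {p0 p1 p2 p3 p4 p5 p6 p7 p8 p9 p10 p11 p12 p13 : Prop} (h : p5) : p0 ∨ p1 ∨ p2 ∨ p3 ∨ p4 ∨ p5 ∨ p6 ∨ p7 ∨ p8 ∨ p9 ∨ p10 ∨ p11 ∨ p12 ∨ p13 := Or.inr (Or.inr (Or.inr (Or.inr (Or.inr (Or.inl h)))))

theorem inj6 {p0 p1 p2 p3 p4 p5 p6 p7 p8 p9 p10 p11 p12 p13 : Prop} (h : p6) : p0 ∨ p1 ∨ p2 ∨ p3 ∨ p4 ∨ p5 ∨ p6 ∨ p7 ∨ p8 ∨ p9 ∨ p10 ∨ p11 ∨ p12 ∨ p13 := Or.inr (Or.inr (Or.inr (Or.inr (Or.inr (Or.inr (Or.inl h))))))

theorem inj7 {p0 p1 p2 p3 p4 p5 p6 p7 p8 p9 p10 p11 p12 p13 : Prop} (h : p7) : p0 ∨ p1 ∨ p2 ∨ p3 ∨ p4 ∨ p5 ∨ p6 ∨ p7 ∨ p8 ∨ p9 ∨ p10 ∨ p11 ∨ p12 ∨ p13 := Or.inr (Or.inr (Or.inr (Or.inr (Or.inr (Or.inr (Or.inr (Or.inl h)))))))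

theorem inj8 {p0 p1 p2 p3 p4 p5 p6 p7 p8 p9 p10 p11 p12 p13 : Prop} (h : p8) : p0 ∨ p1 ∨ p2 ∨ p3 ∨ p4 ∨ p5 ∨ p6 ∨ p7 ∨ p8 ∨ p9 ∨ p10 ∨ p11 ∨ p12 ∨ p13 := Or.inr (Or.inr (Or.inr (Or.inr (Or.inr (Or.inr (Or.inr (Or.inr (Or.inl h))))))))

theorem inj9 {p0 p1 p2 p3 p4 p5 p6 p7 p8 p9 p10 p11 p12 p13 : Prop} (h : p9) : p0 ∨ p1 ∨ p2 ∨ p3 ∨ p4 ∨ p5 ∨ p6 ∨ p7 ∨ p8 ∨ p9 ∨ p10 ∨ p11 ∨ p12 ∨ p13 := Or.inr (Or.inr (Or.inr (Or.inr (Or.inr (Or.inr (Or.inr (Or.inr (Or.inr (Or.inl h)))))))))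

theorem inj10 {p0 p1 p2 p3 p4 p5 p6 p7 p8 p9 p10 p11 p12 p13 : Prop} (h : p10) : p0 ∨ p1 ∨ p2 ∨ p3 ∨ p4 ∨ p5 ∨ p6 ∨ p7 ∨ p8 ∨ p9 ∨ p10 ∨ p11 ∨ p12 ∨ p13 := Or.inr (Or.inr (Or.inr (Or.inr (Or.inr (Or.inr (Or.inr (Or.inr (Or.inr (Or.inr (Or.inl h))))))))))

theorem inj11 {p0 p1 p2 p3 p4 p5 p6 p7 p8 p9 p10 p11 p12 p13 : Prop} (h : p11) : p0 ∨ p1 ∨ p2 ∨ p3 ∨ p4 ∨ p5 ∨ p6 ∨ p7 ∨ p8 ∨ p9 ∨ p10 ∨ p11 ∨ p12 ∨ p13 := Or.inr (Or.inr (Or.inr (Or.inr (Or.inr (Or.inr (Or.inr (Or.inr (Or.inr (Or.inr (Or.inr (Or.inl h)))))))))))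

theorem inj12 {p0 p1 p2 p3 p4 p5 p6 p7 p8 p9 p10 p11 p12 p13 : Prop} (h : p12) : p0 ∨ p1 ∨ p2 ∨ p3 ∨ p4 ∨ p5 ∨ p6 ∨ p7 ∨ p8 ∨ p9 ∨ p10 ∨ p11 ∨ p12 ∨ p13 := Or.inr (Or.inr (Or.inr (Or.inr (Or.inr (Or.inr (Or.inr (Or.inr (Or.inr (Or.inr (Or.inr (Or.inr (Or.inl h))))))))))))

theorem inj13 {p0 p1 p2 p3 p4 p5 p6 p7 p8 p9 p10 p11 p12 p13 : Prop} (h : p13) : p0 ∨ p1 ∨ p2 ∨ p3 ∨ p4 ∨ p5 ∨ p6 ∨ p7 ∨ p8 ∨ p9 ∨ p10 ∨ p11 ∨ p12 ∨ p13 := Or.inr (Or.inr (Or.inr (Or.inr (Or.inr (Or.inr (Or.inr (Or.inr (Or.inr (Or.inr (Or.inr (Or.inr (Or.inr (h)))))))))))))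

variable {F : Type*} [Field F] [Fintype F]

/-- The conclusion of the row. -/
def Goal10 (Q : (Fin 10 → F) → F) (H : Subgroup (Matrix.GeneralLinearGroup (Fin 10) F)) : Prop :=
    (∃ W : Submodule F (Fin 10 → F), W ≠ ⊥ ∧ Cfsg.Geo.IsTotallySingularQuad Q W ∧ H = Cfsg.Geo.subspaceStabilizer W ⊓ Cfsg.Geo.omegaGL Q) ∨
    (Odd (Fintype.card F) ∧ ∃ W : Submodule F (Fin 10 → F), W ≠ ⊥ ∧ W ≠ ⊤ ∧ Odd (Module.finrank F W) ∧ 2 * Module.finrank F W ≠ 10 ∧ Cfsg.Geo.IsNondegenerateOn (QuadraticMap.polar Q) W ∧ H = Cfsg.Geo.subspaceStabilizer W ⊓ Cfsg.Geo.omegaGL Q) ∨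
    (∃ W : Submodule F (Fin 10 → F), Module.finrank F W = 2 ∧ Cfsg.Geo.IsNondegenerateOn (QuadraticMap.polar Q) W ∧ ¬ Cfsg.Geo.IsPlusTypeOn Q W ∧ H = Cfsg.Geo.subspaceStabilizer W ⊓ Cfsg.Geo.omegaGL Q) ∨
    (4 ≤ Fintype.card F ∧ ∃ W : Submodule F (Fin 10 → F), Module.finrank F W = 2 ∧ Cfsg.Geo.IsNondegenerateOn (QuadraticMap.polar Q) W ∧ Cfsg.Geo.IsPlusTypeOn Q W ∧ H = Cfsg.Geo.subspaceStabilizer W ⊓ Cfsg.Geo.omegaGL Q) ∨
    (∃ W : Submodule F (Fin 10 → F), Module.finrank F W = 4 ∧ Cfsg.Geo.IsNondegenerateOn (QuadraticMap.polar Q) W ∧ H = Cfsg.Geo.subspaceStabilizer W ⊓ Cfsg.Geo.omegaGL Q) ∨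
    (¬ Odd (Fintype.card F) ∧ ∃ v : (Fin 10 → F), Q v ≠ 0 ∧ H = Cfsg.Geo.subspaceStabilizer (Submodule.span F {v}) ⊓ Cfsg.Geo.omegaGL Q) ∨
    ((∃ p : ℕ, p.Prime ∧ Fintype.card F = p ∧ (p % 4 = 3)) ∧ ∃ D : Fin 10 → Submodule F (Fin 10 → F), Cfsg.Geo.IsOrthogonalMDecomposition Q 1 D ∧ H = Cfsg.Geo.decompositionStabilizer D ⊓ Cfsg.Geo.omegaGL Q) ∨
    (Fintype.card F ≠ 3 ∧ ∃ D : Fin 5 → Submodule F (Fin 10 → F), Cfsg.Geo.IsOrthogonalMDecomposition Q 2 D ∧ H = Cfsg.Geo.decompositionStabilizer D ⊓ Cfsg.Geo.omegaGL Q) ∨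
    (Fintype.card F % 4 = 3 ∧ ∃ D : Fin 2 → Submodule F (Fin 10 → F), Cfsg.Geo.IsOrthogonalMDecomposition Q 5 D ∧ H = Cfsg.Geo.decompositionStabilizer D ⊓ Cfsg.Geo.omegaGL Q) ∨
    (Fintype.card F % 4 = 1 ∧ ∃ D : Fin 2 → Submodule F (Fin 10 → F), Cfsg.Geo.IsNondegenerateMDecomposition (QuadraticMap.polar Q) 5 D ∧ ¬ Cfsg.Geo.AreIsometricFor Q (D 0) (D 1) ∧ H = Cfsg.Geo.decompositionStabilizer D ⊓ Cfsg.Geo.omegaGL Q) ∨
    (Odd (Fintype.card F) ∧ ∃ K : Subalgebra F (Matrix (Fin 10) (Fin 10) F), Cfsg.Geo.IsFieldSubalgebra 2 K ∧ Cfsg.Geo.IsSelfAdjointFor (QuadraticMap.polar Q) K ∧ H = Cfsg.Geo.subalgebraNormalizer K ⊓ Cfsg.Geo.omegaGL Q) ∨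
    (∃ K : Subalgebra F (Matrix (Fin 10) (Fin 10) F), Cfsg.Geo.IsFieldSubalgebra 2 K ∧ Cfsg.Geo.IsAdjointClosedFor (QuadraticMap.polar Q) K ∧ ¬ Cfsg.Geo.IsSelfAdjointFor (QuadraticMap.polar Q) K ∧ (∀ k ∈ K, ∃ c : F, ∀ v : (Fin 10 → F), Q (Matrix.mulVec k v) = c * Q v) ∧ H = Cfsg.Geo.subalgebraNormalizer K ⊓ Cfsg.Geo.omegaGL Q) ∨
    (∃ (F₀ : Subfield F) (r : ℕ) (P : Matrix.GeneralLinearGroup (Fin 10) F) (ζ : F), r.Prime ∧ Odd r ∧ Fintype.card F = Nat.card F₀ ^ r ∧ ζ ≠ 0 ∧ Cfsg.Geo.IsQuadFormRationalStructure (fun v : Fin 10 → F => ζ * Q v) F₀ P ∧ H = Cfsg.Geo.subfieldSubgroup F₀ P ⊓ Cfsg.Geo.omegaGL Q) ∨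
    Cfsg.Geo.InOrthogonalResidualClass H

theorem card10 : Fintype.card (Fin 10) = 10 := Fintype.card_fin 10

theorem finrank_top10 : Module.finrank F (⊤ : Submodule F (Fin 10 → F)) = 10 := by
  rw [finrank_top, Module.finrank_fintype_fun_eq_card, Fintype.card_fin]

theorem iso_refl (Q : (Fin 10 → F) → F) (W : Submodule F (Fin 10 → F)) : AreIsometricFor Q W W :=
  ⟨LinearEquiv.refl F W, fun _ => rfl⟩

/-- An orthogonal isometric decomposition into an even number of blocks is of plus type when `-1`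
is a square. -/
theorem plus_of_sq {Q : (Fin 10 → F) → F} (hQ : IsNondegenerateQuadraticForm Q) {t k s : ℕ}
    (D : Fin t → Submodule F (Fin 10 → F)) (hD : IsOrthogonalMDecomposition Q k D)
    (hts : t = s + s) (hsq : IsSquare (-1 : F)) : IsPlusTypeOn Q ⊤ := by
  classical
  obtain ⟨i, hi⟩ := hsq
  have ht2 := hD.decomp.decomp.two_le
  obtain ⟨i₀⟩ : Nonempty (Fin t) := ⟨⟨0, by omega⟩⟩
  refine Cfsg.Agent.Helper14.o12_theta_plus14 Q hQ D hD hts i₀ (i • LinearMap.id) (fun x => ?_)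
  rw [← Finset.sum_neg_distrib]
  refine Finset.sum_congr rfl (fun j _ => ?_)
  have h1 : (((i • LinearMap.id : (Fin s → D i₀) →ₗ[F] (Fin s → D i₀)) x j : D i₀) : Fin 10 → F)
      = i • ((x j : D i₀) : Fin 10 → F) := rfl
  rw [h1, hQ.smul]
  linear_combination (-Q ((x j : D i₀) : Fin 10 → F)) * hi

theorem mod4_of_not_sq (h2 : (2 : F) ≠ 0) (h : ¬ IsSquare (-1 : F)) : Fintype.card F % 4 = 3 := by
  by_contra hcon
  exact h (FiniteField.isSquare_neg_one_iff.mpr hcon)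

theorem mod4_of_sq (h2 : (2 : F) ≠ 0) (h : IsSquare (-1 : F)) : Fintype.card F % 4 = 1 := by
  have h1 := FiniteField.isSquare_neg_one_iff.mp h
  have h3 := odd_of_two_ne_zero h2
  rw [Nat.odd_iff] at h3
  omega

section
variable {Q : (Fin 10 → F) → F} (hQ : IsNondegenerateQuadraticForm Q)
  (hminus : ¬ IsPlusTypeOn Q ⊤) {H : Subgroup (GL (Fin 10) F)} (hH : IsMaximalIn (omegaGL Q) H)

include hQ hminus hH in
/-- A proper non-zero non-degenerate invariant subspace of dimension at most four. -/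
theorem sub_case10 (W : Submodule F (Fin 10 → F)) (hW0 : W ≠ ⊥) (hW1 : W ≠ ⊤)
    (hnd : IsNondegenerateOn (QuadraticMap.polar Q) W) (hle : H ≤ subspaceStabilizer W)
    (hd4 : Module.finrank F W ≤ 4) : Goal10 Q H := by
  classical
  have hN := Cfsg.Agent.Helper76.o12_notOmega_subspace Q hQ (by rw [card10]; norm_num) W hW0 hW1
  have hkey := key hH hle hN
  obtain ⟨d, hd⟩ : ∃ d, Module.finrank F W = d := ⟨_, rfl⟩
  have hd1 : 1 ≤ d := by
    rw [← hd]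
    exact Nat.one_le_iff_ne_zero.mpr (fun h0 => hW0 (Submodule.finrank_eq_zero.mp h0))
  rw [hd] at hd4
  have hoddcase : Odd d → Goal10 Q H := by
    intro hodd
    have h2 := Cfsg.Agent.Helper76.o12_two_ne_of_odd Q hQ W hnd (by rw [hd]; exact hodd)
    refine inj1 ⟨odd_of_two_ne_zero h2, W, hW0, hW1, by rw [hd]; exact hodd, ?_, hnd, hkey⟩
    rw [hd]
    omega
  rcases (by omega : d = 1 ∨ d = 2 ∨ d = 3 ∨ d = 4) with rfl | rfl | rfl | rfl
  · exact hoddcase (by decide)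
  · by_cases hplus : IsPlusTypeOn Q W
    · by_cases hq : 4 ≤ Fintype.card F
      · exact inj3 ⟨hq, W, hd, hnd, hplus, hkey⟩
      · obtain ⟨x, hx, hxle⟩ := Cfsg.Agent.Helper20.o12_plus_plane_small (by omega) Q hQ W hd hnd hplus
        have hle' : H ≤ subspaceStabilizer (Submodule.span F {x}) :=
          fun h hh => hxle ⟨le_iso hH hh, hle hh⟩
        have hN' := Cfsg.Agent.Helper76.o12_notOmega_subspace Q hQ (by rw [card10]; norm_num) _
          (span_ne_bot hx hQ) (span_ne_top_gen (by norm_num) x)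
        have hkey' := key hH hle' hN'
        by_cases h2 : (2 : F) = 0
        · exact inj5 ⟨not_odd_of_two_eq_zero h2, x, hx, hkey'⟩
        · have hx0 : x ≠ 0 := by
            rintro rfl
            exact hx (q_zero hQ)
          refine inj1 ⟨odd_of_two_ne_zero h2, _, span_ne_bot hx hQ, span_ne_top_gen (by norm_num) x,
            ?_, ?_, ?_, hkey'⟩
          · rw [finrank_span_singleton hx0]
            exact odd_one
          · rw [finrank_span_singleton hx0]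
            norm_num
          · intro w hw hw0
            obtain ⟨c, rfl⟩ := Submodule.mem_span_singleton.mp hw
            have hc : c ≠ 0 := by
              rintro rfl
              exact hw0 (zero_smul _ _)
            have hxx : QuadraticMap.polar Q x x ≠ 0 := by
              rw [Helper97.polar_self Q hQ]
              exact mul_ne_zero h2 hx
            refine ⟨⟨x, Submodule.mem_span_singleton_self x, ?_⟩,
              ⟨x, Submodule.mem_span_singleton_self x, ?_⟩⟩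
            · rw [hQ.polar_bilinear.smul_right]
              exact mul_ne_zero hc hxx
            · rw [hQ.polar_bilinear.smul_left]
              exact mul_ne_zero hc hxx
    · exact inj2 ⟨W, hd, hnd, hplus, hkey⟩
  · exact hoddcase (by decide)
  · exact inj4 ⟨W, hd, hnd, hkey⟩

include hQ hminus hH in
/-- Two complementary orthogonal non-degenerate five-dimensional subspaces. -/
theorem five_case (W W' : Submodule F (Fin 10 → F))
    (hnd : IsNondegenerateOn (QuadraticMap.polar Q) W)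
    (hnd' : IsNondegenerateOn (QuadraticMap.polar Q) W')
    (horth : AreOrthogonalFor (QuadraticMap.polar Q) W W') (hinf : W ⊓ W' = ⊥) (hsup : W ⊔ W' = ⊤)
    (hle : H ≤ subspaceStabilizer W) (hle' : H ≤ subspaceStabilizer W')
    (hd : Module.finrank F W = 5) (hd' : Module.finrank F W' = 5) : Goal10 Q H := by
  classical
  have h2 := Cfsg.Agent.Helper76.o12_two_ne_of_odd Q hQ W hnd (by rw [hd]; decide)
  have hDec : IsMDecomposition 5 (Sy.pairD W W') := Sy.pair_decomp W W' hinf hsup 5 hd hd' (by norm_num)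
  have hND : IsNondegenerateMDecomposition (QuadraticMap.polar Q) 5 (Sy.pairD W W') := by
    refine ⟨hDec, ?_, ?_⟩
    · intro i
      rcases Sy.fin2_cases i with rfl | rfl
      · exact hnd
      · exact hnd'
    · intro i j hij
      rcases Sy.fin2_cases i with rfl | rfl <;> rcases Sy.fin2_cases j with rfl | rfl
      · exact absurd rfl hij
      · exact horth
      · intro u hu v hv
        rw [QuadraticMap.polar_comm]
        exact horth v hv u hu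
      · exact absurd rfl hij
  have hleD : H ≤ decompositionStabilizer (Sy.pairD W W') := by
    intro h hh
    refine Sy.pair_stab_fix W W' 5 hd hd' h ?_ ?_
    · intro x hx
      exact ((Helper97.mem_subspaceStabilizer_iff W h).mp (hle hh) x).mp hx
    · intro x hx
      exact ((Helper97.mem_subspaceStabilizer_iff W' h).mp (hle' hh) x).mp hx
  have hkeyD := key hH hleD
    (Cfsg.Agent.Helper66.o12_notOmega_decomp Q hQ (by rw [card10]; norm_num) (by norm_num) _ hND)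
  by_cases hiso : AreIsometricFor Q W W'
  · have hO : IsOrthogonalMDecomposition Q 5 (Sy.pairD W W') := by
      refine ⟨hND, ?_⟩
      intro i j
      rcases Sy.fin2_cases i with rfl | rfl <;> rcases Sy.fin2_cases j with rfl | rfl
      · exact iso_refl Q W
      · exact hiso
      · exact Cfsg.Agent.Helper94.ond_isometric_symm Q W W' hiso
      · exact iso_refl Q W'
    have hns : ¬ IsSquare (-1 : F) := fun hsq => hminus (plus_of_sq hQ _ hO (s := 1) rfl hsq)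
    exact inj8 ⟨mod4_of_not_sq h2 hns, Sy.pairD W W', hO, hkeyD⟩
  · have hX := Cfsg.Agent.Helper33.o_two_blocks_plus_iff Q hQ (k := 5) (by decide) (Sy.pairD W W') hND
    have hsq : IsSquare (-1 : F) := by
      by_contra hns
      exact hminus (hX.mpr ⟨fun h => absurd h hiso, fun h => absurd h hns⟩)
    exact inj9 ⟨mod4_of_sq h2 hsq, Sy.pairD W W', hND, hiso, hkeyD⟩

include hQ hminus hH in
/-- The subfield case. -/
theorem subfield_case10 (F₁ : Subfield F) (r : ℕ) (P : GL (Fin 10) F) (ζ : F) (hr : r.Prime)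
    (hcard : Fintype.card F = Nat.card F₁ ^ r) (hζ : ζ ≠ 0)
    (hrat : IsQuadFormRationalStructure (fun v : Fin 10 → F => ζ * Q v) F₁ P)
    (hle : H ≤ subfieldSubgroup F₁ P) : Goal10 Q H := by
  classical
  by_cases hr2 : r = 2
  · subst hr2
    exact absurd (Cfsg.Agent.Helper30.o12_subfield_two_plus Q hQ F₁ hcard P ζ hζ hrat
      (by rw [card10]; decide)) hminus
  · have hodd : Odd r := hr.eq_two_or_odd'.resolve_left hr2
    have hF₁ : F₁ ≠ ⊤ := top_ne_of_card F₁ hr hcard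
    exact inj12 ⟨F₁, r, P, ζ, hr, hodd, hcard, hζ, hrat,
      key hH hle (Cfsg.Agent.Helper81.o12_notOmega_subfield Q hQ (by rw [card10]; norm_num) F₁ hF₁ P)⟩

include hQ hminus hH in
/-- A non-degenerate decomposition permuted by the (irreducible) group. -/
theorem decomp_case10 (hirr : ActsIrreducibly (matrixSet H)) {t k : ℕ}
    (D : Fin t → Submodule F (Fin 10 → F))
    (hD : IsNondegenerateMDecomposition (QuadraticMap.polar Q) k D)
    (hle : H ≤ decompositionStabilizer D) : Goal10 Q H := by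
  classical
  have hO : IsOrthogonalMDecomposition Q k D :=
    ⟨hD, fun i j => Helper94.OA.decomp_iso H hirr (le_iso hH) D hD.decomp hle i j⟩
  have htk := decomp_card_gen D hD.decomp
  have ht2 := hD.decomp.two_le
  have hk := hD.decomp.pos
  have ht10 : t ≤ 10 := Nat.le_of_dvd (by norm_num) ⟨k, htk.symm⟩
  have hcases : (t = 2 ∧ k = 5) ∨ (t = 5 ∧ k = 2) ∨ (t = 10 ∧ k = 1) := by
    interval_cases t <;> omega
  rcases hcases with ⟨rfl, rfl⟩ | ⟨rfl, rfl⟩ | ⟨rfl, rfl⟩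
  · -- two isometric five-dimensional blocks
    have h2 := Cfsg.Agent.Helper76.o12_two_ne_of_odd Q hQ (D 0) (hD.nondegenerate 0)
      (by rw [hD.decomp.finrank_eq]; decide)
    have hns : ¬ IsSquare (-1 : F) := fun hsq => hminus (plus_of_sq hQ D hO (s := 1) rfl hsq)
    exact inj8 ⟨mod4_of_not_sq h2 hns, D, hO, key hH hle
      (Cfsg.Agent.Helper66.o12_notOmega_decomp Q hQ (by rw [card10]; norm_num) (by norm_num) D hD)⟩
  · -- five planes
    have hN := Cfsg.Agent.Helper80.o12p_notOmega_decomp_small Q hQ (by rw [card10]; norm_num)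
      (by norm_num) D hD
    by_cases hq3 : Fintype.card F = 3
    · exfalso
      have h2 := Helper94.two_ne_zero_of_card_three hq3
      obtain ⟨K, hK1, hK2⟩ := Helper94.frame_of_good hQ h2 D hO (by norm_num) 1 one_ne_zero
        (fun i => Helper94.good2 hQ hq3 (D i) (hD.decomp.finrank_eq i) (hD.nondegenerate i))
      have hHle : H ≤ decompositionStabilizer D ⊓ omegaGL Q := le_inf hle hH.1.le
      rcases hH.2 K (hHle.trans hK1.le) hK2.le with h | h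
      · rw [h] at hK1
        exact absurd hHle (not_le_of_gt hK1)
      · rw [h] at hK2
        exact lt_irrefl _ hK2
    · exact inj7 ⟨hq3, D, hO, key hH hle hN⟩
  · -- ten lines
    have hN := Cfsg.Agent.Helper80.o12p_notOmega_decomp_small Q hQ (by rw [card10]; norm_num)
      (by norm_num) D hD
    have h2 := Cfsg.Agent.Helper76.o12_two_ne_of_odd Q hQ (D 0) (hD.nondegenerate 0)
      (by rw [hD.decomp.finrank_eq]; decide)
    have hns : ¬ IsSquare (-1 : F) := fun hsq => hminus (plus_of_sq hQ D hO (s := 5) rfl hsq)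
    have hmod := mod4_of_not_sq h2 hns
    by_cases hp : (Fintype.card F).Prime
    · exact inj6 ⟨⟨Fintype.card F, hp, rfl, hmod⟩, D, hO, key hH hle hN⟩
    · have hbot : (⊥ : Subfield F) ≠ ⊤ := by
        intro h
        apply hp
        obtain ⟨p, hchar⟩ := CharP.exists F
        have hpp : p.Prime :=
          (CharP.char_is_prime_or_zero F p).resolve_right (CharP.char_ne_zero_of_finite F p)
        have : Fact p.Prime := ⟨hpp⟩
        have h1 := Subfield.card_bot F p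
        rw [h] at h1
        have h3 : Nat.card (⊤ : Subfield F) = Fintype.card F := by
          rw [← Nat.card_eq_fintype_card]
          exact Nat.card_congr Subfield.topEquiv.toEquiv
        rw [h3] at h1
        rw [h1]
        exact hpp
      obtain ⟨F₁, r, -, hr, hcard⟩ := Helper97.Gen.exists_prime_index_subfield (⊥ : Subfield F) hbot
      obtain ⟨P, ζ, hζ, hrat, hle'⟩ := Cfsg.Agent.Helper10.o12p_frame_subfield Q hQ D hO F₁
      exact subfield_case10 hQ hminus hH F₁ r P ζ hr hcard hζ hrat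
        (fun h hh => hle' ⟨hle hh, le_iso hH hh⟩)

include hQ hminus hH in
/-- The tensor case `2 ⊗ 5`. -/
theorem tensor25_case (h2 : (2 : F) ≠ 0)
    (e : Fin 10 ≃ Fin 2 × Fin 5) (P : GL (Fin 10) F)
    (f₁ : (Fin 2 → F) → (Fin 2 → F) → F) (f₂ : (Fin 5 → F) → (Fin 5 → F) → F)
    (hf₁ : IsSymmetricForm f₁) (hf₂ : IsSymmetricForm f₂)
    (hT : IsTensorFormStructure id (QuadraticMap.polar Q) f₁ f₂ e P)
    (hle : H ≤ tensorProductSubgroup 2 5 e P) : Goal10 Q H := by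
  classical
  by_cases haniso : ∀ s : Fin 2 → F, f₁ s s = 0 → s = 0
  · obtain ⟨K, hK, hac, hnsa, hsim, hKn⟩ := Cfsg.Agent.Helper88.o10_tensor_two_unitary h2 Q hQ
      (by norm_num) e P f₁ f₂ hf₁ hf₂ hT haniso
    have hle' : H ≤ subalgebraNormalizer K :=
      fun h hh => hKn h (hle hh) (fun u v => polar_fix (h_iso hH h hh) u v)
    exact inj11 ⟨K, hK, hac, hnsa, hsim, key hH hle'
      (Cfsg.Agent.Helper66.o12_notOmega_field Q hQ (by norm_num) (by rw [card10]; norm_num) K hK)⟩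
  · exfalso
    apply hminus
    push Not at haniso
    obtain ⟨s, hs, hs0⟩ := haniso
    obtain ⟨hT', -⟩ := Cfsg.Agent.Helper20.o12_tensor_swap (QuadraticMap.polar Q) e P f₁ f₂ hT
    obtain ⟨c, hc, hpt⟩ := Cfsg.Agent.Helper74.o12_tensor_pure (QuadraticMap.polar Q)
      (e.trans (Equiv.prodComm (Fin 2) (Fin 5))) P f₂ f₁ hf₂.bilinear hf₁.bilinear hT'
    have hss : ∀ y ∈ Submodule.span F {s}, f₁ y y = 0 := by
      intro y hy
      obtain ⟨a, rfl⟩ := Submodule.mem_span_singleton.mp hy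
      rw [hf₁.bilinear.smul_left, hf₁.bilinear.smul_right, hs, mul_zero, mul_zero]
    refine Cfsg.Agent.Helper52.o12_tensor_plus Q hQ (e.trans (Equiv.prodComm (Fin 2) (Fin 5))) P f₂ f₁
      hf₂.bilinear hf₁.bilinear hT' (Submodule.span F {s}) ?_ ?_ ?_
    · intro u hu v hv
      obtain ⟨a, rfl⟩ := Submodule.mem_span_singleton.mp hu
      obtain ⟨b, rfl⟩ := Submodule.mem_span_singleton.mp hv
      rw [hf₁.bilinear.smul_left, hf₁.bilinear.smul_right, hs, mul_zero, mul_zero]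
    · rw [finrank_span_singleton hs0]
    · intro s' y hy
      apply q_of_polar hQ h2
      rw [hpt, hss y hy, mul_zero, mul_zero]

include hQ hminus hH in
/-- The tensor case. -/
theorem tensor_case10 (h2 : (2 : F) ≠ 0) {n₁ n₂ : ℕ}
    (e : Fin 10 ≃ Fin n₁ × Fin n₂) (P : GL (Fin 10) F)
    (f₁ : (Fin n₁ → F) → (Fin n₁ → F) → F) (f₂ : (Fin n₂ → F) → (Fin n₂ → F) → F)
    (h1 : 2 ≤ n₁) (h2' : 2 ≤ n₂)
    (hf₁ : IsSymmetricForm f₁) (hf₂ : IsSymmetricForm f₂)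
    (hT : IsTensorFormStructure id (QuadraticMap.polar Q) f₁ f₂ e P)
    (hle : H ≤ tensorProductSubgroup n₁ n₂ e P) : Goal10 Q H := by
  classical
  have hcard : n₁ * n₂ = 10 := by
    have := Fintype.card_congr e
    simpa using this.symm
  have hn10 : n₁ ≤ 10 := Nat.le_of_dvd (by norm_num) ⟨n₂, hcard.symm⟩
  have hcases : (n₁ = 2 ∧ n₂ = 5) ∨ (n₁ = 5 ∧ n₂ = 2) := by
    interval_cases n₁ <;> omega
  obtain ⟨hT', heq⟩ := Cfsg.Agent.Helper20.o12_tensor_swap (QuadraticMap.polar Q) e P f₁ f₂ hT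
  rcases hcases with ⟨rfl, rfl⟩ | ⟨rfl, rfl⟩
  · exact tensor25_case hQ hminus hH h2 e P f₁ f₂ hf₁ hf₂ hT hle
  · exact tensor25_case hQ hminus hH h2 _ P f₂ f₁ hf₂ hf₁ hT' (heq ▸ hle)

include hQ hminus hH in
/-- The maximal subgroups of `Ω_10^-(q)`. -/
theorem row10 : Goal10 Q H := by
  classical
  rcases o_core_10 Q hQ H (h_iso hH) with
    ⟨W, hW0, hts, hle⟩ | ⟨h2, v, hv, hle⟩ | ⟨W, W', hW0, hW'0, hnd, hnd', horth, hinf, hsup, hle, hle'⟩ |
    ⟨hirr, t, k, D, hD, hle⟩ | ⟨h2, K, hK, hsa, hle⟩ | hplus |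
    ⟨h2, hirr, n₁, n₂, e, P, f₁, f₂, h1, h2', hf₁, hf₂, hT, hle⟩ |
    ⟨F₁, r, P, ζ, hr, hcard, hζ, hrat, hle⟩ | hres | ⟨r, j, -, hr, hrj, -⟩ |
    ⟨d, t, -, -, -, -, -, -, hd, ht, hdt, -⟩ | ⟨K, hK, hac, hnsa, hsim, hle⟩
  · -- totally singular subspace
    have hW1 : W ≠ ⊤ := by
      rintro rfl
      exact ts_ne_top (by norm_num) hQ hts
    exact inj0 ⟨W, hW0, hts, key hH hle
      (Cfsg.Agent.Helper76.o12_notOmega_subspace Q hQ (by rw [card10]; norm_num) W hW0 hW1)⟩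
  · -- non-singular vector, characteristic two
    exact inj5 ⟨not_odd_of_two_eq_zero h2, v, hv, key hH hle
      (Cfsg.Agent.Helper76.o12_notOmega_subspace Q hQ (by rw [card10]; norm_num) _
        (span_ne_bot hv hQ) (span_ne_top_gen (by norm_num) v))⟩
  · -- orthogonal pair
    have hsum : Module.finrank F W + Module.finrank F W' = 10 := by
      have := Submodule.finrank_sup_add_finrank_inf_eq W W'
      rw [hsup, hinf, finrank_bot, finrank_top10] at this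
      omega
    have hW1 : W ≠ ⊤ := by
      rintro rfl
      rw [top_inf_eq] at hinf
      exact hW'0 hinf
    have hW'1 : W' ≠ ⊤ := by
      rintro rfl
      rw [inf_top_eq] at hinf
      exact hW0 hinf
    by_cases h4 : Module.finrank F W ≤ 4
    · exact sub_case10 hQ hminus hH W hW0 hW1 hnd hle h4
    · by_cases h4' : Module.finrank F W' ≤ 4
      · exact sub_case10 hQ hminus hH W' hW'0 hW'1 hnd' hle' h4'
      · exact five_case hQ hminus hH W W' hnd hnd' horth hinf hsup hle hle' (by omega) (by omega)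
  · exact decomp_case10 hQ hminus hH hirr D hD hle
  · -- self-adjoint field of degree two, odd characteristic
    exact inj10 ⟨odd_of_two_ne_zero h2, K, hK, hsa, key hH hle
      (Cfsg.Agent.Helper66.o12_notOmega_field Q hQ (by norm_num) (by rw [card10]; norm_num) K hK)⟩
  · exact absurd hplus hminus
  · exact tensor_case10 hQ hminus hH h2 e P f₁ f₂ h1 h2' hf₁ hf₂ hT hle
  · exact subfield_case10 hQ hminus hH F₁ r P ζ hr hcard hζ hrat hle
  · exact inj13 hres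
  · exfalso
    have h2 : 2 ∣ r ^ j := ⟨50, by rw [← hrj]⟩
    have h5 : 5 ∣ r ^ j := ⟨20, by rw [← hrj]⟩
    have h2' := (Nat.prime_dvd_prime_iff_eq Nat.prime_two hr).mp (Nat.Prime.dvd_of_dvd_pow Nat.prime_two h2)
    have h5' := (Nat.prime_dvd_prime_iff_eq Nat.prime_five hr).mp (Nat.Prime.dvd_of_dvd_pow Nat.prime_five h5)
    omega
  · exfalso
    have h1 : d ^ 2 ≤ d ^ t := Nat.pow_le_pow_right (by omega) ht
    have hd3 : d ≤ 3 := by
      by_contra hcon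
      have : 4 ^ 2 ≤ d ^ 2 := Nat.pow_le_pow_left (by omega) 2
      omega
    have ht4 : t < 4 := by
      by_contra hcon
      have h4 : 2 ^ 4 ≤ d ^ t := (Nat.pow_le_pow_left hd 4).trans (Nat.pow_le_pow_right (by omega) (by omega))
      omega
    interval_cases d <;> interval_cases t <;> omega
  · -- unitary field of degree two
    exact inj11 ⟨K, hK, hac, hnsa, hsim, key hH hle
      (Cfsg.Agent.Helper66.o12_notOmega_field Q hQ (by norm_num) (by rw [card10]; norm_num) K hK)⟩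

end

end Cfsg.Agent.Helper88.O10
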