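import Mathlib
import Cfsg.Agent.Helper79.S4705Defs
import Cfsg.Agent.Helper79.Basic

/-!
SUB-CALL S4705O (helper79), piece ZBOT (helper88): `X₁` is linear, hence trivial (`H` perfect);
so the centre is trivial.
-/

set_option autoImplicit false
open Cfsg Cfsg.Agent.Helper79
open scoped ComplexConjugate

universe u

namespace Cfsg.Agent.Helper88

variable {H : Type u} [Group H] [Finite H]

/-- ZBOT: `X₁` is linear, hence trivial (`H` perfect); so the centre is trivial. -/
theorem s4705o_zbot (p : ℕ) [Fact p.Prime] (x : H) (ζ : H → ℂ) (h : S4705Wk p x ζ)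
    (hperf : commutator H = ⊤) (X₁ X₂ : Cfsg.IrrCharacter H)
    (Y : Finset (Cfsg.IrrCharacter H)) (T : S4705TabL p x ζ 0 X₁ X₂ Y) :
    Subgroup.center H = ⊥ ∧ ∀ g : H, (X₁ : H → ℂ) g = 1 := by
  have h1 : (X₁ : H → ℂ) 1 = 1 := by
    have h0 := T.deg₁
    simpa using h0
  obtain ⟨f, hf⟩ := isCharacter_linear (irr_isCharacter X₁) h1
  have hX : ∀ g : H, (X₁ : H → ℂ) g = 1 := by
    intro g
    rw [hf g, hom_apply_eq_one_of_mem_commutator f (by rw [hperf]; exact Subgroup.mem_top g)]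
    simp
  refine ⟨?_, hX⟩
  rw [eq_bot_iff]
  intro z hz
  have h2 := T.ov₁ z hz
  rw [hX z, hX 1, one_mul, mul_one] at h2
  exact Subgroup.mem_bot.mpr (h.hfaith z h2.symm)

end Cfsg.Agent.Helper88
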