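import Mathlib
import Cfsg.Prelude.Def_GeometricClasses
import Cfsg.Prelude.Def_Classical
import Cfsg.Agent.Helper65.S74Defs
import Cfsg.Agent.Helper35.TSSTDP
import Cfsg.Agent.Helper80.TSNONSCAL
import Cfsg.Agent.Helper97.OForm
import Cfsg.Agent.Helper96.OHAux
import Cfsg.Agent.Helper96.S88Bad

set_option autoImplicit false
set_option linter.unusedSectionVars false
set_option linter.unusedVariables false

/-!
# helper88: CALL S74 (helper65, row S5974), stage OEB with its inputs as hypotheses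

Port of helper96's `s88g_even_bad_core`, `s88g_even_bad_arith`, `s88_even_bad_of`
(Helper96/S88Bad.lean, Helper96/S88BadOf.lean) from ELLIPTIC to HYPERBOLIC invariant `m`-spaces.
* `s74g_even_bad_core`: what an invariant HYPERBOLIC `m`-space of an isometry with
  `finrank (ker (T - 1)) = (2 d) % i` forces (`i` even);
* `s74g_even_bad_arith`: the pure-Nat step;
* `s74_even_bad_of`: the stage OEB of `tools/calls/S74Skel.lean.txt` with the bad element and the
  non-divisibility statement (NDIVH combined with `hrΩ`) as hypotheses.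
-/

namespace Cfsg.Agent.Helper88.S74

open Module Polynomial Cfsg Cfsg.Geo
open Cfsg.Agent.Helper13.TIu Cfsg.Agent.Helper96.OH Cfsg.Agent.Helper96.OHAll
open Cfsg.Agent.Helper96.OHAux Cfsg.Agent.Helper96.S88B Cfsg.Agent.Helper65.S74
open scoped MatrixGroups

section generic

variable {ι : Type} [Fintype ι] [DecidableEq ι] {F : Type*} [Field F] (Q : (ι → F) → F)

/-- OEB core, generic (`i` even): an invariant hyperbolic `m`-space of an isometry with fixed space
of dimension `(2 d) % i`. -/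
theorem s74g_even_bad_core [Fintype F] (hQ : IsNondegenerateQuadraticForm Q) (d m : ℕ)
    (hcard : Fintype.card ι = 2 * d) (hpl : OPl Q ⊤) (hme : Even m)
    (T : Module.End F (ι → F)) (hT : OPres Q T) (r : ℕ) [Fact r.Prime] (hr2 : 2 < r)
    (hrF : (r : F) ≠ 0) (hTr : T ^ r = 1) (i : ℕ)
    (hi : i = orderOf ((Fintype.card F : ℕ) : ZMod r)) (heven : Even i)
    (hk : finrank F (LinearMap.ker (T - 1)) = (2 * d) % i)
    (W : Submodule F (ι → F)) (hW : finrank F W = m ∧ ONd Q W ∧ OPl Q W)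
    (hWT : W.map T ≤ W) :
    (0 < m % i ∧ m % i < (2 * d) % i) ∨ (m % i = 0 ∧ Even (m / i)) ∨
      (0 < m % i ∧ m % i = (2 * d) % i ∧ Even (m / i + (2 * d) / i)) := by
  have hc : i = if Even i then i else 2 * i := by rw [if_pos heven]
  have hi0 : 0 < i := by
    rw [hi]
    exact Cfsg.Agent.Helper13.TIsp.ti_ord_pos_of_ne r hrF
  obtain ⟨hWm, hWnd, hWty⟩ := hW
  obtain ⟨s, PW, hPWW, hPT, hP, hPk, hPdim, hFx, horth, hsup, hdim⟩ :=
    s88g_inv Q hQ T hT r hr2 hrF hTr i i hi hc W hWT hWnd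
  have hPWty : OPl Q PW ↔ Even s := by
    have h := oall_type_even Q hQ T hT r hr2 hrF hTr (by rw [← hi]; exact heven) PW hPT hP hPk
    rw [← hi, hPdim, Nat.mul_div_cancel_left _ hi0] at h
    exact h
  have hPeven : Even (finrank F PW) := by
    rw [hPdim]
    exact heven.mul_right s
  have hweven : Even (finrank F (W ⊓ LinearMap.ker (T - 1) : Submodule F (ι → F))) := by
    have h1 : Even (finrank F PW +
        finrank F (W ⊓ LinearMap.ker (T - 1) : Submodule F (ι → F))) := by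
      rw [hdim, hWm]
      exact hme
    exact (Nat.even_add.mp h1).mp hPeven
  have hmul := Cfsg.Agent.Helper33.o_type_mul Q hQ _ PW hFx hP horth hweven hPeven
  rw [hsup] at hmul
  have hwle : finrank F (W ⊓ LinearMap.ker (T - 1) : Submodule F (ι → F)) ≤
      finrank F (LinearMap.ker (T - 1)) := Submodule.finrank_mono inf_le_right
  have hklt : (2 * d) % i < i := Nat.mod_lt _ hi0
  have hwlt : finrank F (W ⊓ LinearMap.ker (T - 1) : Submodule F (ι → F)) < i := by omega
  have hmod : m % i = finrank F (W ⊓ LinearMap.ker (T - 1) : Submodule F (ι → F)) := by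
    rw [← hWm, ← hdim, hPdim, Nat.mul_add_mod]
    exact Nat.mod_eq_of_lt hwlt
  have hdiv : m / i = s := by
    rw [← hWm, ← hdim, hPdim, Nat.mul_add_div hi0, Nat.div_eq_of_lt hwlt, add_zero]
  rw [hmod, hdiv]
  have hiff := hmul.mp hWty
  rcases Nat.eq_zero_or_pos (finrank F (W ⊓ LinearMap.ker (T - 1) : Submodule F (ι → F)))
    with h0 | hpos
  · right; left
    refine ⟨h0, ?_⟩
    rw [Submodule.finrank_eq_zero.mp h0] at hiff
    exact hPWty.mp (hiff.mp (Cfsg.Agent.Helper33.o_plus_bot Q hQ))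
  · rcases lt_or_eq_of_le (show finrank F (W ⊓ LinearMap.ker (T - 1) : Submodule F (ι → F)) ≤
        (2 * d) % i by rw [← hk]; exact hwle) with hlt | heq
    · exact Or.inl ⟨hpos, hlt⟩
    · right; right
      refine ⟨hpos, heq, ?_⟩
      have h1 : W ⊓ LinearMap.ker (T - 1) = LinearMap.ker (T - 1) :=
        Submodule.eq_of_le_of_finrank_eq inf_le_right (by rw [heq, hk])
      obtain ⟨-, hkty⟩ := s88g_ker_type_even Q hQ d hcard hpl T hT r hr2 hrF hTr i hi heven
      have h3 : (2 * d - finrank F (LinearMap.ker (T - 1))) / i = (2 * d) / i := by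
        rw [hk]
        have h4 := Nat.div_add_mod (2 * d) i
        have h5 : 2 * d - (2 * d) % i = i * ((2 * d) / i) := by omega
        rw [h5, Nat.mul_div_cancel_left _ hi0]
      rw [h3] at hkty
      rw [h1] at hiff
      rw [Nat.even_add]
      exact (hPWty.symm.trans (hiff.symm.trans hkty))

end generic

/-- the pure-Nat step of OEB (hyperbolic). -/
theorem s74g_even_bad_arith (d m i : ℕ) (hi0 : 0 < i) (hm : 0 < m)
    (hcore : (0 < (2 * d) % i ∨ Even ((2 * d) / i)) →
      ((0 < m % i ∧ m % i < (2 * d) % i) ∨ (m % i = 0 ∧ Even (m / i)) ∨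
        (0 < m % i ∧ m % i = (2 * d) % i ∧ Even (m / i + (2 * d) / i))))
    (hndiv : m < i → (m < (2 * d) % i ∨ (m = (2 * d) % i ∧ Even ((2 * d) / i))) → False) :
    ((2 * d) % i = 0 ∧ (Odd ((2 * d) / i) ∨ (m % i = 0 ∧ Even (m / i)))) ∨
      (i ≤ m ∧ ((m % i < (2 * d) % i ∧ 0 < m % i) ∨
        ((2 * d) % i = m % i ∧ 0 < m % i ∧ Even ((2 * d + m - 2 * ((2 * d) % i)) / i)) ∨
        (0 < (2 * d) % i ∧ m % i = 0 ∧ Even (m / i)))) := by
  by_cases hadm : 0 < (2 * d) % i ∨ Even ((2 * d) / i)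
  · rcases hcore hadm with ⟨h1, h2⟩ | ⟨h1, h2⟩ | ⟨h1, h2, h3⟩
    · by_cases him : i ≤ m
      · exact Or.inr ⟨him, Or.inl ⟨h2, h1⟩⟩
      · exfalso
        have hlt : m < i := by omega
        rw [Nat.mod_eq_of_lt hlt] at h2
        exact hndiv hlt (Or.inl h2)
    · have him : i ≤ m := by
        by_contra hcon
        have hlt : m < i := by omega
        rw [Nat.mod_eq_of_lt hlt] at h1
        omega
      by_cases hk0 : (2 * d) % i = 0
      · exact Or.inl ⟨hk0, Or.inr ⟨h1, h2⟩⟩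
      · exact Or.inr ⟨him, Or.inr (Or.inr ⟨by omega, h1, h2⟩)⟩
    · by_cases him : i ≤ m
      · refine Or.inr ⟨him, Or.inr (Or.inl ⟨h2.symm, h1, ?_⟩)⟩
        have hsum : (2 * d + m - 2 * ((2 * d) % i)) / i = (2 * d) / i + m / i := by
          have h4 := Nat.div_add_mod (2 * d) i
          have h5 := Nat.div_add_mod m i
          have h6 : 2 * d + m - 2 * ((2 * d) % i) = i * ((2 * d) / i + m / i) := by
            rw [Nat.mul_add]; omega
          rw [h6, Nat.mul_div_cancel_left _ hi0]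
        rw [hsum, add_comm]
        exact h3
      · exfalso
        have hlt : m < i := by omega
        rw [Nat.mod_eq_of_lt hlt] at h2
        rw [Nat.div_eq_of_lt hlt, zero_add] at h3
        exact hndiv hlt (Or.inr ⟨h2, h3⟩)
  · push Not at hadm
    exact Or.inl ⟨by omega, Or.inl (Nat.not_even_iff_odd.mp hadm.2)⟩

section stage

variable {F : Type*} [Field F] [Fintype F]

/-- OEB (hyperbolic) from the bad element and NDIVH. -/
theorem s74_even_bad_of {p : ℕ} [Fact p.Prime] [CharP F p] {q : ℕ} (hq : Fintype.card F = q)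
    (d m : ℕ) (hm : 2 ≤ m) (hme : Even m) (r : ℕ) [Fact r.Prime]
    (hr2 : 2 < r) (hrp : r ≠ p) (i : ℕ) (hi : i = orderOf (q : ZMod r)) (heven : Even i)
    (hbad : (0 < (2 * d) % i ∨ Even ((2 * d) / i)) →
      ∃ x : GL (Fin d ⊕ Fin d) F, x ∈ Cfsg.Geo.omegaGL (Cfsg.quadFormPlus d F) ∧
      x ^ r = 1 ∧ x ≠ 1 ∧
      finrank F (LinearMap.ker (Matrix.toLin'
        (x : Matrix (Fin d ⊕ Fin d) (Fin d ⊕ Fin d) F) - 1)) = (2 * d) % i)
    (hndiv : m < i → (m < (2 * d) % i ∨ (m = (2 * d) % i ∧ Even ((2 * d) / i))) → False)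
    (hall : AllHyp (Cfsg.quadFormPlus d F) r m) :
    ((2 * d) % i = 0 ∧ (Odd ((2 * d) / i) ∨ (m % i = 0 ∧ Even (m / i)))) ∨
      (i ≤ m ∧ ((m % i < (2 * d) % i ∧ 0 < m % i) ∨
        ((2 * d) % i = m % i ∧ 0 < m % i ∧ Even ((2 * d + m - 2 * ((2 * d) % i)) / i)) ∨
        (0 < (2 * d) % i ∧ m % i = 0 ∧ Even (m / i)))) := by
  classical
  subst hq
  have hrpr : r.Prime := Fact.out
  have hrodd : Odd r := hrpr.odd_of_ne_two (by omega)
  have hrF : (r : F) ≠ 0 := oh_rF p r hrp
  have hQ := (Cfsg.Agent.Helper35.TS5973.ts_std_plus (F := F) d).1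
  have hpl := (Cfsg.Agent.Helper35.TS5973.ts_std_plus (F := F) d).2
  have hcard : Fintype.card (Fin d ⊕ Fin d) = 2 * d := by simp; omega
  have hi0 : 0 < i := by
    rw [hi]
    exact Cfsg.Agent.Helper13.TIsp.ti_ord_pos_of_ne r hrF
  apply s74g_even_bad_arith d m i hi0 (by omega) ?_ hndiv
  intro hadm
  obtain ⟨x, hx, hxr, hx1, hxk⟩ := hbad hadm
  have hxiso := Cfsg.Agent.Helper97.Gen.omegaGL_le _ hx
  have hns := Cfsg.Agent.Helper80.TS5973.ts_nonscalar (Cfsg.quadFormPlus d F) hQ r hrodd x hxiso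
    hxr hx1
  obtain ⟨W, hW, hWT⟩ := (invHyp_iff _ _ _).mp (hall x hx ⟨1, by rw [hxr, one_smul]; rfl⟩ hns)
  have hT := oh_opres_toLin' (Cfsg.quadFormPlus d F) x hxiso
  have hTr : Matrix.toLin' (x : Matrix (Fin d ⊕ Fin d) (Fin d ⊕ Fin d) F) ^ r = 1 := by
    have h2 : (x : Matrix (Fin d ⊕ Fin d) (Fin d ⊕ Fin d) F) ^ r = 1 := by
      rw [← Units.val_pow_eq_pow_val, hxr]; rfl
    rw [oh_toLin'_pow_eq, h2, Matrix.toLin'_one]; rfl
  exact s74g_even_bad_core (Cfsg.quadFormPlus d F) hQ d m hcard hpl hme _ hT r hr2 hrF hTr i hi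
    heven hxk W hW hWT

end stage

end Cfsg.Agent.Helper88.S74
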