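import Mathlib
import Cfsg.Agent.Helper67.S77Defs

/-! helper88: piece F13 of CALL S0429 (helper67). -/

set_option autoImplicit false
set_option linter.unusedSectionVars false

namespace Cfsg.Agent.Helper88.S77F13

open Finset Cfsg.Agent.Helper67.S77

/-- a sum of `card` terms, each at least one, with value `card`, has all terms equal to one -/
theorem all_one88 {ι : Type*} (s : Finset ι) (f : ι → ℕ) (h1 : ∀ i ∈ s, 1 ≤ f i)
    (hs : ∑ i ∈ s, f i = s.card) : ∀ i ∈ s, f i = 1 := by
  by_contra hne
  push Not at hne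
  obtain ⟨i, hi, hfi⟩ := hne
  have h2 : s.card < ∑ i ∈ s, f i := by
    calc s.card = ∑ i ∈ s, 1 := by simp
      _ < ∑ i ∈ s, f i := Finset.sum_lt_sum h1 ⟨i, hi, lt_of_le_of_ne (h1 i hi) (Ne.symm hfi)⟩
  omega

variable {V : Type*} [Fintype V] [DecidableEq V] {G : SimpleGraph V} [DecidableRel G.Adj]

theorem p_F13 (hG : G.IsSRGWith 77 16 0 4) (h11 : F11 G) (h12 : F12 G) : F13 G := by
  intro K hK x hxK hxadj
  have hpos : ∀ p ∈ K.offDiag, 1 ≤ t3 G x p.1 p.2 := by
    intro p hp
    rw [Finset.mem_offDiag] at hp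
    obtain ⟨hv, hw, hvw⟩ := hp
    by_contra h0
    have h0' : t3 G x p.1 p.2 = 0 := by omega
    have hxv : x ≠ p.1 := fun h => hxK (h ▸ hv)
    have hxw : x ≠ p.2 := fun h => hxK (h ▸ hw)
    have hmem : x ∈ Par G p.1 p.2 := by
      rw [mem_Par, mem_Rs]
      refine ⟨⟨hxv, hxw, fun h => hxadj _ hv h.symm, fun h => hxadj _ hw h.symm⟩, ?_⟩
      rw [← t3_rot]
      exact h0'
    have hKl := h11 K hK p.1 hv p.2 hw hvw
    apply hxK
    rw [hKl, mem_lineOf]
    exact Or.inr (Or.inr hmem)
  have hsum : ∑ p ∈ K.offDiag, t3 G x p.1 p.2 = 20 := by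
    have ht : ∀ v w, t3 G x v w =
        ((G.neighborFinset x).filter (fun a => G.Adj a v ∧ G.Adj a w)).card := by
      intro v w
      unfold t3
      congr 1
      ext a
      simp only [Finset.mem_inter, SimpleGraph.mem_neighborFinset, Finset.mem_filter]
      constructor
      · rintro ⟨⟨h1, h2⟩, h3⟩
        exact ⟨h1, h2.symm, h3.symm⟩
      · rintro ⟨h1, h2, h3⟩
        exact ⟨⟨h1, h2.symm⟩, h3.symm⟩
    simp_rw [ht, Finset.card_filter]
    rw [Finset.sum_comm]
    have hinner : ∀ a ∈ G.neighborFinset x,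
        ∑ p ∈ K.offDiag, (if G.Adj a p.1 ∧ G.Adj a p.2 then 1 else 0) =
          (K.filter (fun v => G.Adj a v)).card := by
      intro a _
      rw [← Finset.card_filter]
      have hfo : K.offDiag.filter (fun p => G.Adj a p.1 ∧ G.Adj a p.2) =
          (K.filter (fun v => G.Adj a v)).offDiag := by
        ext p
        simp only [Finset.mem_filter, Finset.mem_offDiag]
        tauto
      rw [hfo, Finset.offDiag_card]
      have hk : (K.filter (fun v => G.Adj a v)).card = 0 ∨
          (K.filter (fun v => G.Adj a v)).card = 2 := by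
        by_cases hex : ∃ v ∈ K, G.Adj a v
        · obtain ⟨v, hv, hav⟩ := hex
          exact Or.inr (h12 K hK v hv a hav)
        · left
          rw [Finset.card_eq_zero, Finset.filter_eq_empty_iff]
          intro v hv hav
          exact hex ⟨v, hv, hav⟩
      rcases hk with hk | hk <;> rw [hk]
    rw [Finset.sum_congr rfl hinner]
    simp_rw [Finset.card_filter]
    rw [Finset.sum_comm]
    have hv4 : ∀ v ∈ K, ∑ a ∈ G.neighborFinset x, (if G.Adj a v then 1 else 0) = 4 := by
      intro v hv
      rw [← Finset.card_filter]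
      have hNA : NA G x v := ⟨fun h => hxK (h ▸ hv), hxadj v hv⟩
      rw [← card_common hG hNA]
      congr 1
      ext a
      simp only [Finset.mem_filter, Finset.mem_inter, SimpleGraph.mem_neighborFinset]
      constructor
      · rintro ⟨h1, h2⟩
        exact ⟨h1, h2.symm⟩
      · rintro ⟨h1, h2⟩
        exact ⟨h1, h2.symm⟩
    rw [Finset.sum_congr rfl hv4, Finset.sum_const, hK.1]
    rfl
  have hcard : K.offDiag.card = 20 := by rw [Finset.offDiag_card, hK.1]
  intro v hv w hw hvw
  exact all_one88 K.offDiag (fun p => t3 G x p.1 p.2) hpos (by rw [hsum, hcard]) (v, w)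
    (by rw [Finset.mem_offDiag]; exact ⟨hv, hw, hvw⟩)

end Cfsg.Agent.Helper88.S77F13
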