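import Mathlib
import Cfsg.Prelude.Def_GeometricClasses
import Cfsg.Prelude.Def_Classical
import Cfsg.Agent.Helper35.S88Defs
import Cfsg.Agent.Helper58.TSDefs
import Cfsg.Agent.Helper43.PrimeOrdO3
import Cfsg.Agent.Helper33.OType
import Cfsg.Agent.Helper43.S88OEDefs
import Cfsg.Agent.Helper5.TBBLKE
import Cfsg.Agent.Helper93.TBPROD
import Cfsg.Agent.Helper93.TBTYPEPROD

set_option autoImplicit false

/-!
# helper88: sub-CALL S88OE (helper43, row S5988), piece BM modulo MODEL0 and BSPLIT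
(`oe_bad_model_of`): the bad model for the profile `(A, k₀)`.
-/

namespace Cfsg.Agent.Helper88.S88OE

open Module Polynomial Cfsg Cfsg.Geo Cfsg.Agent.Helper58.TS Cfsg.Agent.Helper35.S88
open Cfsg.Agent.Helper43 Cfsg.Agent.Helper43.OrthEven Cfsg.Agent.Helper43.CycFactors
  Cfsg.Agent.Helper43.PrimeOrdMat Cfsg.Agent.Helper43.S88OE
open scoped MatrixGroups

universe u

section fin

variable {F : Type u} [Field F] [Fintype F]

/-- BM from the conclusions of MODEL0 (for `k₀`, `Even A`) and BSPLIT. -/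
theorem oe_bad_model_of (p : ℕ) [Fact p.Prime] [CharP F p] (r : ℕ) [Fact r.Prime] (hr2 : 2 < r)
    (hrp : r ≠ p) (heven : Even (orderOf ((Fintype.card F : ℕ) : ZMod r))) (A k₀ : ℕ)
    (hA : 1 ≤ A) (hk₀ : k₀ = 0 → Even A)
    (hmodel0 : ∃ (V₀ : Type u) (_ : AddCommGroup V₀) (_ : Module F V₀)
      (_ : FiniteDimensional F V₀) (Q₀ : QuadraticForm F V₀),
      PolarNondeg Q₀ ∧ finrank F V₀ = 2 * k₀ ∧ (HasTS Q₀ k₀ ↔ Even A))
    (hsplit : ∀ {V₀ V₁ : Type u} [AddCommGroup V₀] [Module F V₀] [FiniteDimensional F V₀]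
      [AddCommGroup V₁] [Module F V₁] [FiniteDimensional F V₁] (Q₀ : QuadraticForm F V₀)
      (Q₁ : QuadraticForm F V₁) (T₁ : Module.End F V₁) (hblk : Blk r Q₁ T₁) (l : ℕ)
      (W : Submodule F (V₀ × V₁)) (hW : W.map ((1 : Module.End F V₀).prodMap T₁) ≤ W)
      (hWdim : finrank F W = 2 * l) (hWnd : PolarNondeg ((Q₀.prod Q₁).comp W.subtype)),
      ∃ (Ua : Submodule F V₀) (s w₂ : ℕ), PolarNondeg (Q₀.comp Ua.subtype) ∧
        finrank F Ua = 2 * w₂ ∧ l = orderOf ((Fintype.card F : ℕ) : ZMod r) / 2 * s + w₂ ∧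
        2 * (orderOf ((Fintype.card F : ℕ) : ZMod r) / 2 * s) ≤ finrank F V₁ ∧
        (HasTS ((Q₀.prod Q₁).comp W.subtype) l ↔ (HasTS (Q₀.comp Ua.subtype) w₂ ↔ Even s))) :
    ∃ (V' : Type u) (_ : AddCommGroup V') (_ : Module F V') (_ : FiniteDimensional F V')
      (Q' : QuadraticForm F V') (T' : Module.End F V'),
      PolarNondeg Q' ∧
      finrank F V' = 2 * (k₀ + orderOf ((Fintype.card F : ℕ) : ZMod r) / 2 * A) ∧
      HasTS Q' (k₀ + orderOf ((Fintype.card F : ℕ) : ZMod r) / 2 * A) ∧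
      (∀ v, Q' (T' v) = Q' v) ∧ T' ^ r = 1 ∧ T' ≠ 1 ∧
      ∀ (l : ℕ) (W : Submodule F V'), InvEllSub Q' T' l W →
        ∃ s w₂, Val A k₀ s w₂ ∧
          l = orderOf ((Fintype.card F : ℕ) : ZMod r) / 2 * s + w₂ := by
  classical
  have hr : r.Prime := Fact.out
  have hrF : (r : F) ≠ 0 := natCast_ne_zero_of_ne (p := p) hr hrp
  have hipos : 0 < orderOf ((Fintype.card F : ℕ) : ZMod r) :=
    orderOf_pos_of_card (p := p) (rfl : Fintype.card F = Fintype.card F) hr hrp
  have hjpos : 0 < orderOf ((Fintype.card F : ℕ) : ZMod r) / 2 := by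
    obtain ⟨t, ht⟩ := heven
    omega
  have hcard := cycJ_card_mul (p := p) (rfl : Fintype.card F = Fintype.card F) hr hrp
  have hne : (cycJ F r).Nonempty := by
    rw [Finset.nonempty_iff_ne_empty]
    intro h
    rw [h, Finset.card_empty, zero_mul] at hcard
    omega
  obtain ⟨P, hP⟩ := hne
  obtain ⟨V₁, _, _, _, Q₁, T₁, hnd₁, hT₁, hcyc, -, hV₁, htype₁, -⟩ :=
    Cfsg.Agent.Helper5.TB.tb_blk_even p r hr2 hrp heven P hP A
  obtain ⟨V₀, _, _, _, Q₀, hnd₀, hV₀, htype₀⟩ := hmodel0
  have hT₁r : T₁ ^ r = 1 := by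
    have h1 : aeval T₁ (X ^ r - 1 : F[X]) = 0 := by
      rw [← cyclotomic_prime_mul_X_sub_one F r, map_mul, hcyc, zero_mul]
    simpa [sub_eq_zero] using h1
  refine ⟨V₀ × V₁, inferInstance, inferInstance, inferInstance, Q₀.prod Q₁,
    (1 : Module.End F V₀).prodMap T₁, Cfsg.Agent.Helper93.TB.tb_prod_nd Q₀ Q₁ hnd₀ hnd₁,
    ?_, ?_, ?_, ?_, ?_, ?_⟩
  · rw [Module.finrank_prod, hV₀, hV₁]
    ring
  · rw [Cfsg.Agent.Helper93.TB.tb_type_prod Q₀ Q₁ hnd₀ hnd₁ k₀ _ hV₀ hV₁, htype₀, htype₁]
  · rintro ⟨x, y⟩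
    rw [LinearMap.prodMap_apply, QuadraticMap.prod_apply, QuadraticMap.prod_apply, hT₁]
    rfl
  · have key : ∀ n : ℕ, ((1 : Module.End F V₀).prodMap T₁) ^ n
        = (1 : Module.End F V₀).prodMap (T₁ ^ n) := by
      intro n
      induction n with
      | zero =>
        rw [pow_zero, pow_zero]
        exact LinearMap.prodMap_one.symm
      | succ n ih =>
        rw [pow_succ, ih, pow_succ, LinearMap.prodMap_mul, mul_one]
    rw [key r, hT₁r]
    exact LinearMap.prodMap_one
  · intro h1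
    have hT1 : T₁ = 1 := by
      ext y
      have h2 := congrArg (fun f : Module.End F (V₀ × V₁) => (f (0, y)).2) h1
      exact h2
    rw [hT1] at hcyc
    have h2 : aeval (1 : Module.End F V₁) (cyclotomic r F) = (r : F) • (1 : Module.End F V₁) := by
      have h3 := Polynomial.aeval_algebraMap_apply (A := F) (Module.End F V₁) (1 : F)
        (cyclotomic r F)
      rw [map_one] at h3
      rw [h3, Polynomial.coe_aeval_eq_eval, eval_one_cyclotomic_prime,
        Algebra.algebraMap_eq_smul_one]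
    rw [h2] at hcyc
    have hpos : 0 < finrank F V₁ := by
      rw [hV₁]
      have := Nat.mul_pos hjpos hA
      omega
    obtain ⟨y, hy⟩ := (Module.finrank_pos_iff_exists_ne_zero).mp hpos
    have h4 := congrArg (fun f : Module.End F V₁ => f y) hcyc
    simp only [LinearMap.smul_apply, Module.End.one_apply, LinearMap.zero_apply] at h4
    rcases smul_eq_zero.mp h4 with h5 | h5
    · exact hrF h5
    · exact hy h5
  · rintro l W ⟨hWinv, hWdim, hWnd, hWminus⟩
    obtain ⟨Ua, s, w₂, hUand, hUadim, hl, hs, htype⟩ :=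
      hsplit Q₀ Q₁ T₁ ⟨hnd₁, hT₁, hcyc⟩ l W hWinv hWdim hWnd
    have hsA : s ≤ A := by
      rw [hV₁] at hs
      have h1 : orderOf ((Fintype.card F : ℕ) : ZMod r) / 2 * s ≤
          orderOf ((Fintype.card F : ℕ) : ZMod r) / 2 * A := by omega
      exact Nat.le_of_mul_le_mul_left h1 hjpos
    have hwk : w₂ ≤ k₀ := by
      have h1 : finrank F Ua ≤ finrank F V₀ := Submodule.finrank_le Ua
      rw [hUadim, hV₀] at h1
      omega
    refine ⟨s, w₂, ⟨hsA, hwk, ?_⟩, hl⟩
    by_cases hw0 : w₂ = 0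
    · right
      left
      refine ⟨hw0, ?_⟩
      have hts : HasTS (Q₀.comp Ua.subtype) w₂ := by
        rw [hw0]
        exact ⟨⊥, Nat.zero_le _, fun u hu => by rw [(Submodule.mem_bot F).1 hu, map_zero]⟩
      have h1 : ¬ Even s := fun he => hWminus (htype.mpr ⟨fun _ => he, fun _ => hts⟩)
      exact Nat.not_even_iff_odd.mp h1
    · by_cases hwk' : w₂ = k₀
      · right
        right
        refine ⟨hwk', ?_⟩
        have hUatop : Ua = ⊤ := by
          apply Submodule.eq_top_of_finrank_eq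
          rw [hUadim, hV₀, hwk']
        have hts : HasTS (Q₀.comp Ua.subtype) w₂ ↔ Even A := by
          rw [← htype₀, hwk']
          constructor
          · rintro ⟨U, hU, h0⟩
            refine ⟨U.map Ua.subtype, ?_, ?_⟩
            · rw [Submodule.finrank_map_subtype_eq]
              exact hU
            · rintro _ ⟨u, hu, rfl⟩
              exact h0 u hu
          · rintro ⟨U, hU, h0⟩
            refine ⟨U.comap Ua.subtype, ?_, ?_⟩
            · have h1 : (U.comap Ua.subtype).map Ua.subtype = U := by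
                rw [Submodule.map_comap_subtype, hUatop]
                exact top_inf_eq U
              rw [← Submodule.finrank_map_subtype_eq Ua (U.comap Ua.subtype), h1]
              exact hU
            · intro u hu
              exact h0 _ hu
        have h1 : ¬ (Even A ↔ Even s) := fun he => hWminus (htype.mpr (hts.trans he))
        rw [Nat.odd_add]
        constructor
        · intro hso
          by_contra hA'
          exact h1 ⟨fun h => absurd h hA', fun h => absurd hso (Nat.not_odd_iff_even.mpr h)⟩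
        · intro hAe
          by_contra hso
          exact h1 ⟨fun _ => Nat.not_odd_iff_even.mp hso, fun _ => hAe⟩
      · left
        omega

end fin

end Cfsg.Agent.Helper88.S88OE
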