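import Mathlib
import Cfsg.Prelude.Def_GeometricClasses
import Cfsg.Prelude.Def_Classical
import Cfsg.Agent.Helper35.S88Defs
import Cfsg.Agent.Helper35.TSSTDM
import Cfsg.Agent.Helper80.TSNONSCAL
import Cfsg.Agent.Helper97.OForm
import Cfsg.Agent.Helper96.OHAux
import Cfsg.Agent.Helper96.S88Bad
import Cfsg.Agent.Helper96.S88BadEl

set_option autoImplicit false
set_option linter.unusedSectionVars false
set_option linter.unusedVariables false

/-!
# helper88: CALL S90 (helper98, row S5990), stage OEB with its inputs as hypotheses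

Port of helper96's S88 OEB chain (Helper96/S88Bad.lean, S88BadOf.lean, S88BadEl.lean) from the
ambient PLUS type to the ambient MINUS type (`Cfsg.quadFormMinus (d - 1) F a b`), elliptic
`m`-spaces.
* `s90g_ker_type_even`: type of the fixed space of an isometry of order `r` (`i` even) of a
  minus-type space: plus type iff `(2 d - dim) / i` is odd;
* `s90g_even_bad_core`: what an invariant ELLIPTIC `m`-space of an isometry with
  `finrank (ker (T - 1)) = (2 d) % i` forces;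
* `s90g_even_bad_arith`: the pure-Nat step;
* `s90_bad_even`: the bad element of `Ω⁻` (fixed space of dimension `(2 d) % i`) when
  `0 < (2 d) % i` or `(2 d) / i` is odd;
* `s90_even_bad_of`: the stage OEB of `tools/calls/S90Skel.lean.txt` with `i ≤ 2 d` (CAUM + ORD)
  and the non-divisibility statement (NDIVM combined with `hrΩ`) as hypotheses.
-/

namespace Cfsg.Agent.Helper88.S90

open Module Polynomial Cfsg Cfsg.Geo Cfsg.Agent.Helper58.TS
open Cfsg.Agent.Helper13.TIu Cfsg.Agent.Helper96.OH Cfsg.Agent.Helper96.OHAll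
open Cfsg.Agent.Helper96.OHAux Cfsg.Agent.Helper96.S88B Cfsg.Agent.Helper35.S88
open Cfsg.Agent.Helper43 Cfsg.Agent.Helper43.OrthEven Cfsg.Agent.Helper43.CycFactors
  Cfsg.Agent.Helper43.PrimeOrdMat
open scoped MatrixGroups

universe u

section generic

variable {ι : Type} [Fintype ι] [DecidableEq ι] {F : Type*} [Field F] (Q : (ι → F) → F)

/-- type of the fixed space, `i` even, ambient minus type. -/
theorem s90g_ker_type_even [Fintype F] (hQ : IsNondegenerateQuadraticForm Q) (d : ℕ)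
    (hcard : Fintype.card ι = 2 * d) (hmi : ¬ OPl Q ⊤)
    (T : Module.End F (ι → F)) (hT : OPres Q T) (r : ℕ) [Fact r.Prime] (hr2 : 2 < r)
    (hrF : (r : F) ≠ 0) (hTr : T ^ r = 1) (i : ℕ)
    (hi : i = orderOf ((Fintype.card F : ℕ) : ZMod r)) (heven : Even i) :
    Even (finrank F (LinearMap.ker (T - 1))) ∧
    (OPl Q (LinearMap.ker (T - 1)) ↔
      Odd ((2 * d - finrank F (LinearMap.ker (T - 1))) / i)) := by
  have hc : i = if Even i then i else 2 * i := by rw [if_pos heven]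
  have hi0 : 0 < i := by
    rw [hi]
    exact Cfsg.Agent.Helper13.TIsp.ti_ord_pos_of_ne r hrF
  obtain ⟨ρ, P, hρ, hn, hFx, hP, horth, hsup, hPT, hPk⟩ :=
    s88g_ker_split Q hQ T hT r hr2 hrF hTr i i hi hc
  have hPty : OPl Q P ↔ Even ρ := by
    have h := oall_type_even Q hQ T hT r hr2 hrF hTr (by rw [← hi]; exact heven) P hPT hP hPk
    rw [← hi, hρ, Nat.mul_div_cancel_left _ hi0] at h
    exact h
  have hPeven : Even (finrank F P) := by
    rw [hρ]
    exact heven.mul_right ρ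
  have hFxeven : Even (finrank F (LinearMap.ker (T - 1))) := by
    have h1 : Even (finrank F P + finrank F (LinearMap.ker (T - 1))) := by
      rw [hn, hcard]
      exact even_two_mul d
    exact (Nat.even_add.mp h1).mp hPeven
  have h1 := Cfsg.Agent.Helper33.o_type_mul Q hQ _ P hFx hP horth hFxeven hPeven
  rw [hsup] at h1
  have h3 : 2 * d - finrank F (LinearMap.ker (T - 1)) = i * ρ := by omega
  rw [h3, Nat.mul_div_cancel_left _ hi0]
  refine ⟨hFxeven, ?_⟩
  have hne : ¬ (OPl Q (LinearMap.ker (T - 1)) ↔ Even ρ) := fun h =>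
    hmi (h1.mpr (h.trans hPty.symm))
  constructor
  · intro hk
    rw [← Nat.not_even_iff_odd]
    intro he
    exact hne ⟨fun _ => he, fun _ => hk⟩
  · intro ho
    by_contra hk
    exact hne ⟨fun h => absurd h hk, fun h => absurd ho (Nat.not_odd_iff_even.mpr h)⟩

/-- OEB core, generic (`i` even), ambient minus type: an invariant elliptic `m`-space of an
isometry with fixed space of dimension `(2 d) % i`. -/
theorem s90g_even_bad_core [Fintype F] (hQ : IsNondegenerateQuadraticForm Q) (d m : ℕ)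
    (hcard : Fintype.card ι = 2 * d) (hmi : ¬ OPl Q ⊤) (hme : Even m)
    (T : Module.End F (ι → F)) (hT : OPres Q T) (r : ℕ) [Fact r.Prime] (hr2 : 2 < r)
    (hrF : (r : F) ≠ 0) (hTr : T ^ r = 1) (i : ℕ)
    (hi : i = orderOf ((Fintype.card F : ℕ) : ZMod r)) (heven : Even i)
    (hk : finrank F (LinearMap.ker (T - 1)) = (2 * d) % i)
    (W : Submodule F (ι → F)) (hW : finrank F W = m ∧ ONd Q W ∧ ¬ OPl Q W)
    (hWT : W.map T ≤ W) :
    (0 < m % i ∧ m % i < (2 * d) % i) ∨ (m % i = 0 ∧ Odd (m / i)) ∨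
      (0 < m % i ∧ m % i = (2 * d) % i ∧ Even (m / i + (2 * d) / i)) := by
  have hc : i = if Even i then i else 2 * i := by rw [if_pos heven]
  have hi0 : 0 < i := by
    rw [hi]
    exact Cfsg.Agent.Helper13.TIsp.ti_ord_pos_of_ne r hrF
  obtain ⟨hWm, hWnd, hWty⟩ := hW
  obtain ⟨s, PW, hPWW, hPT, hP, hPk, hPdim, hFx, horth, hsup, hdim⟩ :=
    s88g_inv Q hQ T hT r hr2 hrF hTr i i hi hc W hWT hWnd
  have hPWty : OPl Q PW ↔ Even s := by
    have h := oall_type_even Q hQ T hT r hr2 hrF hTr (by rw [← hi]; exact heven) PW hPT hP hPk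
    rw [← hi, hPdim, Nat.mul_div_cancel_left _ hi0] at h
    exact h
  have hPeven : Even (finrank F PW) := by
    rw [hPdim]
    exact heven.mul_right s
  have hweven : Even (finrank F (W ⊓ LinearMap.ker (T - 1) : Submodule F (ι → F))) := by
    have h1 : Even (finrank F PW +
        finrank F (W ⊓ LinearMap.ker (T - 1) : Submodule F (ι → F))) := by
      rw [hdim, hWm]
      exact hme
    exact (Nat.even_add.mp h1).mp hPeven
  have hmul := Cfsg.Agent.Helper33.o_type_mul Q hQ _ PW hFx hP horth hweven hPeven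
  rw [hsup] at hmul
  have hwle : finrank F (W ⊓ LinearMap.ker (T - 1) : Submodule F (ι → F)) ≤
      finrank F (LinearMap.ker (T - 1)) := Submodule.finrank_mono inf_le_right
  have hklt : (2 * d) % i < i := Nat.mod_lt _ hi0
  have hwlt : finrank F (W ⊓ LinearMap.ker (T - 1) : Submodule F (ι → F)) < i := by omega
  have hmod : m % i = finrank F (W ⊓ LinearMap.ker (T - 1) : Submodule F (ι → F)) := by
    rw [← hWm, ← hdim, hPdim, Nat.mul_add_mod]
    exact Nat.mod_eq_of_lt hwlt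
  have hdiv : m / i = s := by
    rw [← hWm, ← hdim, hPdim, Nat.mul_add_div hi0, Nat.div_eq_of_lt hwlt, add_zero]
  rw [hmod, hdiv]
  rcases Nat.eq_zero_or_pos (finrank F (W ⊓ LinearMap.ker (T - 1) : Submodule F (ι → F)))
    with h0 | hpos
  · right; left
    refine ⟨h0, ?_⟩
    rw [← Nat.not_even_iff_odd]
    intro hs
    apply hWty
    refine hmul.mpr ⟨fun _ => hPWty.mpr hs, fun _ => ?_⟩
    rw [Submodule.finrank_eq_zero.mp h0]
    exact Cfsg.Agent.Helper33.o_plus_bot Q hQ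
  · rcases lt_or_eq_of_le (show finrank F (W ⊓ LinearMap.ker (T - 1) : Submodule F (ι → F)) ≤
        (2 * d) % i by rw [← hk]; exact hwle) with hlt | heq
    · exact Or.inl ⟨hpos, hlt⟩
    · right; right
      refine ⟨hpos, heq, ?_⟩
      have h1 : W ⊓ LinearMap.ker (T - 1) = LinearMap.ker (T - 1) :=
        Submodule.eq_of_le_of_finrank_eq inf_le_right (by rw [heq, hk])
      obtain ⟨-, hkty⟩ := s90g_ker_type_even Q hQ d hcard hmi T hT r hr2 hrF hTr i hi heven
      have h3 : (2 * d - finrank F (LinearMap.ker (T - 1))) / i = (2 * d) / i := by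
        rw [hk]
        have h4 := Nat.div_add_mod (2 * d) i
        have h5 : 2 * d - (2 * d) % i = i * ((2 * d) / i) := by omega
        rw [h5, Nat.mul_div_cancel_left _ hi0]
      rw [h3] at hkty
      rw [h1] at hmul
      -- `¬ (Odd n' ↔ Even s)`
      have hne : ¬ (Odd ((2 * d) / i) ↔ Even s) := fun h =>
        hWty (hmul.mpr (hkty.trans (h.trans hPWty.symm)))
      rw [Nat.even_add]
      constructor
      · intro hs
        by_contra hn
        exact hne ⟨fun _ => hs, fun _ => Nat.not_even_iff_odd.mp hn⟩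
      · intro hn
        by_contra hs
        exact hne ⟨fun h => absurd hn (Nat.not_even_iff_odd.mpr h), fun h => absurd h hs⟩

end generic

/-- the pure-Nat step of OEB, ambient minus type. -/
theorem s90g_even_bad_arith (d m i : ℕ) (hi0 : 0 < i)
    (hcore : (0 < (2 * d) % i ∨ Odd ((2 * d) / i)) →
      ((0 < m % i ∧ m % i < (2 * d) % i) ∨ (m % i = 0 ∧ Odd (m / i)) ∨
        (0 < m % i ∧ m % i = (2 * d) % i ∧ Even (m / i + (2 * d) / i))))
    (hndiv : m < i → (m < (2 * d) % i ∨ (m = (2 * d) % i ∧ Even ((2 * d) / i))) → False) :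
    ((2 * d) % i = 0 ∧ (Even ((2 * d) / i) ∨ (m % i = 0 ∧ Odd (m / i)))) ∨
      (0 < (2 * d) % i ∧ i ≤ m ∧ ((0 < m % i ∧ m % i < (2 * d) % i) ∨ (m % i = 0 ∧ Odd (m / i)) ∨
        (m % i = (2 * d) % i ∧ Even ((2 * d + m - 2 * ((2 * d) % i)) / i)))) := by
  by_cases hadm : 0 < (2 * d) % i ∨ Odd ((2 * d) / i)
  · rcases hcore hadm with ⟨h1, h2⟩ | ⟨h1, h2⟩ | ⟨h1, h2, h3⟩
    · by_cases him : i ≤ m
      · exact Or.inr ⟨by omega, him, Or.inl ⟨h1, h2⟩⟩
      · exfalso
        have hlt : m < i := by omega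
        rw [Nat.mod_eq_of_lt hlt] at h2
        exact hndiv hlt (Or.inl h2)
    · have him : i ≤ m := by
        by_contra hcon
        have hlt : m < i := by omega
        rw [Nat.div_eq_of_lt hlt] at h2
        exact absurd h2 (by decide)
      by_cases hk0 : (2 * d) % i = 0
      · exact Or.inl ⟨hk0, Or.inr ⟨h1, h2⟩⟩
      · exact Or.inr ⟨by omega, him, Or.inr (Or.inl ⟨h1, h2⟩)⟩
    · by_cases him : i ≤ m
      · refine Or.inr ⟨by omega, him, Or.inr (Or.inr ⟨h2, ?_⟩)⟩
        have hsum : (2 * d + m - 2 * ((2 * d) % i)) / i = (2 * d) / i + m / i := by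
          have h4 := Nat.div_add_mod (2 * d) i
          have h5 := Nat.div_add_mod m i
          have h6 : 2 * d + m - 2 * ((2 * d) % i) = i * ((2 * d) / i + m / i) := by
            rw [Nat.mul_add]; omega
          rw [h6, Nat.mul_div_cancel_left _ hi0]
        rw [hsum, add_comm]
        exact h3
      · exfalso
        have hlt : m < i := by omega
        rw [Nat.mod_eq_of_lt hlt] at h2
        rw [Nat.div_eq_of_lt hlt, zero_add] at h3
        exact hndiv hlt (Or.inr ⟨h2, h3⟩)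
  · push Not at hadm
    exact Or.inl ⟨by omega, Or.inl (Nat.not_odd_iff_even.mp hadm.2)⟩

section bad

variable {F : Type u} [Field F] [Fintype F]

/-- the bad element of `Ω⁻` for `i` even. -/
theorem s90_bad_even (p : ℕ) [Fact p.Prime] [CharP F p] (d : ℕ) (hd : 4 ≤ d) (a b : F)
    (hab : ∀ x y : F, x ^ 2 + a * x * y + b * y ^ 2 = 0 → x = 0 ∧ y = 0) (r : ℕ)
    [Fact r.Prime] (hr2 : 2 < r) (hrp : r ≠ p) (i : ℕ)
    (hi : i = orderOf ((Fintype.card F : ℕ) : ZMod r)) (heven : Even i) (hid : i ≤ 2 * d)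
    (hadm : 0 < (2 * d) % i ∨ Odd ((2 * d) / i)) :
    ∃ x : GL ((Fin (d - 1) ⊕ Fin (d - 1)) ⊕ Fin 2) F,
      x ∈ Cfsg.Geo.omegaGL (Cfsg.quadFormMinus (d - 1) F a b) ∧ x ^ r = 1 ∧
      x ≠ 1 ∧ finrank F (LinearMap.ker (Matrix.toLin'
        (x : Matrix ((Fin (d - 1) ⊕ Fin (d - 1)) ⊕ Fin 2)
          ((Fin (d - 1) ⊕ Fin (d - 1)) ⊕ Fin 2) F) - 1)) = (2 * d) % i := by
  classical
  have hr : r.Prime := Fact.out
  have hipos : 0 < i := by rw [hi]; exact orderOf_pos_of_card (p := p) rfl hr hrp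
  have hrF : (r : F) ≠ 0 := natCast_ne_zero_of_ne (p := p) hr hrp
  have hrodd : Odd r := hr.odd_of_ne_two (by omega)
  have heven' : Even (orderOf ((Fintype.card F : ℕ) : ZMod r)) := by rw [← hi]; exact heven
  have hQ := (Cfsg.Agent.Helper35.TS5973.ts_std_minus (F := F) (d - 1) a b hab).1
  have hmi := (Cfsg.Agent.Helper35.TS5973.ts_std_minus (F := F) (d - 1) a b hab).2
  have hcard : Fintype.card ((Fin (d - 1) ⊕ Fin (d - 1)) ⊕ Fin 2) = 2 * d := by simp; omega
  obtain ⟨j, hj⟩ := heven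
  have hj2 : i / 2 = j := by omega
  have hjpos : 0 < j := by omega
  have hij : i = 2 * j := by omega
  have hcardJ : (cycJ F r).card * i = r - 1 := by
    rw [hi]; exact cycJ_card_mul (p := p) rfl hr hrp
  have hJ1 : 1 ≤ (cycJ F r).card := by
    rcases Nat.eq_zero_or_pos (cycJ F r).card with h0 | h0
    · rw [h0, zero_mul] at hcardJ; omega
    · exact h0
  obtain ⟨P, hP⟩ := Finset.card_pos.mp hJ1
  obtain ⟨A, hA⟩ : ∃ A, A = d / j := ⟨_, rfl⟩
  have hA1 : 1 ≤ A := by
    rw [hA]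
    exact (Nat.one_le_div_iff hjpos).mpr (by omega)
  have hdm := Nat.div_add_mod d j
  rw [← hA] at hdm
  have hdiv : (2 * d) / i = A := by
    rw [hij, Nat.mul_div_mul_left _ _ (by norm_num : 0 < 2), hA]
  have hmod : (2 * d) % i = 2 * (d % j) := by
    rw [hij, Nat.mul_mod_mul_left]
  rw [hdiv, hmod] at hadm
  obtain ⟨V₁, _, _, _, Q₁, T₁, hnd₁, hT₁, hcyc₁, -, hfr₁, hts₁, -⟩ :=
    Cfsg.Agent.Helper37.TB.tb_blk_even (F := F) p r hr2 hrp heven' P hP A
  rw [← hi, hj2] at hfr₁ hts₁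
  have hl : 1 ≤ j * A := Nat.mul_pos hjpos hA1
  have hε1 : (A + 1) % 2 ≤ 1 := by omega
  have hεk : (A + 1) % 2 ≤ d - j * A := by
    rcases hadm with h | h
    · omega
    · have := Nat.odd_iff.mp h
      omega
  obtain ⟨V', _, _, _, Q', T, hnd', hdim', htype', hT', hTr, hT1, hker⟩ :=
    Cfsg.Agent.Helper96.S88E.s88_full_ker r hrF Q₁ T₁ hnd₁ hT₁ hcyc₁ (j * A) hl hfr₁
      (d - j * A) ((A + 1) % 2) hε1 hεk
  have hkl : d - j * A + j * A = d := by omega
  rw [hkl] at hdim' htype'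
  have htype : HasTS Q' d ↔ (1 : ℕ) = 0 := by
    rw [htype', hts₁, Nat.even_iff]
    constructor
    · intro h
      exfalso
      omega
    · intro h
      exact absurd h one_ne_zero
  obtain ⟨x, hxΩ, hxr, hx1, hxk⟩ :=
    Cfsg.Agent.Helper96.S88E.s88_xfer_ker (Cfsg.quadFormMinus (d - 1) F a b) hQ d 1 hd hcard
      (typeDefect_minus hmi) r hrodd Q' hnd' hdim' htype T hT' hTr hT1
  refine ⟨x, hxΩ, hxr, hx1, ?_⟩
  rw [hxk, hker, hmod]
  omega

end bad

section stage

variable {F : Type*} [Field F] [Fintype F]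

/-- OEB (ambient minus type) from `i ≤ 2 d` and NDIVM. -/
theorem s90_even_bad_of {p : ℕ} [Fact p.Prime] [CharP F p] {q : ℕ} (hq : Fintype.card F = q)
    (d m : ℕ) (hd : 4 ≤ d) (hme : Even m) (a b : F)
    (hab : ∀ x y : F, x ^ 2 + a * x * y + b * y ^ 2 = 0 → x = 0 ∧ y = 0) (r : ℕ) [Fact r.Prime]
    (hr2 : 2 < r) (hrp : r ≠ p) (i : ℕ) (hi : i = orderOf (q : ZMod r)) (heven : Even i)
    (hid : i ≤ 2 * d)
    (hndiv : m < i → (m < (2 * d) % i ∨ (m = (2 * d) % i ∧ Even ((2 * d) / i))) → False)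
    (hall : AllEll (Cfsg.quadFormMinus (d - 1) F a b) r m) :
    ((2 * d) % i = 0 ∧ (Even ((2 * d) / i) ∨ (m % i = 0 ∧ Odd (m / i)))) ∨
      (0 < (2 * d) % i ∧ i ≤ m ∧ ((0 < m % i ∧ m % i < (2 * d) % i) ∨ (m % i = 0 ∧ Odd (m / i)) ∨
        (m % i = (2 * d) % i ∧ Even ((2 * d + m - 2 * ((2 * d) % i)) / i)))) := by
  classical
  subst hq
  have hrpr : r.Prime := Fact.out
  have hrodd : Odd r := hrpr.odd_of_ne_two (by omega)
  have hrF : (r : F) ≠ 0 := oh_rF p r hrp
  have hQ := (Cfsg.Agent.Helper35.TS5973.ts_std_minus (F := F) (d - 1) a b hab).1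
  have hmi := (Cfsg.Agent.Helper35.TS5973.ts_std_minus (F := F) (d - 1) a b hab).2
  have hcard : Fintype.card ((Fin (d - 1) ⊕ Fin (d - 1)) ⊕ Fin 2) = 2 * d := by simp; omega
  have hi0 : 0 < i := by
    rw [hi]
    exact Cfsg.Agent.Helper13.TIsp.ti_ord_pos_of_ne r hrF
  apply s90g_even_bad_arith d m i hi0 ?_ hndiv
  intro hadm
  obtain ⟨x, hx, hxr, hx1, hxk⟩ := s90_bad_even p d hd a b hab r hr2 hrp i hi heven hid hadm
  have hxiso := Cfsg.Agent.Helper97.Gen.omegaGL_le _ hx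
  have hns := Cfsg.Agent.Helper80.TS5973.ts_nonscalar (Cfsg.quadFormMinus (d - 1) F a b) hQ r
    hrodd x hxiso hxr hx1
  obtain ⟨W, hW, hWT⟩ := hall x hx ⟨1, by rw [hxr, one_smul]; rfl⟩ hns
  have hT := oh_opres_toLin' (Cfsg.quadFormMinus (d - 1) F a b) x hxiso
  have hTr : Matrix.toLin' (x : Matrix ((Fin (d - 1) ⊕ Fin (d - 1)) ⊕ Fin 2)
      ((Fin (d - 1) ⊕ Fin (d - 1)) ⊕ Fin 2) F) ^ r = 1 := by
    have h2 : (x : Matrix ((Fin (d - 1) ⊕ Fin (d - 1)) ⊕ Fin 2)
        ((Fin (d - 1) ⊕ Fin (d - 1)) ⊕ Fin 2) F) ^ r = 1 := by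
      rw [← Units.val_pow_eq_pow_val, hxr]; rfl
    rw [oh_toLin'_pow_eq, h2, Matrix.toLin'_one]; rfl
  exact s90g_even_bad_core (Cfsg.quadFormMinus (d - 1) F a b) hQ d m hcard hmi hme _ hT r hr2
    hrF hTr i hi heven hxk W hW hWT

end stage

end Cfsg.Agent.Helper88.S90
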