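import Cfsg.Agent.Helper88.SimpleCrit3
import Cfsg.Agent.Helper44.PSLnD

set_option autoImplicit false

namespace Cfsg.Agent.Helper88

open Cfsg Matrix Cfsg.Agent.Helper44.PSLn

universe u

section SLnA

variable {n : ℕ} {F : Type u} [Field F]

/-- a transvection with strictly upper triangular rank one part is unitriangular -/
theorem tvS_mem_UniS [Finite F] (v φ : Fin n → F) (h : φ ⬝ᵥ v = 0)
    (hvφ : ∀ i j : Fin n, j ≤ i → v i * φ j = 0) : tvS v φ h ∈ UniS n F := by
  rw [mem_UniS, tvS_coe]
  refine ⟨fun i j hij => ?_, fun i => ?_⟩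
  · rw [tvM_apply, if_neg (ne_of_gt hij), hvφ i j hij.le, add_zero]
  · rw [tvM_apply, if_pos rfl, hvφ i i le_rfl, add_zero]

theorem tvS_pow (v φ : Fin n → F) (h : φ ⬝ᵥ v = 0) (k : ℕ) :
    ∃ h' : (k • φ) ⬝ᵥ v = 0, tvS v φ h ^ k = tvS v (k • φ) h' := by
  induction k with
  | zero =>
    refine ⟨by rw [zero_smul, zero_dotProduct], ?_⟩
    rw [pow_zero, ← tvS_zero_right v]
    exact tvS_congr rfl (zero_smul ℕ φ).symm _ _
  | succ k ih =>
    obtain ⟨h', hk⟩ := ih
    refine ⟨by rw [succ_nsmul, add_dotProduct, h', h, add_zero], ?_⟩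
    rw [pow_succ, hk, tvS_mul_same_center]
    exact tvS_congr rfl (succ_nsmul φ k).symm _ _

/-- transvections are `p`-elements in characteristic `p` -/
theorem tvS_pow_char (p : ℕ) [CharP F p] (v φ : Fin n → F) (h : φ ⬝ᵥ v = 0) :
    tvS v φ h ^ p ^ 1 = 1 := by
  obtain ⟨h', hk⟩ := tvS_pow v φ h p
  rw [pow_one, hk, ← tvS_zero_right v]
  apply tvS_congr rfl
  ext i
  rw [Pi.smul_apply, nsmul_eq_mul, CharP.cast_eq_zero, zero_mul, Pi.zero_apply]

/-- diagonal elements of `SL_n` -/
def diagSL (d : Fin n → F) (hd : ∏ i, d i = 1) : SLn n F :=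
  ⟨Matrix.diagonal d, by rw [Matrix.det_diagonal]; exact hd⟩

theorem diagSL_coe (d : Fin n → F) (hd : ∏ i, d i = 1) :
    ((diagSL d hd : SLn n F) : Mn n F) = Matrix.diagonal d := rfl

theorem diagSL_ne_zero (d : Fin n → F) (hd : ∏ i, d i = 1) (i : Fin n) : d i ≠ 0 := by
  intro h
  rw [Finset.prod_eq_zero (Finset.mem_univ i) h] at hd
  exact zero_ne_one hd

theorem diagSL_conj_transvection (d : Fin n → F) (hd : ∏ i, d i = 1) {i j : Fin n} (hij : i ≠ j)
    (a c : F) (h : d i * a = c * d j) :
    diagSL d hd * Matrix.SpecialLinearGroup.transvection hij a * (diagSL d hd)⁻¹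
      = Matrix.SpecialLinearGroup.transvection hij c := by
  rw [mul_inv_eq_iff_eq_mul]
  apply Subtype.ext
  rw [Matrix.SpecialLinearGroup.coe_mul, Matrix.SpecialLinearGroup.coe_mul,
    Matrix.SpecialLinearGroup.transvection_coe, Matrix.SpecialLinearGroup.transvection_coe, diagSL_coe]
  ext k l
  rw [Matrix.diagonal_mul, Matrix.mul_diagonal, Matrix.add_apply, Matrix.add_apply, Matrix.single_apply,
    Matrix.single_apply]
  by_cases hk : i = k ∧ j = l
  · obtain ⟨rfl, rfl⟩ := hk
    rw [if_pos ⟨rfl, rfl⟩, if_pos ⟨rfl, rfl⟩, Matrix.one_apply_ne hij, zero_add, zero_add]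
    exact h
  · rw [if_neg hk, if_neg hk, add_zero]
    by_cases hkl : k = l
    · subst hkl
      rw [Matrix.one_apply_eq, mul_one, one_mul]
    · rw [Matrix.one_apply_ne hkl, mul_zero, zero_mul]

theorem diagSL_conj_mem_UniS [Finite F] (d : Fin n → F) (hd : ∏ i, d i = 1) {y : SLn n F}
    (hy : y ∈ UniS n F) : diagSL d hd * y * (diagSL d hd)⁻¹ ∈ UniS n F := by
  obtain ⟨w, hw⟩ : ∃ w : SLn n F, w = diagSL d hd * y * (diagSL d hd)⁻¹ := ⟨_, rfl⟩
  rw [← hw]
  have h1 : w * diagSL d hd = diagSL d hd * y := by rw [hw]; group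
  have h2 : ∀ i j : Fin n, (w : Mn n F) i j * d j = d i * (y : Mn n F) i j := by
    intro i j
    have h3 := congrArg Subtype.val h1
    rw [Matrix.SpecialLinearGroup.coe_mul, Matrix.SpecialLinearGroup.coe_mul, diagSL_coe] at h3
    have h4 := congrFun (congrFun h3 i) j
    rw [Matrix.mul_diagonal, Matrix.diagonal_mul] at h4
    exact h4
  rw [mem_UniS]
  refine ⟨fun i j hij => ?_, fun i => ?_⟩
  · have := h2 i j
    rw [hy.1 i j hij, mul_zero] at this
    exact (mul_eq_zero.mp this).resolve_right (diagSL_ne_zero d hd j)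
  · have := h2 i i
    rw [hy.2 i, mul_one] at this
    exact mul_right_cancel₀ (diagSL_ne_zero d hd i) (this.trans (one_mul _).symm)

end SLnA


section SLnB

variable {n : ℕ} {F : Type u} [Field F] [Fintype F]

omit [Fintype F] in
/-- right multiplication by a transvection -/
theorem mul_tvM_apply (M : Mn n F) (v φ : Fin n → F) (i j : Fin n) :
    (M * tvM v φ) i j = M i j + (M *ᵥ v) i * φ j := by
  unfold tvM
  rw [mul_add, mul_one, Matrix.add_apply, Matrix.mul_vecMulVec, Matrix.vecMulVec_apply]

theorem uniS_ne_bot (hn : 2 ≤ n) : UniS n F ≠ ⊥ := by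
  intro hb
  have hlt : (⟨0, by omega⟩ : Fin n) < ⟨1, by omega⟩ := by
    rw [Fin.lt_def]
    exact Nat.zero_lt_one
  have h1 := transvection_mem_UniS (F := F) hlt 1
  rw [hb, Subgroup.mem_bot] at h1
  have h2 := congrArg (fun s : SLn n F => (s : Mn n F) ⟨0, by omega⟩ ⟨1, by omega⟩) h1
  simp only [Matrix.SpecialLinearGroup.transvection_coe, Matrix.SpecialLinearGroup.coe_one] at h2
  rw [Matrix.add_apply, Matrix.one_apply_ne (ne_of_lt hlt), Matrix.single_apply_same, zero_add] at h2
  exact one_ne_zero h2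

/-- the only subgroups of the unitriangular group closed under fusion in `SL_n(F)`, `n ≥ 3`, are the trivial
ones -/
theorem uniS_strongly_closed (p f : ℕ) [Fact p.Prime] (hF : Fintype.card F = p ^ f) (hn : 3 ≤ n)
    (T : Subgroup (SLn n F)) (hT : T ≤ UniS n F)
    (hcl : ∀ x ∈ T, ∀ g : SLn n F, g * x * g⁻¹ ∈ UniS n F → g * x * g⁻¹ ∈ T) :
    T = ⊥ ∨ T = UniS n F := by
  by_cases hbot : T = ⊥
  · exact Or.inl hbot
  right
  obtain ⟨i0, hi0⟩ : ∃ i0 : Fin n, i0 = ⟨0, by omega⟩ := ⟨_, rfl⟩
  obtain ⟨il, hil⟩ : ∃ il : Fin n, il = ⟨n - 1, by omega⟩ := ⟨_, rfl⟩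
  obtain ⟨k0, hk0⟩ : ∃ k0 : Fin n, k0 = ⟨1, by omega⟩ := ⟨_, rfl⟩
  have h0 : ∀ i : Fin n, i0 ≤ i := fun i => by
    rw [hi0, Fin.le_def]
    exact Nat.zero_le _
  have hl : ∀ i : Fin n, i ≤ il := fun i => by
    have := i.2
    rw [hil, Fin.le_def]
    show (i : ℕ) ≤ n - 1
    omega
  have hne : i0 ≠ il := by
    intro h1
    have := congrArg Fin.val h1
    rw [hi0, hil] at this
    simp only at this
    omega
  have hk0i : k0 ≠ i0 := by
    intro h1
    have := congrArg Fin.val h1
    rw [hi0, hk0] at this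
    simp only at this
    omega
  have hk0l : k0 ≠ il := by
    intro h1
    have := congrArg Fin.val h1
    rw [hil, hk0] at this
    simp only at this
    omega
  have hlt : i0 < il := lt_of_le_of_ne (h0 il) hne
  have hSp : IsPGroup p (UniS n F) := isPGroup_UniS p f hF
  have hNn : ∀ s ∈ UniS n F, ∀ y ∈ T, s * y * s⁻¹ ∈ T := fun s hs y hy =>
    hcl y hy s ((UniS n F).mul_mem ((UniS n F).mul_mem hs (hT hy)) ((UniS n F).inv_mem hs))
  have hNM : ¬ T ≤ ⊥ := fun h => hbot (le_bot_iff.mp h)
  obtain ⟨y, hyT, hy1, -, hyc⟩ := exists_central_mod hSp hT hNn hNM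
  have hycomm : ∀ x ∈ UniS n F, y * x = x * y := by
    intro x hx
    have := hyc x hx
    rw [Subgroup.mem_bot] at this
    calc y * x = y * (y⁻¹ * (x * y * x⁻¹)) * x := by rw [this, mul_one]
      _ = x * y := by group
  have hyeq := eq_transvection_of_central i0 il h0 hl hne y (hT hyT)
    (fun x hx => by rw [← map_mul, ← map_mul, hycomm x hx])
  obtain ⟨a, ha⟩ : ∃ a : F, a = (y : Mn n F) i0 il := ⟨_, rfl⟩
  rw [← ha] at hyeq
  have ha0 : a ≠ 0 := by
    intro h
    apply hy1
    rw [Subgroup.mem_bot, hyeq, h]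
    exact Matrix.SpecialLinearGroup.transvection_coeff_zero hne
  have hroot : ∀ c : F, Matrix.SpecialLinearGroup.transvection hne c ∈ T := by
    intro c
    by_cases hc : c = 0
    · rw [hc, Matrix.SpecialLinearGroup.transvection_coeff_zero]
      exact T.one_mem
    · have hprod : ∏ i, (fun i : Fin n => if i = i0 then c / a else if i = k0 then a / c else 1) i = 1 := by
        rw [Finset.prod_eq_mul i0 k0 hk0i.symm]
        · simp only [if_true, if_neg hk0i]
          field_simp
        · intro j _ hj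
          simp only [if_neg hj.1, if_neg hj.2]
        · intro h
          exact absurd (Finset.mem_univ _) h
        · intro h
          exact absurd (Finset.mem_univ _) h
      have h1 := diagSL_conj_transvection _ hprod hne a c (by
        simp only [if_true, if_neg hne.symm, if_neg hk0l.symm]
        field_simp)
      rw [← h1]
      apply hcl _ (by rw [← hyeq]; exact hyT)
      rw [h1]
      exact transvection_mem_UniS hlt c
  have htv : ∀ (v φ : Fin n → F) (h : φ ⬝ᵥ v = 0), tvS v φ h ∈ UniS n F → tvS v φ h ∈ T := by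
    intro v φ h hU
    obtain ⟨s, c, hs⟩ := exists_conj_transvection i0 il hne v φ h
    rw [hs]
    apply hcl _ (hroot c)
    rw [← hs]
    exact hU
  have hcol : ∀ d : ℕ, ∀ u ∈ UniS n F,
      (∀ i j : Fin n, i < j → (j : ℕ) + d < n → (u : Mn n F) i j = 0) → u ∈ T := by
    intro d
    induction d with
    | zero =>
      intro u hu h
      have : u = 1 := by
        apply Subtype.ext
        ext i j
        rcases lt_trichotomy i j with hij | hij | hij
        · rw [h i j hij (by have := j.2; omega), Matrix.SpecialLinearGroup.coe_one,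
            Matrix.one_apply_ne (ne_of_lt hij)]
        · subst hij
          rw [hu.2, Matrix.SpecialLinearGroup.coe_one, Matrix.one_apply_eq]
        · rw [hu.1 i j hij, Matrix.SpecialLinearGroup.coe_one, Matrix.one_apply_ne (ne_of_gt hij)]
      rw [this]
      exact T.one_mem
    | succ d ih =>
      intro u hu h
      by_cases hd : n ≤ d
      · exact ih u hu (fun i j _ hj => by omega)
      · have hd' : d < n := not_le.mp hd
        obtain ⟨jm, hjm⟩ : ∃ jm : Fin n, jm = ⟨n - 1 - d, by omega⟩ := ⟨_, rfl⟩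
        have hjmv : (jm : ℕ) = n - 1 - d := by rw [hjm]
        obtain ⟨v, hvdef⟩ : ∃ v : Fin n → F, v = fun i => if i < jm then (u : Mn n F) i jm else 0 :=
          ⟨_, rfl⟩
        have hvlt : ∀ i, i < jm → v i = (u : Mn n F) i jm := fun i hi => by
          rw [hvdef]
          exact if_pos hi
        have hvge : ∀ i, ¬ i < jm → v i = 0 := fun i hi => by
          rw [hvdef]
          exact if_neg hi
        have hv : (Pi.single jm 1 : Fin n → F) ⬝ᵥ v = 0 := by
          rw [single_dotProduct, one_mul]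
          exact hvge jm (lt_irrefl _)
        have hC : tvS v (Pi.single jm 1) hv ∈ UniS n F := by
          apply tvS_mem_UniS
          intro i j hji
          by_cases hj : j = jm
          · rw [hvge i (by rw [← hj]; exact not_lt.mpr hji), zero_mul]
          · rw [Pi.single_eq_of_ne hj, mul_zero]
        have huv : ∀ i, ((u : Mn n F) *ᵥ v) i = v i := by
          intro i
          show ∑ l, (u : Mn n F) i l * v l = v i
          rw [Finset.sum_eq_single i]
          · rw [hu.2, one_mul]
          · intro l _ hli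
            by_cases hl' : l < jm
            · rcases lt_or_gt_of_ne hli with h1 | h1
              · rw [hu.1 i l h1, zero_mul]
              · rw [h i l h1 (by rw [Fin.lt_def, hjmv] at hl'; omega), zero_mul]
            · rw [hvge l hl', mul_zero]
          · intro h1
            exact absurd (Finset.mem_univ i) h1
        have hu' : u * (tvS v (Pi.single jm 1) hv)⁻¹ ∈ T := by
          apply ih _ ((UniS n F).mul_mem hu ((UniS n F).inv_mem hC))
          intro i j hij hj
          rw [tvS_inv, Matrix.SpecialLinearGroup.coe_mul, tvS_coe, mul_tvM_apply, huv]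
          by_cases hjj : j = jm
          · rw [hjj, Pi.neg_apply, Pi.single_eq_same, hvlt i (by rw [← hjj]; exact hij)]
            ring
          · rw [Pi.neg_apply, Pi.single_eq_of_ne hjj, neg_zero, mul_zero, add_zero]
            apply h i j hij
            have : (j : ℕ) ≠ n - 1 - d := fun h1 => hjj (Fin.ext (h1.trans hjmv.symm))
            omega
        have := T.mul_mem hu' (htv _ _ hv hC)
        rwa [inv_mul_cancel_right] at this
  exact le_antisymm hT (fun u hu => hcol n u hu (fun i j _ hj => by omega))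

end SLnB


section SLnC

variable {n : ℕ} {F : Type u} [Field F] [Fintype F]

/-- an element normalizing the unitriangular group is upper triangular -/
theorem upper_of_normalizes (g : SLn n F) (hg : ∀ y ∈ UniS n F, g * y * g⁻¹ ∈ UniS n F) :
    ∀ i j : Fin n, j < i → (g : Mn n F) i j = 0 := by
  have hgN : g ∈ Subgroup.normalizer ((UniS n F : Subgroup (SLn n F)) : Set (SLn n F)) :=
    Helper85.mem_normalizer_of_conj_mem hg
  have hg' : ∀ y ∈ UniS n F, g⁻¹ * y * g ∈ UniS n F := by
    intro y hy
    have := (Subgroup.mem_normalizer_iff.mp (inv_mem hgN) y).mp hy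
    rwa [inv_inv] at this
  have key : ∀ m : ℕ, ∀ j : Fin n, (j : ℕ) < m → ∀ i : Fin n, j < i → (g : Mn n F) i j = 0 := by
    intro m
    induction m with
    | zero =>
      intro j hj
      omega
    | succ m ih =>
      intro j hj i hji
      by_cases hjm : (j : ℕ) < m
      · exact ih j hjm i hji
      · have hIH : ∀ k : Fin n, k < j → ∀ r : Fin n, k < r → (g : Mn n F) r k = 0 := fun k hk r hr =>
          ih k (by rw [Fin.lt_def] at hk; omega) r hr
        have hu := transvection_mem_UniS (F := F) hji 1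
        obtain ⟨w, hw⟩ : ∃ w : SLn n F,
            w = g⁻¹ * Matrix.SpecialLinearGroup.transvection (ne_of_lt hji) 1 * g := ⟨_, rfl⟩
        have hwU : w ∈ UniS n F := by rw [hw]; exact hg' _ hu
        have heq : Matrix.SpecialLinearGroup.transvection (ne_of_lt hji) 1 * g = g * w := by
          rw [hw]; group
        have h1 := congrArg Subtype.val heq
        rw [Matrix.SpecialLinearGroup.coe_mul, Matrix.SpecialLinearGroup.coe_mul,
          Matrix.SpecialLinearGroup.transvection_coe, add_mul, one_mul] at h1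
        have h2 := congrFun (congrFun h1 j) j
        rw [Matrix.add_apply, Matrix.single_mul_apply_same, one_mul, Matrix.mul_apply,
          Finset.sum_eq_single j] at h2
        · rw [hwU.2, mul_one] at h2
          exact add_left_cancel (h2.trans (add_zero _).symm)
        · intro k _ hkj
          rcases lt_or_gt_of_ne hkj with h3 | h3
          · rw [hIH k h3 j h3, zero_mul]
          · rw [hwU.1 k j h3, mul_zero]
        · intro h3
          exact absurd (Finset.mem_univ j) h3
  intro i j hji
  exact key ((j : ℕ) + 1) j (Nat.lt_succ_self _) i hji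

/-- an upper triangular element is a diagonal element times a unitriangular one -/
theorem exists_diag_mul_uni (g : SLn n F) (hg : ∀ i j : Fin n, j < i → (g : Mn n F) i j = 0) :
    ∃ (d : Fin n → F) (hd : ∏ i, d i = 1), (diagSL d hd)⁻¹ * g ∈ UniS n F := by
  have hdet : ∏ i, (g : Mn n F) i i = 1 := by
    rw [← Matrix.det_of_upperTriangular (M := (g : Mn n F)) (fun i j hij => hg i j hij)]
    exact g.2
  refine ⟨fun i => (g : Mn n F) i i, hdet, ?_⟩
  obtain ⟨w, hw⟩ : ∃ w : SLn n F, w = (diagSL _ hdet)⁻¹ * g := ⟨_, rfl⟩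
  rw [← hw]
  have h1 : diagSL _ hdet * w = g := by rw [hw]; group
  have h2 : ∀ i j, (g : Mn n F) i i * (w : Mn n F) i j = (g : Mn n F) i j := by
    intro i j
    have h3 := congrArg Subtype.val h1
    rw [Matrix.SpecialLinearGroup.coe_mul, diagSL_coe] at h3
    have h4 := congrFun (congrFun h3 i) j
    rw [Matrix.diagonal_mul] at h4
    exact h4
  have hne := diagSL_ne_zero _ hdet
  rw [mem_UniS]
  refine ⟨fun i j hij => ?_, fun i => ?_⟩
  · have := h2 i j
    rw [hg i j hij] at this
    exact (mul_eq_zero.mp this).resolve_left (hne i)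
  · have := h2 i i
    exact mul_left_cancel₀ (hne i) (this.trans (mul_one _).symm)

omit [Fintype F] in
/-- the `(k, k+1)` entry is additive on unitriangular matrices -/
theorem isUni_mul_apply_succ {M N : Mn n F} (hM : IsUni M) (hN : IsUni N) (k k' : Fin n)
    (hk : (k' : ℕ) = (k : ℕ) + 1) : (M * N) k k' = M k k' + N k k' := by
  have hkk' : k ≠ k' := fun h => by rw [h] at hk; omega
  rw [Matrix.mul_apply, Finset.sum_eq_add k k' hkk']
  · rw [hM.2, hN.2, one_mul, mul_one, add_comm]
  · intro l _ hl
    rcases lt_or_gt_of_ne hl.1 with h1 | h1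
    · rw [hM.1 k l h1, zero_mul]
    · have h2 : k' < l := by
        rw [Fin.lt_def] at h1 ⊢
        have : (l : ℕ) ≠ (k' : ℕ) := fun h => hl.2 (Fin.ext h)
        omega
      rw [hN.1 l k' h2, mul_zero]
  · intro h
    exact absurd (Finset.mem_univ _) h
  · intro h
    exact absurd (Finset.mem_univ _) h

/-- the unitriangular matrices with vanishing `(k, k+1)` entry -/
def uniK (k k' : Fin n) (hk : (k' : ℕ) = (k : ℕ) + 1) : Subgroup (SLn n F) where
  carrier := {s | s ∈ UniS n F ∧ (s : Mn n F) k k' = 0}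
  mul_mem' := by
    rintro a b ⟨ha, ha0⟩ ⟨hb, hb0⟩
    refine ⟨(UniS n F).mul_mem ha hb, ?_⟩
    rw [Matrix.SpecialLinearGroup.coe_mul, isUni_mul_apply_succ ha hb k k' hk, ha0, hb0, add_zero]
  one_mem' := by
    refine ⟨(UniS n F).one_mem, ?_⟩
    rw [Matrix.SpecialLinearGroup.coe_one, Matrix.one_apply_ne]
    intro h
    rw [h] at hk
    omega
  inv_mem' := by
    rintro a ⟨ha, ha0⟩
    have hai := (UniS n F).inv_mem ha
    refine ⟨hai, ?_⟩
    have h1 : ((a * a⁻¹ : SLn n F) : Mn n F) k k' = 0 := by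
      rw [mul_inv_cancel, Matrix.SpecialLinearGroup.coe_one, Matrix.one_apply_ne]
      intro h
      rw [h] at hk
      omega
    rw [Matrix.SpecialLinearGroup.coe_mul, isUni_mul_apply_succ ha hai k k' hk, ha0, zero_add] at h1
    exact h1

theorem mem_uniK {k k' : Fin n} {hk : (k' : ℕ) = (k : ℕ) + 1} {s : SLn n F} :
    s ∈ uniK k k' hk ↔ s ∈ UniS n F ∧ (s : Mn n F) k k' = 0 := Iff.rfl

theorem uniK_normal (k k' : Fin n) (hk : (k' : ℕ) = (k : ℕ) + 1) :
    ∀ s ∈ UniS n F, ∀ x ∈ uniK k k' hk, s * x * s⁻¹ ∈ uniK k k' hk := by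
  rintro s hs x ⟨hx, hx0⟩
  have hsi := (UniS n F).inv_mem hs
  refine ⟨(UniS n F).mul_mem ((UniS n F).mul_mem hs hx) hsi, ?_⟩
  have h1 : ((s * s⁻¹ : SLn n F) : Mn n F) k k' = 0 := by
    rw [mul_inv_cancel, Matrix.SpecialLinearGroup.coe_one, Matrix.one_apply_ne]
    intro h
    rw [h] at hk
    omega
  rw [Matrix.SpecialLinearGroup.coe_mul, isUni_mul_apply_succ hs hsi k k' hk] at h1
  rw [Matrix.SpecialLinearGroup.coe_mul, isUni_mul_apply_succ ((UniS n F).mul_mem hs hx) hsi k k' hk,
    Matrix.SpecialLinearGroup.coe_mul, isUni_mul_apply_succ hs hx k k' hk, hx0, add_zero]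
  exact h1

theorem uniK_centralizer (hn : 3 ≤ n) (k k' : Fin n) (hk : (k' : ℕ) = (k : ℕ) + 1) :
    ∀ s ∈ UniS n F, (∀ x ∈ uniK k k' hk, s * x = x * s) → s ∈ uniK k k' hk := by
  intro s hs hcomm
  refine ⟨hs, ?_⟩
  have hkk' : k ≠ k' := fun h => by rw [h] at hk; omega
  by_cases hlast : (k' : ℕ) + 1 < n
  · obtain ⟨k'', hk''⟩ : ∃ k'' : Fin n, k'' = ⟨(k' : ℕ) + 1, hlast⟩ := ⟨_, rfl⟩
    have hlt : k' < k'' := by
      rw [hk'', Fin.lt_def]
      exact Nat.lt_succ_self _
    have hx : Matrix.SpecialLinearGroup.transvection (ne_of_lt hlt) (1 : F) ∈ uniK k k' hk := by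
      refine ⟨transvection_mem_UniS hlt 1, ?_⟩
      rw [Matrix.SpecialLinearGroup.transvection_coe, Matrix.add_apply, Matrix.one_apply_ne hkk',
        Matrix.single_apply, if_neg (fun h => hkk' h.1.symm), add_zero]
    have h1 := congrArg Subtype.val (hcomm _ hx)
    rw [Matrix.SpecialLinearGroup.coe_mul, Matrix.SpecialLinearGroup.coe_mul,
      Matrix.SpecialLinearGroup.transvection_coe, mul_add, add_mul, mul_one, one_mul,
      add_right_inj] at h1
    have h2 := congrFun (congrFun h1 k) k''
    rw [Matrix.mul_single_apply_same, Matrix.single_mul_apply_of_ne _ _ _ _ _ hkk', mul_one] at h2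
    exact h2
  · have hk1 : 1 ≤ (k : ℕ) := by
      have := k'.2
      omega
    obtain ⟨km, hkm⟩ : ∃ km : Fin n, km = ⟨(k : ℕ) - 1, by have := k.2; omega⟩ := ⟨_, rfl⟩
    have hlt : km < k := by
      rw [hkm, Fin.lt_def]
      show (k : ℕ) - 1 < (k : ℕ)
      omega
    have hx : Matrix.SpecialLinearGroup.transvection (ne_of_lt hlt) (1 : F) ∈ uniK k k' hk := by
      refine ⟨transvection_mem_UniS hlt 1, ?_⟩
      rw [Matrix.SpecialLinearGroup.transvection_coe, Matrix.add_apply, Matrix.one_apply_ne hkk',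
        Matrix.single_apply, if_neg (fun h => (ne_of_lt hlt) h.1), add_zero]
    have h1 := congrArg Subtype.val (hcomm _ hx)
    rw [Matrix.SpecialLinearGroup.coe_mul, Matrix.SpecialLinearGroup.coe_mul,
      Matrix.SpecialLinearGroup.transvection_coe, mul_add, add_mul, mul_one, one_mul,
      add_right_inj] at h1
    have h2 := congrFun (congrFun h1 km) k'
    rw [Matrix.single_mul_apply_same, Matrix.mul_single_apply_of_ne _ _ _ _ _ hkk'.symm, one_mul] at h2
    exact h2.symm

end SLnC


section SLnD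

variable {n : ℕ} {F : Type u} [Field F] [Fintype F]

/-- the lower root elements at `(k+1, k)` normalize `uniK` -/
theorem lower_conj_uniK (k k' : Fin n) (hk : (k' : ℕ) = (k : ℕ) + 1) (hkk' : k' ≠ k) (a : F) :
    ∀ u ∈ uniK (F := F) k k' hk, Matrix.SpecialLinearGroup.transvection hkk' a * u *
      (Matrix.SpecialLinearGroup.transvection hkk' a)⁻¹ ∈ uniK k k' hk := by
  rintro u ⟨hu, hu0⟩
  obtain ⟨w, hw⟩ : ∃ w : SLn n F, w = Matrix.SpecialLinearGroup.transvection hkk' a * u *
      (Matrix.SpecialLinearGroup.transvection hkk' a)⁻¹ := ⟨_, rfl⟩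
  rw [← hw]
  have heq : w * Matrix.SpecialLinearGroup.transvection hkk' a
      = Matrix.SpecialLinearGroup.transvection hkk' a * u := by rw [hw]; group
  have h1 := congrArg Subtype.val heq
  rw [Matrix.SpecialLinearGroup.coe_mul, Matrix.SpecialLinearGroup.coe_mul,
    Matrix.SpecialLinearGroup.transvection_coe, mul_add, add_mul, mul_one, one_mul] at h1
  have hE1 : ∀ r c : Fin n, c ≠ k → (w : Mn n F) r c
      = (u : Mn n F) r c + (if r = k' then a * (u : Mn n F) k c else 0) := by
    intro r c hc
    have h2 := congrFun (congrFun h1 r) c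
    rw [Matrix.add_apply, Matrix.add_apply, Matrix.mul_single_apply_of_ne _ _ _ _ _ hc, add_zero] at h2
    rw [h2]
    by_cases hr : r = k'
    · rw [hr, if_pos rfl, Matrix.single_mul_apply_same]
    · rw [if_neg hr, Matrix.single_mul_apply_of_ne _ _ _ _ _ hr]
  have hE2 : ∀ r : Fin n, (w : Mn n F) r k + (w : Mn n F) r k' * a
      = (u : Mn n F) r k + (if r = k' then a * (u : Mn n F) k k else 0) := by
    intro r
    have h2 := congrFun (congrFun h1 r) k
    rw [Matrix.add_apply, Matrix.add_apply, Matrix.mul_single_apply_same] at h2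
    rw [h2]
    by_cases hr : r = k'
    · rw [hr, if_pos rfl, Matrix.single_mul_apply_same]
    · rw [if_neg hr, Matrix.single_mul_apply_of_ne _ _ _ _ _ hr]
  have hwk' : ∀ r : Fin n, (w : Mn n F) r k' = (u : Mn n F) r k' := by
    intro r
    rw [hE1 r k' hkk']
    by_cases hr : r = k'
    · rw [if_pos hr, hu0, mul_zero, add_zero]
    · rw [if_neg hr, add_zero]
  have hwk : ∀ r : Fin n, (w : Mn n F) r k
      = (u : Mn n F) r k + (if r = k' then a else 0) - (u : Mn n F) r k' * a := by
    intro r
    have := hE2 r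
    rw [hwk' r, hu.2 k, mul_one] at this
    rw [← this]
    ring
  refine ⟨?_, ?_⟩
  · rw [mem_UniS]
    refine ⟨fun r c hcr => ?_, fun r => ?_⟩
    · by_cases hc : c = k
      · rw [hc] at hcr
        rw [hc, hwk r, hu.1 r k hcr]
        by_cases hr : r = k'
        · rw [if_pos hr, hr, hu.2 k']
          ring
        · rw [if_neg hr]
          have hlt : k' < r := by
            rw [Fin.lt_def] at hcr ⊢
            have : (r : ℕ) ≠ (k' : ℕ) := fun h => hr (Fin.ext h)
            omega
          rw [hu.1 r k' hlt]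
          ring
      · rw [hE1 r c hc, hu.1 r c hcr]
        by_cases hr : r = k'
        · rw [if_pos hr]
          have hlt : c < k := by
            rw [hr] at hcr
            rw [Fin.lt_def] at hcr ⊢
            have : (c : ℕ) ≠ (k : ℕ) := fun h => hc (Fin.ext h)
            omega
          rw [hu.1 k c hlt]
          ring
        · rw [if_neg hr, add_zero]
    · by_cases hr : r = k
      · rw [hr, hwk k, hu.2 k, if_neg hkk'.symm, hu0]
        ring
      · rw [hE1 r r hr, hu.2 r]
        by_cases hr' : r = k'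
        · rw [if_pos hr', hr', hu0]
          ring
        · rw [if_neg hr', add_zero]
  · rw [hwk' k]
    exact hu0

/-- the diagonal of the torus element `h_k(t)` -/
def hEltFun (k k' : Fin n) (t : F) : Fin n → F := fun i => if i = k then t else if i = k' then t⁻¹ else 1

omit [Fintype F] in
theorem hEltFun_prod {k k' : Fin n} (hkk' : k ≠ k') {t : F} (ht : t ≠ 0) : ∏ i, hEltFun k k' t i = 1 := by
  rw [Finset.prod_eq_mul k k' hkk']
  · unfold hEltFun
    rw [if_pos rfl, if_neg hkk'.symm, if_pos rfl, mul_inv_cancel₀ ht]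
  · intro j _ hj
    unfold hEltFun
    rw [if_neg hj.1, if_neg hj.2]
  · intro h
    exact absurd (Finset.mem_univ _) h
  · intro h
    exact absurd (Finset.mem_univ _) h

omit [Fintype F] in
theorem tv_mulVec_apply {i j : Fin n} (hij : i ≠ j) (a : F) (w : Fin n → F) (r : Fin n) :
    (((Matrix.SpecialLinearGroup.transvection hij a : SLn n F) : Mn n F) *ᵥ w) r
      = w r + if r = i then a * w j else 0 := by
  rw [Matrix.SpecialLinearGroup.transvection_coe, Matrix.add_mulVec, Matrix.one_mulVec, Pi.add_apply,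
    Matrix.single_mulVec]
  congr 1
  by_cases hr : r = i
  · rw [hr, if_pos rfl, Function.update_self]
  · rw [if_neg hr, Function.update_of_ne hr, Pi.zero_apply]

omit [Fintype F] in
theorem hElt_eq_prod {k k' : Fin n} (hkk' : k ≠ k') {t : F} (ht : t ≠ 0) :
    diagSL (hEltFun k k' t) (hEltFun_prod hkk' ht) =
      Matrix.SpecialLinearGroup.transvection hkk' t * Matrix.SpecialLinearGroup.transvection hkk'.symm (-t⁻¹) *
        Matrix.SpecialLinearGroup.transvection hkk' t * Matrix.SpecialLinearGroup.transvection hkk' (-1) *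
        Matrix.SpecialLinearGroup.transvection hkk'.symm 1 *
        Matrix.SpecialLinearGroup.transvection hkk' (-1) := by
  apply Subtype.ext
  rw [Matrix.ext_iff_mulVec]
  intro w
  simp only [Matrix.SpecialLinearGroup.coe_mul, ← Matrix.mulVec_mulVec, diagSL_coe]
  ext r
  rw [Matrix.mulVec_diagonal]
  simp only [tv_mulVec_apply]
  unfold hEltFun
  by_cases hr : r = k
  · subst hr
    simp only [if_true, if_neg hkk', if_neg hkk'.symm, add_zero]
    field_simp
    ring
  · by_cases hr' : r = k'
    · subst hr'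
      simp only [if_true, if_neg hkk', if_neg hkk'.symm, if_neg hr, add_zero]
      field_simp
      ring
    · simp only [if_neg hr, if_neg hr', add_zero, one_mul]

end SLnD


section SLnE

variable {n : ℕ} {F : Type u} [Field F] [Fintype F]

/-- the torus elements `h_k(t)` are good -/
theorem hElt_good (p : ℕ) [CharP F p] (hn : 3 ≤ n) (k k' : Fin n) (hk : (k' : ℕ) = (k : ℕ) + 1)
    {t : F} (ht : t ≠ 0) (hkk' : k ≠ k') :
    GoodElt p (UniS n F) (diagSL (hEltFun k k' t) (hEltFun_prod hkk' ht)) := by
  have hlt : k < k' := by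
    rw [Fin.lt_def, hk]
    exact Nat.lt_succ_self _
  refine ⟨fun y hy => diagSL_conj_mem_UniS _ _ hy, uniK k k' hk, fun s hs => hs.1,
    uniK_normal k k' hk, uniK_centralizer hn k k' hk, ?_⟩
  have hX : ∀ a : F, Matrix.SpecialLinearGroup.transvection hkk' a ∈
      Subgroup.closure {x : SLn n F | (∃ m : ℕ, x ^ p ^ m = 1) ∧
        ∀ y ∈ uniK (F := F) k k' hk, x * y * x⁻¹ ∈ uniK k k' hk} := by
    intro a
    refine Subgroup.subset_closure ⟨⟨1, ?_⟩, fun y hy => ?_⟩
    · rw [transvection_eq_tvS]
      exact tvS_pow_char p _ _ _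
    · exact uniK_normal k k' hk _ (transvection_mem_UniS hlt a) y hy
  have hY : ∀ a : F, Matrix.SpecialLinearGroup.transvection hkk'.symm a ∈
      Subgroup.closure {x : SLn n F | (∃ m : ℕ, x ^ p ^ m = 1) ∧
        ∀ y ∈ uniK (F := F) k k' hk, x * y * x⁻¹ ∈ uniK k k' hk} := by
    intro a
    refine Subgroup.subset_closure ⟨⟨1, ?_⟩, lower_conj_uniK k k' hk hkk'.symm a⟩
    rw [transvection_eq_tvS]
    exact tvS_pow_char p _ _ _
  rw [hElt_eq_prod hkk' ht]
  exact mul_mem (mul_mem (mul_mem (mul_mem (mul_mem (hX _) (hY _)) (hX _)) (hX _)) (hY _)) (hX _)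

/-- every diagonal element lies in the subgroup generated by `U` and the good elements -/
theorem diag_mem_closure (p : ℕ) [CharP F p] (hn : 3 ≤ n) :
    ∀ (m : ℕ) (d : Fin n → F) (hd : ∏ i, d i = 1), (∀ i : Fin n, (i : ℕ) + m + 1 < n → d i = 1) →
      diagSL d hd ∈ Subgroup.closure (((UniS n F : Subgroup (SLn n F)) : Set (SLn n F)) ∪
        {h | GoodElt p (UniS n F) h}) := by
  intro m
  induction m with
  | zero =>
    intro d hd h1
    obtain ⟨l, hl⟩ : ∃ l : Fin n, l = ⟨n - 1, by omega⟩ := ⟨_, rfl⟩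
    have hdl : ∀ i : Fin n, i ≠ l → d i = 1 := by
      intro i hi
      apply h1
      have : (i : ℕ) ≠ n - 1 := fun h => hi (by rw [hl]; exact Fin.ext h)
      have := i.2
      omega
    have hprod : ∏ i, d i = d l := by
      apply Finset.prod_eq_single l
      · intro j _ hj
        exact hdl j hj
      · intro h
        exact absurd (Finset.mem_univ _) h
    have hd1 : d = fun _ => 1 := by
      funext i
      by_cases hi : i = l
      · rw [hi, ← hprod, hd]
      · exact hdl i hi
    subst hd1
    have : diagSL (fun _ : Fin n => (1 : F)) hd = 1 := by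
      apply Subtype.ext
      rw [diagSL_coe, Matrix.SpecialLinearGroup.coe_one]
      exact Matrix.diagonal_one
    rw [this]
    exact one_mem _
  | succ m ih =>
    intro d hd h1
    by_cases hm : n ≤ m + 1
    · apply ih d hd
      intro i hi
      omega
    · push Not at hm
      obtain ⟨k, hk⟩ : ∃ k : Fin n, k = ⟨n - m - 2, by omega⟩ := ⟨_, rfl⟩
      obtain ⟨k', hk'⟩ : ∃ k' : Fin n, k' = ⟨n - m - 1, by omega⟩ := ⟨_, rfl⟩
      have hkv : (k : ℕ) = n - m - 2 := by rw [hk]
      have hk'v : (k' : ℕ) = n - m - 1 := by rw [hk']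
      have hkk'v : (k' : ℕ) = (k : ℕ) + 1 := by omega
      have hkk' : k ≠ k' := fun h => by rw [h] at hkk'v; omega
      have ht : d k ≠ 0 := diagSL_ne_zero d hd k
      obtain ⟨d', hd'⟩ : ∃ d' : Fin n → F,
          d' = fun i => if i = k then 1 else if i = k' then d k * d i else d i := ⟨_, rfl⟩
      have hd'i : ∀ i, d' i = if i = k then 1 else if i = k' then d k * d i else d i := by
        intro i
        rw [hd']
      have he : ∀ i, hEltFun k k' (d k) i * d' i = d i := by
        intro i
        rw [hd'i]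
        unfold hEltFun
        by_cases hi : i = k
        · rw [if_pos hi, if_pos hi, mul_one, hi]
        · by_cases hi' : i = k'
          · rw [if_neg hi, if_pos hi', if_neg hi, if_pos hi', ← mul_assoc, inv_mul_cancel₀ ht, one_mul]
          · rw [if_neg hi, if_neg hi', if_neg hi, if_neg hi', one_mul]
      have hprod' : ∏ i, d' i = 1 := by
        have h2 : ∏ i, (hEltFun k k' (d k) i * d' i) = 1 := by
          rw [← hd]
          exact Finset.prod_congr rfl (fun i _ => he i)
        rw [Finset.prod_mul_distrib, hEltFun_prod hkk' ht, one_mul] at h2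
        exact h2
      have hsplit : diagSL d hd = diagSL (hEltFun k k' (d k)) (hEltFun_prod hkk' ht) * diagSL d' hprod' := by
        apply Subtype.ext
        rw [Matrix.SpecialLinearGroup.coe_mul, diagSL_coe, diagSL_coe, diagSL_coe,
          Matrix.diagonal_mul_diagonal]
        congr 1
        funext i
        exact (he i).symm
      rw [hsplit]
      refine mul_mem (Subgroup.subset_closure (Or.inr (hElt_good p hn k k' hkk'v ht hkk'))) (ih d' hprod' ?_)
      intro i hi
      rw [hd'i]
      by_cases hik : i = k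
      · rw [if_pos hik]
      · have hik' : i ≠ k' := by
          intro h
          rw [h] at hi
          omega
        rw [if_neg hik, if_neg hik']
        apply h1
        have : (i : ℕ) ≠ (k : ℕ) := fun h => hik (Fin.ext h)
        omega

/-- `SL_n(F)`, `n ≥ 3`, satisfies the simplicity hypothesis at its unitriangular Sylow subgroup -/
theorem simpleHyp2_SL (p f : ℕ) [Fact p.Prime] [CharP F p] (hF : Fintype.card F = p ^ f) (hn : 3 ≤ n)
    (S : Sylow p (SLn n F)) (hS : (S : Subgroup (SLn n F)) = UniS n F) : SimpleHyp2 p S := by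
  unfold SimpleHyp2
  rw [hS]
  refine ⟨uniS_ne_bot (by omega), uniS_strongly_closed p f hF hn, fun g hg => ?_⟩
  obtain ⟨d, hd, hu⟩ := exists_diag_mul_uni g (upper_of_normalizes g hg)
  have hg2 : g = diagSL d hd * ((diagSL d hd)⁻¹ * g) := by group
  rw [hg2]
  refine mul_mem (diag_mem_closure p hn n d hd ?_) (Subgroup.subset_closure (Or.inl hu))
  intro i hi
  omega

end SLnE

end Cfsg.Agent.Helper88
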