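import Mathlib
import Cfsg.Agent.Helper64.UCDefs

/-! helper88: piece C1B of CALL S2100 (helper64) (double). -/

set_option autoImplicit false

namespace Cfsg.Agent.Helper88.STUC1B

open Cfsg Cfsg.Lie Cfsg.Agent.Helper36 Cfsg.Agent.Helper64.UC

variable {K : Type*} [Field K] {Γ : Type*} [Group Γ] {E : Type*} [Group E]

/-- PIECE C1B: the lifts of the elements of the root subgroup of `r = 2a + b` commute, when
`x_r` commutes with `x_a`, `x_b`, `x_{a+b}` (long roots of type `B₂`). -/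
theorem comm_self_spec {D : ChevalleyDatum} {x : ℕ → K → Γ} (G : GSys D x) (ψ : E →* Γ)
    (hc : ψ.ker ≤ Subgroup.center E) (y : ℕ → K → E)
    (hmap : ∀ r < D.nroots, ∀ t : K, ψ (y r t) = x r t)
    {r a b p : ℕ} {C1 C2 : ℤ} (hr : r < D.nroots) (hp : p < D.nroots) (hv : VP D a b)
    (hab : D.commTerms a b = [(p, C1, 1, 1), (r, C2, 2, 1)]) (hC2 : C2 = 1 ∨ C2 = -1)
    (ca : ∀ t u : K, y a u * y r t = y r t * y a u)
    (cb : ∀ t u : K, y b u * y r t = y r t * y b u)
    (cp : ∀ t u : K, y p u * y r t = y r t * y p u) (t u : K) :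
    Commute (y r t) (y r u) := by
  obtain ⟨ha, hb, hne1, hne2⟩ := hv
  obtain ⟨u0, hu0⟩ : ∃ u0 : K, (C2 : K) * (-1) ^ 2 * u0 ^ 1 = u := by
    rcases hC2 with h | h
    · exact ⟨u, by rw [h]; push_cast; ring⟩
    · exact ⟨-u, by rw [h]; push_cast; ring⟩
  have hcomm := G.comm a ha b hb hne1 hne2 1 u0
  have hw : sW x (D.commWord K a b 1 u0) = x p ((C1 : K) * (-1) ^ 1 * u0 ^ 1) * x r u := by
    unfold ChevalleyDatum.commWord
    rw [hab]
    simp only [List.map_cons, List.map_nil, sW_cons, sW_nil, mul_one]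
    rw [hu0]
  rw [hw] at hcomm
  obtain ⟨W, hW⟩ : ∃ W : E, W = (y a 1 * y b u0 * y p ((C1 : K) * (-1) ^ 1 * u0 ^ 1))⁻¹ *
      (y b u0 * y a 1) := ⟨_, rfl⟩
  have hψW : ψ W = x r u := by
    rw [hW, map_mul, map_inv, map_mul, map_mul, map_mul, hmap a ha, hmap b hb, hmap p hp, hcomm]
    group
  have hker : y r u * W⁻¹ ∈ ψ.ker := by
    rw [MonoidHom.mem_ker, map_mul, map_inv, hψW, hmap r hr, mul_inv_cancel]
  have hz := hc hker
  have hcW : Commute (y r t) W := by
    have h1 : Commute (y r t) (y a 1) := (ca t 1).symm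
    have h2 : Commute (y r t) (y b u0) := (cb t u0).symm
    have h3 : Commute (y r t) (y p ((C1 : K) * (-1) ^ 1 * u0 ^ 1)) := (cp t _).symm
    rw [hW]
    exact ((h1.mul_right h2).mul_right h3).inv_right.mul_right (h2.mul_right h1)
  have hzc : Commute (y r t) (y r u * W⁻¹) := Subgroup.mem_center_iff.1 hz (y r t)
  have hdec : y r u = (y r u * W⁻¹) * W := by group
  rw [hdec]
  exact hzc.mul_right hcW

end Cfsg.Agent.Helper88.STUC1B
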