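import Mathlib
import Cfsg.Agent.Helper64.UCDefs

/-! helper88: piece S4B of CALL S2100 (helper64) (double), with the abstract normal-form lemma
`core4b88` and the list lemma `commTerms_of_sig4_88`. -/

set_option autoImplicit false
set_option linter.unusedSimpArgs false
set_option linter.unusedSectionVars false

namespace Cfsg.Agent.Helper88.STUS4B

open Cfsg Cfsg.Lie Cfsg.Agent.Helper36 Cfsg.Agent.Helper64.UC

variable {K : Type*} [Field K] {E : Type*} [Group E]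

theorem norm_eq88 (A B1 B2 B3 Z : K → E) {a a' x1 x1' x2 x2' x3 x3' x4 x4' : K}
    (h0 : a = a') (h1 : x1 = x1') (h2 : x2 = x2') (h3 : x3 = x3') (h4 : x4 = x4') :
    A a * (B1 x1 * (B2 x2 * (B3 x3 * Z x4))) = A a' * (B1 x1' * (B2 x2' * (B3 x3' * Z x4'))) := by
  subst h0 h1 h2 h3 h4
  rfl

/-- the normal-form computation behind the shapes 4a / 4b -/
theorem core4b88 (A B1 B2 B3 Z : K → E)
    (hA : ∀ t u : K, A t * A u = A (t + u)) (hB1 : ∀ t u : K, B1 t * B1 u = B1 (t + u))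
    (hB2 : ∀ t u : K, B2 t * B2 u = B2 (t + u)) (hB3 : ∀ t u : K, B3 t * B3 u = B3 (t + u))
    (hZ : ∀ t u : K, Z t * Z u = Z (t + u)) (N M : K)
    (cN : ∀ t u : K, B3 u * A t = A t * B3 u * Z (N * (-t) * u))
    (cM : ∀ t u : K, B2 u * B1 t = B1 t * B2 u * Z (M * (-t) * u))
    (c1 : ∀ t u : K, B1 u * A t = A t * B1 u)
    (c2 : ∀ t u : K, B2 u * A t = A t * B2 u)
    (c4 : ∀ t u : K, Z u * A t = A t * Z u)
    (c13 : ∀ t u : K, B3 u * B1 t = B1 t * B3 u)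
    (c14 : ∀ t u : K, Z u * B1 t = B1 t * Z u)
    (c23 : ∀ t u : K, B3 u * B2 t = B2 t * B3 u)
    (c24 : ∀ t u : K, Z u * B2 t = B2 t * Z u)
    (c34 : ∀ t u : K, Z u * B3 t = B3 t * Z u)
    (t t' a1 a2 a3 a4 a1' a2' a3' a4' a4'' : K) :
    ∃ P : K, A t * (Z (-a4) * B3 (-a3) * B2 (-a2) * B1 (-a1)) *
        (A t' * (Z (-a4') * B3 (-a3') * B2 (-a2') * B1 (-a1'))) =
      A (t + t') * (Z (-a4'') * B3 (-(a3 + a3')) * B2 (-(a2 + a2')) * B1 (-(a1 + a1'))) * Z P := by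
  have hA' : ∀ (t u : K) (w : E), A t * (A u * w) = A (t + u) * w := fun t u w => by
    rw [← mul_assoc, hA]
  have hB1' : ∀ (t u : K) (w : E), B1 t * (B1 u * w) = B1 (t + u) * w := fun t u w => by
    rw [← mul_assoc, hB1]
  have hB2' : ∀ (t u : K) (w : E), B2 t * (B2 u * w) = B2 (t + u) * w := fun t u w => by
    rw [← mul_assoc, hB2]
  have hB3' : ∀ (t u : K) (w : E), B3 t * (B3 u * w) = B3 (t + u) * w := fun t u w => by
    rw [← mul_assoc, hB3]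
  have hZ' : ∀ (t u : K) (w : E), Z t * (Z u * w) = Z (t + u) * w := fun t u w => by
    rw [← mul_assoc, hZ]
  have cN' : ∀ (t u : K) (w : E), B3 u * (A t * w) = A t * (B3 u * (Z (N * (-t) * u) * w)) :=
    fun t u w => by rw [← mul_assoc, cN, mul_assoc, mul_assoc]
  have cM' : ∀ (t u : K) (w : E), B2 u * (B1 t * w) = B1 t * (B2 u * (Z (M * (-t) * u) * w)) :=
    fun t u w => by rw [← mul_assoc, cM, mul_assoc, mul_assoc]
  have c1' : ∀ (t u : K) (w : E), B1 u * (A t * w) = A t * (B1 u * w) := fun t u w => by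
    rw [← mul_assoc, c1, mul_assoc]
  have c2' : ∀ (t u : K) (w : E), B2 u * (A t * w) = A t * (B2 u * w) := fun t u w => by
    rw [← mul_assoc, c2, mul_assoc]
  have c4' : ∀ (t u : K) (w : E), Z u * (A t * w) = A t * (Z u * w) := fun t u w => by
    rw [← mul_assoc, c4, mul_assoc]
  have c13' : ∀ (t u : K) (w : E), B3 u * (B1 t * w) = B1 t * (B3 u * w) := fun t u w => by
    rw [← mul_assoc, c13, mul_assoc]
  have c14' : ∀ (t u : K) (w : E), Z u * (B1 t * w) = B1 t * (Z u * w) := fun t u w => by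
    rw [← mul_assoc, c14, mul_assoc]
  have c23' : ∀ (t u : K) (w : E), B3 u * (B2 t * w) = B2 t * (B3 u * w) := fun t u w => by
    rw [← mul_assoc, c23, mul_assoc]
  have c24' : ∀ (t u : K) (w : E), Z u * (B2 t * w) = B2 t * (Z u * w) := fun t u w => by
    rw [← mul_assoc, c24, mul_assoc]
  have c34' : ∀ (t u : K) (w : E), Z u * (B3 t * w) = B3 t * (Z u * w) := fun t u w => by
    rw [← mul_assoc, c34, mul_assoc]
  refine ⟨a4'' - a4 - a4' + N * t' * a3 + M * a1 * a2', ?_⟩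
  simp only [mul_assoc, cN, cM, c1, c2, c4, c13, c14, c23, c24, c34, cN', cM', c1', c2', c4',
    c13', c14', c23', c24', c34', hA, hB1, hB2, hB3, hZ, hA', hB1', hB2', hB3', hZ']
  apply norm_eq88 <;> ring


theorem commTerms_of_sig4_88 (l : List (ℕ × ℤ × ℕ × ℕ)) (k1 k2 k3 k4 i1 j1 i2 j2 i3 j3 i4 j4 : ℕ)
    (h : l.map (fun c => (c.1, c.2.2.1, c.2.2.2)) =
      [(k1, i1, j1), (k2, i2, j2), (k3, i3, j3), (k4, i4, j4)]) :
    ∃ C1 C2 C3 C4 : ℤ, l = [(k1, C1, i1, j1), (k2, C2, i2, j2), (k3, C3, i3, j3), (k4, C4, i4, j4)] := by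
  obtain ⟨c1, l1, rfl, h1, h⟩ := List.map_eq_cons_iff.1 h
  obtain ⟨c2, l2, rfl, h2, h⟩ := List.map_eq_cons_iff.1 h
  obtain ⟨c3, l3, rfl, h3, h⟩ := List.map_eq_cons_iff.1 h
  obtain ⟨c4, l4, rfl, h4, h⟩ := List.map_eq_cons_iff.1 h
  rw [List.map_eq_nil_iff] at h
  subst h
  obtain ⟨a1, C1, b1, d1⟩ := c1
  obtain ⟨a2, C2, b2, d2⟩ := c2
  obtain ⟨a3, C3, b3, d3⟩ := c3
  obtain ⟨a4, C4, b4, d4⟩ := c4
  simp only [Prod.mk.injEq] at h1 h2 h3 h4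
  obtain ⟨rfl, rfl, rfl⟩ := h1
  obtain ⟨rfl, rfl, rfl⟩ := h2
  obtain ⟨rfl, rfl, rfl⟩ := h3
  obtain ⟨rfl, rfl, rfl⟩ := h4
  exact ⟨C1, C2, C3, C4, rfl⟩

theorem y_zero88 (y : ℕ → K → E) (hy : ∀ (r : ℕ) (t u : K), y r t * y r u = y r (t + u)) (k : ℕ) :
    y k 0 = 1 := by
  have h := hy k 0 0
  rw [add_zero] at h
  exact mul_left_cancel (h.trans (mul_one _).symm)

theorem y_inv88 (y : ℕ → K → E) (hy : ∀ (r : ℕ) (t u : K), y r t * y r u = y r (t + u)) (k : ℕ)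
    (a : K) : (y k a)⁻¹ = y k (-a) :=
  inv_eq_of_mul_eq_one_right (by rw [hy, add_neg_cancel, y_zero88 y hy])

/-- PIECE S4B: terms `(k₁; 1, 1), (k₂; 1, 2), (k₃; 1, 3), (k₄; 2, 3)` (`t` version). -/
theorem s4b_res (D : ChevalleyDatum) (y : ℕ → K → E)
    (hy : ∀ (r : ℕ) (t u : K), y r t * y r u = y r (t + u)) {r s k1 k2 k3 k4 : ℕ}
    (hsig : sig D r s = [(k1, 1, 1), (k2, 1, 2), (k3, 1, 3), (k4, 2, 3)]) (N M : K)
    (cN : ∀ t u : K, y k3 u * y r t = y r t * y k3 u * y k4 (N * (-t) * u))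
    (cM : ∀ t u : K, y k2 u * y k1 t = y k1 t * y k2 u * y k4 (M * (-t) * u))
    (c1 : ∀ t u : K, y k1 u * y r t = y r t * y k1 u)
    (c2 : ∀ t u : K, y k2 u * y r t = y r t * y k2 u)
    (c4 : ∀ t u : K, y k4 u * y r t = y r t * y k4 u)
    (c13 : ∀ t u : K, y k3 u * y k1 t = y k1 t * y k3 u)
    (c14 : ∀ t u : K, y k4 u * y k1 t = y k1 t * y k4 u)
    (c23 : ∀ t u : K, y k3 u * y k2 t = y k2 t * y k3 u)
    (c24 : ∀ t u : K, y k4 u * y k2 t = y k2 t * y k4 u)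
    (c34 : ∀ t u : K, y k4 u * y k3 t = y k3 t * y k4 u) :
    ∀ t t' u : K, ∃ P : K, y r t * (sW y (D.commWord K r s t u))⁻¹ *
        (y r t' * (sW y (D.commWord K r s t' u))⁻¹) =
      y r (t + t') * (sW y (D.commWord K r s (t + t') u))⁻¹ * y k4 P := by
  intro t t' u
  unfold sig at hsig
  obtain ⟨C1, C2, C3, C4, hct⟩ := commTerms_of_sig4_88 _ _ _ _ _ _ _ _ _ _ _ _ _ hsig
  have hw : ∀ t : K, (sW y (D.commWord K r s t u))⁻¹ =
      y k4 (-((C4 : K) * (-t) ^ 2 * u ^ 3)) * y k3 (-((C3 : K) * (-t) ^ 1 * u ^ 3)) *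
        y k2 (-((C2 : K) * (-t) ^ 1 * u ^ 2)) * y k1 (-((C1 : K) * (-t) ^ 1 * u ^ 1)) := by
    intro t
    unfold ChevalleyDatum.commWord
    rw [hct]
    simp only [List.map_cons, List.map_nil, sW_cons, sW_nil, mul_one, mul_inv_rev, y_inv88 y hy]
  rw [hw t, hw t', hw (t + t')]
  have e1 : (C1 : K) * (-(t + t')) ^ 1 * u ^ 1 = C1 * (-t) ^ 1 * u ^ 1 + C1 * (-t') ^ 1 * u ^ 1 := by
    ring
  have e2 : (C2 : K) * (-(t + t')) ^ 1 * u ^ 2 = C2 * (-t) ^ 1 * u ^ 2 + C2 * (-t') ^ 1 * u ^ 2 := by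
    ring
  have e3 : (C3 : K) * (-(t + t')) ^ 1 * u ^ 3 = C3 * (-t) ^ 1 * u ^ 3 + C3 * (-t') ^ 1 * u ^ 3 := by
    ring
  rw [e1, e2, e3]
  exact core4b88 (y r) (y k1) (y k2) (y k3) (y k4) (hy r) (hy k1) (hy k2) (hy k3) (hy k4) N M
    cN cM c1 c2 c4 c13 c14 c23 c24 c34 t t' _ _ _ _ _ _ _ _ _

end Cfsg.Agent.Helper88.STUS4B
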