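import Mathlib
import Cfsg.Agent.Helper64.UCDefs
import Cfsg.Agent.Helper88.STUS4B

/-! helper88: piece S3 of CALL S2100 (helper64) (double). -/

set_option autoImplicit false
set_option linter.unusedSimpArgs false
set_option linter.unusedSectionVars false

namespace Cfsg.Agent.Helper88.STUS3

open Cfsg Cfsg.Lie Cfsg.Agent.Helper36 Cfsg.Agent.Helper64.UC Cfsg.Agent.Helper88.STUS4B

variable {K : Type*} [Field K] {E : Type*} [Group E]

theorem norm_eq3_88 (A B1 B2 Z : K → E) {a a' x1 x1' x2 x2' x4 x4' : K}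
    (h0 : a = a') (h1 : x1 = x1') (h2 : x2 = x2') (h4 : x4 = x4') :
    A a * (B1 x1 * (B2 x2 * Z x4)) = A a' * (B1 x1' * (B2 x2' * Z x4')) := by
  subst h0 h1 h2 h4
  rfl

theorem commTerms_of_sig3_88 (l : List (ℕ × ℤ × ℕ × ℕ)) (k1 k2 k3 i1 j1 i2 j2 i3 j3 : ℕ)
    (h : l.map (fun c => (c.1, c.2.2.1, c.2.2.2)) = [(k1, i1, j1), (k2, i2, j2), (k3, i3, j3)]) :
    ∃ C1 C2 C3 : ℤ, l = [(k1, C1, i1, j1), (k2, C2, i2, j2), (k3, C3, i3, j3)] := by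
  obtain ⟨c1, l1, rfl, h1, h⟩ := List.map_eq_cons_iff.1 h
  obtain ⟨c2, l2, rfl, h2, h⟩ := List.map_eq_cons_iff.1 h
  obtain ⟨c3, l3, rfl, h3, h⟩ := List.map_eq_cons_iff.1 h
  rw [List.map_eq_nil_iff] at h
  subst h
  obtain ⟨a1, C1, b1, d1⟩ := c1
  obtain ⟨a2, C2, b2, d2⟩ := c2
  obtain ⟨a3, C3, b3, d3⟩ := c3
  simp only [Prod.mk.injEq] at h1 h2 h3
  obtain ⟨rfl, rfl, rfl⟩ := h1
  obtain ⟨rfl, rfl, rfl⟩ := h2
  obtain ⟨rfl, rfl, rfl⟩ := h3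
  exact ⟨C1, C2, C3, rfl⟩

/-- the normal-form computation behind the shape 3 -/
theorem core3_88 (A B1 B2 Z : K → E)
    (hA : ∀ t u : K, A t * A u = A (t + u)) (hB1 : ∀ t u : K, B1 t * B1 u = B1 (t + u))
    (hB2 : ∀ t u : K, B2 t * B2 u = B2 (t + u))
    (hZ : ∀ t u : K, Z t * Z u = Z (t + u)) (N : K)
    (c1 : ∀ t u : K, B1 u * A t = A t * B1 u * Z (N * (-t) * u))
    (c2 : ∀ t u : K, B2 u * A t = A t * B2 u)
    (c3 : ∀ t u : K, Z u * A t = A t * Z u)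
    (c4 : ∀ t u : K, B2 u * B1 t = B1 t * B2 u)
    (c5 : ∀ t u : K, Z u * B1 t = B1 t * Z u)
    (c6 : ∀ t u : K, Z u * B2 t = B2 t * Z u)
    (t t' a1 a2 a3 a1' a2' a3' a3'' : K) :
    ∃ P : K, A t * (B1 a1 * (B2 a2 * Z a3)) * (A t' * (B1 a1' * (B2 a2' * Z a3'))) =
      A (t + t') * (B1 (a1 + a1') * (B2 (a2 + a2') * Z a3'')) * Z P := by
  have hA' : ∀ (t u : K) (w : E), A t * (A u * w) = A (t + u) * w := fun t u w => by
    rw [← mul_assoc, hA]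
  have hB1' : ∀ (t u : K) (w : E), B1 t * (B1 u * w) = B1 (t + u) * w := fun t u w => by
    rw [← mul_assoc, hB1]
  have hB2' : ∀ (t u : K) (w : E), B2 t * (B2 u * w) = B2 (t + u) * w := fun t u w => by
    rw [← mul_assoc, hB2]
  have hZ' : ∀ (t u : K) (w : E), Z t * (Z u * w) = Z (t + u) * w := fun t u w => by
    rw [← mul_assoc, hZ]
  have c1' : ∀ (t u : K) (w : E), B1 u * (A t * w) = A t * (B1 u * (Z (N * (-t) * u) * w)) :=
    fun t u w => by rw [← mul_assoc, c1, mul_assoc, mul_assoc]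
  have c2' : ∀ (t u : K) (w : E), B2 u * (A t * w) = A t * (B2 u * w) := fun t u w => by
    rw [← mul_assoc, c2, mul_assoc]
  have c3' : ∀ (t u : K) (w : E), Z u * (A t * w) = A t * (Z u * w) := fun t u w => by
    rw [← mul_assoc, c3, mul_assoc]
  have c4' : ∀ (t u : K) (w : E), B2 u * (B1 t * w) = B1 t * (B2 u * w) := fun t u w => by
    rw [← mul_assoc, c4, mul_assoc]
  have c5' : ∀ (t u : K) (w : E), Z u * (B1 t * w) = B1 t * (Z u * w) := fun t u w => by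
    rw [← mul_assoc, c5, mul_assoc]
  have c6' : ∀ (t u : K) (w : E), Z u * (B2 t * w) = B2 t * (Z u * w) := fun t u w => by
    rw [← mul_assoc, c6, mul_assoc]
  refine ⟨a3 + a3' - a3'' - N * t' * a1, ?_⟩
  simp only [mul_assoc, c1, c2, c3, c4, c5, c6, c1', c2', c3', c4', c5', c6',
    hA, hB1, hB2, hZ, hA', hB1', hB2', hZ']
  apply norm_eq3_88 <;> ring

/-- PIECE S3: terms `(k₁; 1, 1), (k₂; 2, 1), (k₃; 1, 2)` with `[x_s, x_{k₁}] ⊆ x_{k₃}`. -/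
theorem s3_res (D : ChevalleyDatum) (y : ℕ → K → E)
    (hy : ∀ (r : ℕ) (t u : K), y r t * y r u = y r (t + u)) {r s k1 k2 k3 : ℕ}
    (hsig : sig D r s = [(k1, 1, 1), (k2, 2, 1), (k3, 1, 2)]) (N : K)
    (c1 : ∀ t u : K, y k1 u * y s t = y s t * y k1 u * y k3 (N * (-t) * u))
    (c2 : ∀ t u : K, y k2 u * y s t = y s t * y k2 u)
    (c3 : ∀ t u : K, y k3 u * y s t = y s t * y k3 u)
    (c4 : ∀ t u : K, y k2 u * y k1 t = y k1 t * y k2 u)
    (c5 : ∀ t u : K, y k3 u * y k1 t = y k1 t * y k3 u)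
    (c6 : ∀ t u : K, y k3 u * y k2 t = y k2 t * y k3 u) :
    ∀ t u u' : K, ∃ P : K, y s u * sW y (D.commWord K r s t u) *
        (y s u' * sW y (D.commWord K r s t u')) =
      y s (u + u') * sW y (D.commWord K r s t (u + u')) * y k3 P := by
  intro t u u'
  unfold sig at hsig
  obtain ⟨C1, C2, C3, hct⟩ := commTerms_of_sig3_88 _ _ _ _ _ _ _ _ _ _ hsig
  have hw : ∀ u : K, sW y (D.commWord K r s t u) =
      y k1 ((C1 : K) * (-t) ^ 1 * u ^ 1) * (y k2 ((C2 : K) * (-t) ^ 2 * u ^ 1) *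
        y k3 ((C3 : K) * (-t) ^ 1 * u ^ 2)) := by
    intro u
    unfold ChevalleyDatum.commWord
    rw [hct]
    simp only [List.map_cons, List.map_nil, sW_cons, sW_nil, mul_one]
  rw [hw u, hw u', hw (u + u')]
  have e1 : (C1 : K) * (-t) ^ 1 * (u + u') ^ 1 = C1 * (-t) ^ 1 * u ^ 1 + C1 * (-t) ^ 1 * u' ^ 1 := by
    ring
  have e2 : (C2 : K) * (-t) ^ 2 * (u + u') ^ 1 = C2 * (-t) ^ 2 * u ^ 1 + C2 * (-t) ^ 2 * u' ^ 1 := by
    ring
  rw [e1, e2]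
  exact core3_88 (y s) (y k1) (y k2) (y k3) (hy s) (hy k1) (hy k2) (hy k3) N
    c1 c2 c3 c4 c5 c6 u u' _ _ _ _ _ _ _

end Cfsg.Agent.Helper88.STUS3
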