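-- helper88 library: PIECE E2c of the S5778 call (helper64): in SU_3(3) the intersection with a
-- subfield group over the field of three elements, in a unitary position, is never maximal
-- (it lies in the stabiliser of an orthonormal frame, which contains more).
import Cfsg.Agent.Helper97.UPrimeDim
import Cfsg.Agent.Helper97.SFBasic
import Cfsg.Agent.Helper64.SU3Data9

set_option autoImplicit false
set_option maxRecDepth 100000
open Cfsg Cfsg.Geo Matrix
open Cfsg.Agent.Helper97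

namespace Cfsg.Agent.Helper88

open Cfsg.Agent.Helper64.SU3

variable {F : Type*} [Field F]

/-- Elements of the subfield with three elements are fixed by cubing. -/
theorem e2c_cube [Fintype F] (hF : Fintype.card F = 3 ^ 2) (F₀ : Subfield F)
    (hcard : Fintype.card F = Nat.card F₀ ^ 2) (y : F) (hy : y ∈ F₀) : y ^ 3 = y := by
  have h3 : Nat.card F₀ = 3 := by
    have h : Nat.card F₀ ^ 2 = 3 ^ 2 := by rw [← hcard, hF]
    exact Nat.pow_left_injective (by norm_num) h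
  have : Fintype F₀ := Fintype.ofFinite _
  have h := FiniteField.pow_card (⟨y, hy⟩ : F₀)
  rw [← Nat.card_eq_fintype_card, h3] at h
  exact congrArg Subtype.val h

theorem e2c_zero_or_sq {F₀ : Subfield F} (hcube : ∀ y ∈ F₀, y ^ 3 = y) (y : F) (hy : y ∈ F₀) :
    y = 0 ∨ y ^ 2 = 1 := by
  have h := hcube y hy
  by_cases h0 : y = 0
  · exact Or.inl h0
  · right
    have h1 : y * (y ^ 2 - 1) = 0 := by linear_combination h
    rcases mul_eq_zero.mp h1 with h2 | h2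
    · exact absurd h2 h0
    · linear_combination h2

/-- A vector of norm one over the field with three elements has exactly one non-zero entry. -/
theorem e2c_column (h3 : (3 : F) = 0) (a b c : F) (ha : a = 0 ∨ a ^ 2 = 1)
    (hb : b = 0 ∨ b ^ 2 = 1) (hc : c = 0 ∨ c ^ 2 = 1) (hs : a ^ 2 + b ^ 2 + c ^ 2 = 1) :
    (b = 0 ∧ c = 0) ∨ (a = 0 ∧ c = 0) ∨ (a = 0 ∧ b = 0) := by
  rcases ha with ha | ha <;> rcases hb with hb | hb <;> rcases hc with hc | hc <;>
  first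
  | exact Or.inl ⟨hb, hc⟩
  | exact Or.inr (Or.inl ⟨ha, hc⟩)
  | exact Or.inr (Or.inr ⟨ha, hb⟩)
  | (exfalso
     rw [ha, hb, hc] at hs
     apply one_ne_zero (α := F)
     first
     | linear_combination -hs
     | linear_combination hs
     | linear_combination h3 - hs)

theorem e2c_mulVec_inj (y : GL (Fin 3) F) {u v : Fin 3 → F}
    (h : (y : Matrix (Fin 3) (Fin 3) F) *ᵥ u = (y : Matrix (Fin 3) (Fin 3) F) *ᵥ v) : u = v := by
  have h2 := congrArg (fun w => ((y⁻¹ : GL (Fin 3) F) : Matrix (Fin 3) (Fin 3) F) *ᵥ w) h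
  simp only [Matrix.mulVec_mulVec, ← Units.val_mul, inv_mul_cancel, Units.val_one,
    Matrix.one_mulVec] at h2
  exact h2

/-- A unitary matrix that is a scalar multiple of a matrix over the field with three elements
has at most one non-zero entry in each column. -/
theorem e2c_monomial {σ : F ≃+* F} (hσ : IsSigma 3 σ)
    (F₀ : Subfield F) (hcube : ∀ y ∈ F₀, y ^ 3 = y) (h3 : (3 : F) = 0)
    (y : GL (Fin 3) F) (hy : y ∈ GU 3 F 3) (c : F) (hc : c ≠ 0)
    (hB : ∀ i j, c * (y : Matrix (Fin 3) (Fin 3) F) i j ∈ F₀) :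
    ∀ j, ∃ i, ∀ k, k ≠ i → (y : Matrix (Fin 3) (Fin 3) F) k j = 0 := by
  obtain ⟨B, hBdef⟩ : ∃ B : Matrix (Fin 3) (Fin 3) F,
      B = c • (y : Matrix (Fin 3) (Fin 3) F) := ⟨_, rfl⟩
  have hBmem : ∀ i j, B i j ∈ F₀ := by
    intro i j
    rw [hBdef]
    exact hB i j
  have hyB : (y : Matrix (Fin 3) (Fin 3) F) = c⁻¹ • B := by
    rw [hBdef, smul_smul, inv_mul_cancel₀ hc, one_smul]
  have hU := hσ.GU_matrix y hy
  have hBσ : B.map σ = B := by
    ext i j
    rw [Matrix.map_apply, hσ.pow, hcube _ (hBmem i j)]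
  have hBB : Bᵀ * B = (c * σ c) • (1 : Matrix (Fin 3) (Fin 3) F) := by
    have e1 : B.map σ = σ c • (y : Matrix (Fin 3) (Fin 3) F).map σ := by
      rw [hBdef]
      ext i j
      simp [Matrix.map_apply]
    have e2 : Bᵀ = c • (y : Matrix (Fin 3) (Fin 3) F)ᵀ := by rw [hBdef, Matrix.transpose_smul]
    calc Bᵀ * B = Bᵀ * B.map σ := by rw [hBσ]
      _ = (c • (y : Matrix (Fin 3) (Fin 3) F)ᵀ) * (σ c • (y : Matrix (Fin 3) (Fin 3) F).map σ) := by
          rw [e2, e1]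
      _ = (c * σ c) • ((y : Matrix (Fin 3) (Fin 3) F)ᵀ * (y : Matrix (Fin 3) (Fin 3) F).map σ) := by
          rw [Matrix.smul_mul, Matrix.mul_smul, smul_smul]
      _ = _ := by rw [hU]
  obtain ⟨ν, hν⟩ : ∃ ν : F, ν = c * σ c := ⟨_, rfl⟩
  rw [← hν] at hBB
  have hν0 : ν ≠ 0 := by
    rw [hν]
    exact mul_ne_zero hc ((map_ne_zero σ).mpr hc)
  have hcol : ∀ j, B 0 j ^ 2 + B 1 j ^ 2 + B 2 j ^ 2 = ν := by
    intro j
    have h := congrFun (congrFun hBB j) j
    rw [Matrix.mul_apply, Fin.sum_univ_three, Matrix.smul_apply, Matrix.one_apply_eq, smul_eq_mul,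
      mul_one] at h
    simp only [Matrix.transpose_apply] at h
    linear_combination h
  have hνmem : ν ∈ F₀ := by
    rw [← hcol 0]
    exact add_mem (add_mem (pow_mem (hBmem 0 0) 2) (pow_mem (hBmem 1 0) 2)) (pow_mem (hBmem 2 0) 2)
  have hdetmem : B.det ∈ F₀ := by
    rw [Matrix.det_fin_three]
    have m := fun i j => hBmem i j
    exact sub_mem (add_mem (add_mem (sub_mem (sub_mem (mul_mem (mul_mem (m 0 0) (m 1 1)) (m 2 2))
      (mul_mem (mul_mem (m 0 0) (m 1 2)) (m 2 1))) (mul_mem (mul_mem (m 0 1) (m 1 0)) (m 2 2)))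
      (mul_mem (mul_mem (m 0 1) (m 1 2)) (m 2 0))) (mul_mem (mul_mem (m 0 2) (m 1 0)) (m 2 1)))
      (mul_mem (mul_mem (m 0 2) (m 1 1)) (m 2 0))
  have hdet : B.det ^ 2 = ν := by
    have h := congrArg Matrix.det hBB
    rw [Matrix.det_mul, Matrix.det_transpose, Matrix.det_smul, Matrix.det_one, Fintype.card_fin,
      mul_one, hcube ν hνmem] at h
    rw [← h, sq]
  have hν1 : ν = 1 := by
    rcases e2c_zero_or_sq hcube _ hdetmem with h | h
    · rw [h] at hdet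
      exact absurd hdet.symm (by simpa using hν0)
    · rw [← hdet, h]
  have hk : ∀ k j, B k j = 0 → (y : Matrix (Fin 3) (Fin 3) F) k j = 0 := by
    intro k j h
    rw [hyB, Matrix.smul_apply, h, smul_zero]
  intro j
  have hz := fun i => e2c_zero_or_sq hcube _ (hBmem i j)
  rcases e2c_column h3 _ _ _ (hz 0) (hz 1) (hz 2) (by rw [hcol j, hν1]) with h | h | h
  · refine ⟨0, fun k hk0 => hk k j ?_⟩
    fin_cases k
    · exact absurd rfl hk0
    · exact h.1
    · exact h.2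
  · refine ⟨1, fun k hk0 => hk k j ?_⟩
    fin_cases k
    · exact h.1
    · exact absurd rfl hk0
    · exact h.2
  · refine ⟨2, fun k hk0 => hk k j ?_⟩
    fin_cases k
    · exact h.1
    · exact h.2
    · exact absurd rfl hk0

/-- An invertible matrix whose columns have at most one non-zero entry permutes the coordinate
axes. -/
theorem e2c_perm (y : GL (Fin 3) F)
    (hcol : ∀ j, ∃ i, ∀ k, k ≠ i → (y : Matrix (Fin 3) (Fin 3) F) k j = 0) :
    ∃ (π : Equiv.Perm (Fin 3)) (a : Fin 3 → F), (∀ j, a j ≠ 0) ∧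
      ∀ j, (y : Matrix (Fin 3) (Fin 3) F) *ᵥ Pi.single j 1 = a j • Pi.single (π j) 1 := by
  classical
  choose f hf using hcol
  have hmv : ∀ j, (y : Matrix (Fin 3) (Fin 3) F) *ᵥ Pi.single j 1
      = (y : Matrix (Fin 3) (Fin 3) F) (f j) j • Pi.single (f j) 1 := by
    intro j
    funext k
    rw [Matrix.mulVec_single_one, Matrix.col_apply, Pi.smul_apply, Pi.single_apply, smul_eq_mul]
    by_cases hk : k = f j
    · rw [if_pos hk, mul_one, hk]
    · rw [if_neg hk, mul_zero]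
      exact hf j k hk
  have hne : ∀ j, (y : Matrix (Fin 3) (Fin 3) F) (f j) j ≠ 0 := by
    intro j h0
    have h1 := hmv j
    rw [h0, zero_smul, ← Matrix.mulVec_zero (y : Matrix (Fin 3) (Fin 3) F)] at h1
    have h3 := congrFun (e2c_mulVec_inj y h1) j
    rw [Pi.single_eq_same, Pi.zero_apply] at h3
    exact one_ne_zero h3
  have hinj : Function.Injective f := by
    intro j k hjk
    by_contra hne'
    have h1 : (y : Matrix (Fin 3) (Fin 3) F) *ᵥ
        ((y : Matrix (Fin 3) (Fin 3) F) (f k) k • Pi.single j 1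
          - (y : Matrix (Fin 3) (Fin 3) F) (f j) j • Pi.single k 1)
        = (y : Matrix (Fin 3) (Fin 3) F) *ᵥ 0 := by
      rw [Matrix.mulVec_sub, Matrix.mulVec_smul, Matrix.mulVec_smul, hmv j, hmv k, hjk, smul_smul,
        smul_smul, mul_comm, sub_self, Matrix.mulVec_zero]
    have h3 := congrFun (e2c_mulVec_inj y h1) j
    simp only [Pi.sub_apply, Pi.smul_apply, Pi.single_eq_same, Pi.single_apply, smul_eq_mul,
      mul_one, if_neg hne', mul_zero, sub_zero, Pi.zero_apply] at h3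
    exact hne k h3
  exact ⟨Equiv.ofBijective f (Finite.injective_iff_bijective.mp hinj),
    fun j => (y : Matrix (Fin 3) (Fin 3) F) (f j) j, hne, hmv⟩

/-- The frame formed by the columns of `P`. -/
def e2cFrame (P : GL (Fin 3) F) (j : Fin 3) : Submodule F (Fin 3 → F) :=
  Submodule.span F {(P : Matrix (Fin 3) (Fin 3) F) *ᵥ Pi.single j 1}

theorem e2c_mem_stab (P g : GL (Fin 3) F) (π : Equiv.Perm (Fin 3)) (a : Fin 3 → F)
    (ha : ∀ j, a j ≠ 0)
    (h : ∀ j, (g : Matrix (Fin 3) (Fin 3) F) *ᵥ ((P : Matrix (Fin 3) (Fin 3) F) *ᵥ Pi.single j 1)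
      = a j • ((P : Matrix (Fin 3) (Fin 3) F) *ᵥ Pi.single (π j) 1)) :
    g ∈ decompositionStabilizer (e2cFrame P) := by
  refine ⟨π, fun j => ?_⟩
  rw [e2cFrame, Submodule.map_span, Set.image_singleton, Matrix.toLin'_apply, h j]
  exact Submodule.span_singleton_smul_eq (IsUnit.mk0 _ (ha j)) _

theorem e2c_of_mem_stab (P g : GL (Fin 3) F) (hg : g ∈ decompositionStabilizer (e2cFrame P))
    (j : Fin 3) :
    ∃ (i : Fin 3) (a : F),
      (g : Matrix (Fin 3) (Fin 3) F) *ᵥ ((P : Matrix (Fin 3) (Fin 3) F) *ᵥ Pi.single j 1)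
        = a • ((P : Matrix (Fin 3) (Fin 3) F) *ᵥ Pi.single i 1) := by
  obtain ⟨π, hπ⟩ := hg
  have h1 : (g : Matrix (Fin 3) (Fin 3) F) *ᵥ ((P : Matrix (Fin 3) (Fin 3) F) *ᵥ Pi.single j 1)
      ∈ e2cFrame P (π j) := by
    rw [← hπ j]
    refine Submodule.mem_map.mpr ⟨_, Submodule.mem_span_singleton_self _, ?_⟩
    rw [Matrix.toLin'_apply]
  obtain ⟨a, ha⟩ := Submodule.mem_span_singleton.mp h1
  exact ⟨π j, a, ha.symm⟩

/-! ### Explicit elements -/

def e2cZ : Matrix (Fin 3) (Fin 3) K9 :=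
  !![⟨0, 1⟩, ⟨0, 0⟩, ⟨0, 0⟩; ⟨0, 0⟩, ⟨0, 2⟩, ⟨0, 0⟩; ⟨0, 0⟩, ⟨0, 0⟩, ⟨1, 0⟩]

def e2cZi : Matrix (Fin 3) (Fin 3) K9 :=
  !![⟨0, 2⟩, ⟨0, 0⟩, ⟨0, 0⟩; ⟨0, 0⟩, ⟨0, 1⟩, ⟨0, 0⟩; ⟨0, 0⟩, ⟨0, 0⟩, ⟨1, 0⟩]

theorem e2cZ_inv : e2cZi * e2cZ = 1 := by decide

theorem e2cZ_unitary : e2cZ.transpose * e2cZ.map (fun x => x ^ 3) = 1 := by decide

theorem e2cZ_det : e2cZ.det = 1 := by decide

theorem e2cZ_eq_diag : e2cZ = Matrix.diagonal ![⟨0, 1⟩, ⟨0, 2⟩, ⟨1, 0⟩] := by decide

theorem e2cZ_diag (k j : Fin 3) (h : k ≠ j) : e2cZ k j = 0 := by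
  rw [e2cZ_eq_diag]
  exact Matrix.diagonal_apply_ne _ h

theorem e2cZ_ne : ∀ j : Fin 3, e2cZ j j ≠ 0 := by decide

theorem e2cZ_00 : (e2cZ 0 0) ^ 3 ≠ e2cZ 0 0 := by decide

theorem e2cZ_22 : e2cZ 2 2 = 1 := by decide

theorem e2c_x9_10 : D9.x9 1 0 ≠ 0 := by decide

theorem e2c_x9_20 : D9.x9 2 0 ≠ 0 := by decide

theorem e2c_three_K9 : (3 : K9) = 0 := by decide

theorem e2c_su3GL_col (ψ : K9 →+* F) (A B : Matrix (Fin 3) (Fin 3) K9) (h : B * A = 1)
    (j : Fin 3) :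
    ((su3GL ψ A B h : GL (Fin 3) F) : Matrix (Fin 3) (Fin 3) F) *ᵥ Pi.single j 1
      = fun k => ψ (A k j) := by
  rw [su3GL_val, Matrix.mulVec_single_one]
  rfl

/-- **Piece E2c of the S5778 call.**  In `SU_3(3)` the intersection with a subfield group over
the field with three elements, in a unitary position, is not maximal. -/
theorem su3_three_subfield_std_false [Fintype F] (hF : Fintype.card F = 3 ^ 2)
    (H : Subgroup (GL (Fin 3) F))
    (hH : IsMaximalIn (GU 3 F 3 ⊓ specialLinear (Fin 3) F) H) (F₀ : Subfield F)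
    (hcard : Fintype.card F = Nat.card F₀ ^ 2) (P : GL (Fin 3) F) (hP : P ∈ GU 3 F 3)
    (hHeq : H = subfieldSubgroup F₀ P ⊓ (GU 3 F 3 ⊓ specialLinear (Fin 3) F)) : False := by
  classical
  obtain ⟨σ, hσ⟩ := exists_sigma hF
  have hc : Fintype.card K9 = Fintype.card F := by rw [hF]; exact su3_card_K9
  obtain ⟨ψe⟩ : Nonempty (K9 ≃+* F) := ⟨FiniteField.ringEquivOfCardEq hc⟩
  obtain ⟨ψ, hψdef⟩ : ∃ ψ : K9 →+* F, ψ = ψe.toRingHom := ⟨_, rfl⟩
  have hψinj : Function.Injective ψ := ψ.injective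
  have hcube := e2c_cube hF F₀ hcard
  have h3 : (3 : F) = 0 := by
    have h := congrArg ψ e2c_three_K9
    rwa [map_ofNat, map_zero] at h
  have hsub : ∀ h ∈ subfieldSubgroup F₀ P, ∃ y : GL (Fin 3) F, h = P * y * P⁻¹ ∧
      ∃ c : F, c ≠ 0 ∧ ∀ i j, c * (y : Matrix (Fin 3) (Fin 3) F) i j ∈ F₀ := by
    intro h hh
    rw [subfieldSubgroup, Subgroup.mem_map] at hh
    obtain ⟨y, hy, hyh⟩ := hh
    have hy1 : y ∈ subfieldSubgroup F₀ (1 : GL (Fin 3) F) := by
      rw [subfieldSubgroup, Subgroup.mem_map]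
      exact ⟨y, hy, by simp⟩
    obtain ⟨c, hc0, hrat⟩ := (SF.mem_subfieldSubgroup_one F₀ y).mp hy1
    exact ⟨y, hyh.symm, c, hc0, fun i j => hrat i j⟩
  have hHL : H ≤ decompositionStabilizer (e2cFrame P) := by
    intro h hh
    rw [hHeq] at hh
    obtain ⟨y, hyh, c, hc0, hrat⟩ := hsub h hh.1
    have hyGU : y ∈ GU 3 F 3 := by
      have e : y = P⁻¹ * h * P := by rw [hyh]; group
      rw [e]
      exact Subgroup.mul_mem _ (Subgroup.mul_mem _ (Subgroup.inv_mem _ hP) hh.2.1) hP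
    obtain ⟨π, a, ha, hmv⟩ := e2c_perm y (e2c_monomial hσ F₀ hcube h3 y hyGU c hc0 hrat)
    refine e2c_mem_stab P h π a ha (fun j => ?_)
    rw [hyh, Matrix.mulVec_mulVec, ← Units.val_mul, inv_mul_cancel_right, Units.val_mul,
      ← Matrix.mulVec_mulVec, hmv j, Matrix.mulVec_smul]
  obtain ⟨z₀, hz₀⟩ : ∃ z₀ : GL (Fin 3) F, z₀ = su3GL ψ e2cZ e2cZi e2cZ_inv := ⟨_, rfl⟩
  obtain ⟨w₀, hw₀⟩ : ∃ w₀ : GL (Fin 3) F, w₀ = su3GL ψ D9.x9 D9.x9_i D9.x9_inv := ⟨_, rfl⟩
  have hzG : P * z₀ * P⁻¹ ∈ GU 3 F 3 ⊓ specialLinear (Fin 3) F := by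
    rw [hz₀]
    exact su3_conj_mem_SU P hP _
      ⟨su3GL_mem_GU ψ hσ _ _ _ e2cZ_unitary, su3GL_mem_SL ψ _ _ _ e2cZ_det⟩
  have hwG : P * w₀ * P⁻¹ ∈ GU 3 F 3 ⊓ specialLinear (Fin 3) F := by
    rw [hw₀]
    exact su3_conj_mem_SU P hP _
      ⟨su3GL_mem_GU ψ hσ _ _ _ D9.x9_unitary, su3GL_mem_SL ψ _ _ _ D9.x9_det⟩
  have hz0 : ∀ j, (z₀ : Matrix (Fin 3) (Fin 3) F) *ᵥ Pi.single j 1
      = ψ (e2cZ j j) • Pi.single j 1 := by
    intro j
    rw [hz₀, e2c_su3GL_col]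
    funext k
    by_cases hk : k = j
    · rw [hk, Pi.smul_apply, Pi.single_eq_same, smul_eq_mul, mul_one]
    · rw [e2cZ_diag k j hk, map_zero, Pi.smul_apply, Pi.single_apply, if_neg hk, smul_zero]
  have hzL : P * z₀ * P⁻¹ ∈ decompositionStabilizer (e2cFrame P) := by
    refine e2c_mem_stab P _ 1 (fun j => ψ (e2cZ j j))
      (fun j => (map_ne_zero ψ).mpr (e2cZ_ne j)) (fun j => ?_)
    rw [Matrix.mulVec_mulVec, ← Units.val_mul, inv_mul_cancel_right, Units.val_mul,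
      ← Matrix.mulVec_mulVec, hz0 j, Matrix.mulVec_smul]
    rfl
  have hzH : P * z₀ * P⁻¹ ∉ H := by
    intro hz
    rw [hHeq] at hz
    obtain ⟨y, hyh, c, hc0, hrat⟩ := hsub _ hz.1
    have hy : y = z₀ := (mul_left_cancel (mul_right_cancel hyh)).symm
    rw [hy] at hrat
    have h00 := hrat 0 0
    have h22 := hrat 2 2
    rw [hz₀, su3GL_val, Matrix.map_apply] at h00 h22
    rw [e2cZ_22, map_one, mul_one] at h22
    have h5 : ψ (e2cZ 0 0) ∈ F₀ := by
      have h := F₀.mul_mem (F₀.inv_mem h22) h00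
      rwa [← mul_assoc, inv_mul_cancel₀ hc0, one_mul] at h
    have h6 := hcube _ h5
    rw [← map_pow] at h6
    exact e2cZ_00 (hψinj h6)
  have hwL : P * w₀ * P⁻¹ ∉ decompositionStabilizer (e2cFrame P) := by
    intro hw
    obtain ⟨i, a, hia⟩ := e2c_of_mem_stab P _ hw 0
    rw [Matrix.mulVec_mulVec, ← Units.val_mul, inv_mul_cancel_right, Units.val_mul,
      ← Matrix.mulVec_mulVec, ← Matrix.mulVec_smul] at hia
    have h1 := e2c_mulVec_inj P hia
    rw [hw₀, e2c_su3GL_col] at h1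
    have h11 := congrFun h1 1
    have h12 := congrFun h1 2
    simp only [Pi.smul_apply, Pi.single_apply, smul_eq_mul] at h11 h12
    have hi1 : i = 1 := by
      by_contra hne
      rw [if_neg (fun h => hne h.symm), mul_zero] at h11
      exact e2c_x9_10 (hψinj (by rw [h11, map_zero]))
    have hi2 : i = 2 := by
      by_contra hne
      rw [if_neg (fun h => hne h.symm), mul_zero] at h12
      exact e2c_x9_20 (hψinj (by rw [h12, map_zero]))
    rw [hi1] at hi2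
    exact absurd hi2 (by decide)
  exact su3_not_max _ H _ hH hHL _ hzG hzL hzH _ hwG hwL

end Cfsg.Agent.Helper88
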