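import Mathlib
import Cfsg.Agent.Helper97.UPrimeDim

/-!
# PIECE R of CALL S5778 (helper64): rational normal form for `SU_3(q)`, `q` odd

A rational structure for the unitary form in dimension 3 is conjugate (inside the same subfield
subgroup) to one given by a unitary matrix.
-/

set_option autoImplicit false
set_option linter.unusedSectionVars false

open Cfsg Cfsg.Geo Matrix

namespace Cfsg.Agent.Helper88

open Cfsg.Agent.Helper97

section Diag

variable {K : Type*} [Field K]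

/-- Binary diagonal forms over a finite field of odd order are universal. -/
theorem su3r_universal [Fintype K] (hodd : Fintype.card K % 2 = 1) (a b ν : K) (ha : a ≠ 0)
    (hb : b ≠ 0) : ∃ x y : K, a * x ^ 2 + b * y ^ 2 = ν := by
  classical
  have h1 : (Polynomial.C a * Polynomial.X ^ 2 : Polynomial K).degree = 2 := by
    rw [Polynomial.degree_C_mul_X_pow 2 ha]; rfl
  have h2 : (Polynomial.C b * Polynomial.X ^ 2 - Polynomial.C ν : Polynomial K).degree = 2 := by
    rw [Polynomial.degree_sub_eq_left_of_degree_lt, Polynomial.degree_C_mul_X_pow 2 hb]; rfl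
    rw [Polynomial.degree_C_mul_X_pow 2 hb]
    exact lt_of_le_of_lt Polynomial.degree_C_le (by norm_num)
  obtain ⟨x, y, hxy⟩ := FiniteField.exists_root_sum_quadratic h1 h2 hodd
  refine ⟨x, y, ?_⟩
  simp only [Polynomial.eval_mul, Polynomial.eval_C, Polynomial.eval_pow, Polynomial.eval_X,
    Polynomial.eval_sub] at hxy
  linear_combination hxy

/-- Entry formula for `Cᵀ * A * C`. -/
theorem su3r_congr_apply (A C : Matrix (Fin 3) (Fin 3) K) (i j : Fin 3) :
    (Cᵀ * A * C) i j = Matrix.toBilin' A (fun k => C k i) (fun k => C k j) := by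
  rw [Matrix.toBilin'_apply']
  simp only [Matrix.mul_apply, Matrix.transpose_apply, dotProduct, Matrix.mulVec, Finset.sum_mul,
    Finset.mul_sum]
  rw [Finset.sum_comm]
  apply Finset.sum_congr rfl
  intro l _
  apply Finset.sum_congr rfl
  intro k _
  ring

/-- Rotation in a plane spanned by two orthogonal anisotropic vectors. -/
theorem su3r_rot [Fintype K] (hodd : Fintype.card K % 2 = 1) {V : Type*} [AddCommGroup V]
    [Module K V] (B : LinearMap.BilinForm K V) (hB : ∀ x y, B x y = B y x)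
    (u1 u2 : V) (a b ν : K) (h11 : B u1 u1 = a) (h22 : B u2 u2 = b) (h12 : B u1 u2 = 0)
    (ha : a ≠ 0) (hb : b ≠ 0) :
    ∃ w1 w2 : V, B w1 w1 = ν ∧ B w2 w2 = a * b * ν ∧ B w1 w2 = 0 ∧
      (∀ z, B u1 z = 0 → B u2 z = 0 → B w1 z = 0 ∧ B w2 z = 0) := by
  obtain ⟨x, y, hxy⟩ := su3r_universal hodd a b ν ha hb
  have h21 : B u2 u1 = 0 := by rw [hB]; exact h12
  refine ⟨x • u1 + y • u2, (-(b * y)) • u1 + (a * x) • u2, ?_, ?_, ?_, ?_⟩
  · simp only [map_add, map_smul, LinearMap.add_apply, LinearMap.smul_apply, smul_eq_mul, h11,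
      h22, h12, h21]
    linear_combination hxy
  · simp only [map_add, map_smul, LinearMap.add_apply, LinearMap.smul_apply, smul_eq_mul, h11,
      h22, h12, h21]
    linear_combination (a * b) * hxy
  · simp only [map_add, map_smul, LinearMap.add_apply, LinearMap.smul_apply, smul_eq_mul, h11,
      h22, h12, h21]
    ring
  · intro z h1 h2
    constructor
    · simp only [map_add, map_smul, LinearMap.add_apply, LinearMap.smul_apply, smul_eq_mul, h1,
        h2]
      ring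
    · simp only [map_add, map_smul, LinearMap.add_apply, LinearMap.smul_apply, smul_eq_mul, h1,
        h2]
      ring

/-- A nondegenerate symmetric `3 × 3` matrix over a finite field of odd order is congruent to a
scalar matrix. -/
theorem su3r_diag [Fintype K] (hodd : Fintype.card K % 2 = 1) (A : Matrix (Fin 3) (Fin 3) K)
    (hsymm : Aᵀ = A) (hdet : A.det ≠ 0) :
    ∃ (C : Matrix (Fin 3) (Fin 3) K) (ν : K), ν ≠ 0 ∧
      Cᵀ * A * C = ν • (1 : Matrix (Fin 3) (Fin 3) K) := by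
  classical
  have h2 : (2 : K) ≠ 0 := by
    apply Ring.two_ne_zero
    intro hc
    rw [FiniteField.even_card_iff_char_two] at hc
    omega
  haveI : Invertible (2 : K) := invertibleOfNonzero h2
  obtain ⟨B, hBdef⟩ : ∃ B : LinearMap.BilinForm K (Fin 3 → K), B = Matrix.toBilin' A :=
    ⟨_, rfl⟩
  have hBs : ∀ x y, B x y = B y x := by
    intro x y
    rw [hBdef, Matrix.toBilin'_apply', Matrix.toBilin'_apply', Matrix.dotProduct_mulVec y A x,
      dotProduct_comm, ← Matrix.mulVec_transpose, hsymm]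
  obtain ⟨v, hv⟩ := LinearMap.BilinForm.exists_orthogonal_basis (B := B) ⟨fun x y => hBs x y⟩
  rw [LinearMap.isOrthoᵢ_def] at hv
  have hfin : Module.finrank K (Fin 3 → K) = 3 := Module.finrank_fin_fun K
  obtain ⟨i0, i1, i2, h01, h02, h12⟩ : ∃ i0 i1 i2 : Fin (Module.finrank K (Fin 3 → K)),
      i0 ≠ i1 ∧ i0 ≠ i2 ∧ i1 ≠ i2 := by
    rw [hfin]; exact ⟨0, 1, 2, by decide, by decide, by decide⟩
  have hdiag : ∀ i, B (v i) (v i) ≠ 0 := by
    intro i hi
    have hz : ∀ y, B (v i) y = 0 := by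
      intro y
      rw [← v.sum_repr y, map_sum]
      apply Finset.sum_eq_zero
      intro j _
      rw [map_smul, smul_eq_mul]
      by_cases hij : i = j
      · rw [← hij, hi, mul_zero]
      · rw [hv i j hij, mul_zero]
    have hvm : Matrix.vecMul (v i) A = 0 := by
      funext k
      have := hz (Pi.single k 1)
      rw [hBdef, Matrix.toBilin'_apply', Matrix.dotProduct_mulVec] at this
      simpa using this
    exact v.ne_zero i (Matrix.eq_zero_of_vecMul_eq_zero hdet hvm)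
  obtain ⟨a, ha⟩ : ∃ a, a = B (v i0) (v i0) := ⟨_, rfl⟩
  obtain ⟨b, hb⟩ : ∃ b, b = B (v i1) (v i1) := ⟨_, rfl⟩
  obtain ⟨c, hc⟩ : ∃ c, c = B (v i2) (v i2) := ⟨_, rfl⟩
  have ha0 : a ≠ 0 := ha ▸ hdiag i0
  have hb0 : b ≠ 0 := hb ▸ hdiag i1
  have hc0 : c ≠ 0 := hc ▸ hdiag i2
  obtain ⟨ν, hνdef⟩ : ∃ ν, ν = a * b * c := ⟨_, rfl⟩
  have hν : ν ≠ 0 := hνdef ▸ mul_ne_zero (mul_ne_zero ha0 hb0) hc0
  obtain ⟨w1, w2, hw11, hw22, hw12, hwz⟩ :=
    su3r_rot hodd B hBs (v i0) (v i1) a b ν ha.symm hb.symm (hv i0 i1 h01) ha0 hb0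
  obtain ⟨hw1v, hw2v⟩ := hwz (v i2) (hv i0 i2 h02) (hv i1 i2 h12)
  obtain ⟨w2', w3, h22', h33, h23, hwz'⟩ :=
    su3r_rot hodd B hBs w2 (v i2) (a * b * ν) c ν hw22 hc.symm hw2v
      (mul_ne_zero (mul_ne_zero ha0 hb0) hν) hc0
  obtain ⟨h2'1, h31⟩ := hwz' w1 (by rw [hBs]; exact hw12) (by rw [hBs]; exact hw1v)
  have h12' : B w1 w2' = 0 := by rw [hBs]; exact h2'1
  have h13 : B w1 w3 = 0 := by rw [hBs]; exact h31
  have h32 : B w3 w2' = 0 := by rw [hBs]; exact h23
  have e33 : ν⁻¹ * (ν⁻¹ * (a * b * ν * c * ν)) = ν := by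
    field_simp
    rw [hνdef]
  refine ⟨Matrix.of (fun k j => (![w1, w2', ν⁻¹ • w3] : Fin 3 → (Fin 3 → K)) j k), ν, hν, ?_⟩
  ext i j
  rw [su3r_congr_apply, ← hBdef]
  have hcol : ∀ j : Fin 3,
      (fun k => Matrix.of (fun k j => (![w1, w2', ν⁻¹ • w3] : Fin 3 → (Fin 3 → K)) j k) k j)
        = (![w1, w2', ν⁻¹ • w3] : Fin 3 → (Fin 3 → K)) j := fun j => rfl
  rw [hcol, hcol]
  fin_cases i <;> fin_cases j <;>
    simp [map_smul, LinearMap.smul_apply, smul_eq_mul, hw11, h12', h13, h2'1, h22', h23, h31, h32,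
      h33, e33]

end Diag

/-- **PIECE R of S5778**. -/
theorem su3_rational_normal_form {F : Type*} [Field F] [Fintype F] {q : ℕ} (hq : q = 3 ∨ q = 5)
    (hF : Fintype.card F = q ^ 2) (F₀ : Subfield F) (P : GL (Fin 3) F)
    (hcard : Fintype.card F = Nat.card F₀ ^ 2)
    (hform : IsFormRationalStructure (hermForm 3 F q) F₀ 1 P) :
    ∃ P' : GL (Fin 3) F, P' ∈ GU 3 F q ∧ subfieldSubgroup F₀ P' = subfieldSubgroup F₀ P := by
  classical
  obtain ⟨σ, hσ⟩ := exists_sigma hF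
  have hS := hσ.isSesq (n := 3)
  have hcq : Nat.card F₀ = q := by
    rw [hF] at hcard
    exact (Nat.pow_left_injective (by norm_num : 2 ≠ 0) hcard).symm
  haveI : Fintype F₀ := Fintype.ofFinite F₀
  have hcq' : Fintype.card F₀ = q := by rw [← Nat.card_eq_fintype_card]; exact hcq
  have hfix : ∀ a : F, a ∈ F₀ → σ a = a := by
    intro a ha
    have h1 : (⟨a, ha⟩ : F₀) ^ q = ⟨a, ha⟩ := by rw [← hcq']; exact FiniteField.pow_card _
    rw [hσ.pow]
    have h2 := congrArg (fun x : F₀ => (x : F)) h1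
    simpa using h2
  obtain ⟨A, hAdef⟩ : ∃ A : Matrix (Fin 3) (Fin 3) F,
      A = (P : Matrix (Fin 3) (Fin 3) F)ᵀ * gram (hermForm 3 F q)
        * (P : Matrix (Fin 3) (Fin 3) F).map σ := ⟨_, rfl⟩
  have hAij : ∀ i j, A i j = hermForm 3 F q ((P : Matrix (Fin 3) (Fin 3) F) *ᵥ Pi.single i 1)
      ((P : Matrix (Fin 3) (Fin 3) F) *ᵥ Pi.single j 1) := by
    intro i j
    rw [hAdef, hS.gram_mul]
  have hsingle : ∀ i k : Fin 3, (Pi.single i (1 : F) : Fin 3 → F) k ∈ F₀ := by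
    intro i k
    by_cases h : k = i
    · rw [h, Pi.single_eq_same]; exact F₀.one_mem
    · rw [Pi.single_eq_of_ne h]; exact F₀.zero_mem
  have hA₀ : ∀ i j, A i j ∈ F₀ := by
    intro i j
    rw [hAij]
    have := hform (Pi.single i 1) (Pi.single j 1) (hsingle i) (hsingle j)
    rw [one_mul] at this
    exact this
  obtain ⟨A₀, hA₀def⟩ : ∃ A₀ : Matrix (Fin 3) (Fin 3) F₀, A₀ = fun i j => ⟨A i j, hA₀ i j⟩ :=
    ⟨_, rfl⟩
  have hAmap : A₀.map F₀.subtype = A := by
    ext i j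
    rw [hA₀def]
    rfl
  have hsymm : A₀ᵀ = A₀ := by
    ext i j
    rw [Matrix.transpose_apply, hA₀def]
    show A j i = A i j
    rw [hAij, hσ.herm_symm, ← hAij, hfix _ (hA₀ i j)]
  have hdetP : (P : Matrix (Fin 3) (Fin 3) F).det ≠ 0 :=
    ((Matrix.isUnit_iff_isUnit_det _).mp P.isUnit).ne_zero
  have hdetA : A.det ≠ 0 := by
    rw [hAdef, hσ.gram_herm, Matrix.mul_one, Matrix.det_mul, Matrix.det_transpose]
    have h2 : ((P : Matrix (Fin 3) (Fin 3) F).map σ).det
        = σ (P : Matrix (Fin 3) (Fin 3) F).det :=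
      (RingHom.map_det (σ : F →+* F) (P : Matrix (Fin 3) (Fin 3) F)).symm
    rw [h2]
    exact mul_ne_zero hdetP ((map_ne_zero σ).mpr hdetP)
  have hdetA₀ : A₀.det ≠ 0 := by
    intro h0
    apply hdetA
    rw [← hAmap]
    have := RingHom.map_det F₀.subtype A₀
    rw [h0, map_zero] at this
    exact this.symm
  obtain ⟨C, ν, hν, hC⟩ := su3r_diag (by rw [hcq']; rcases hq with rfl | rfl <;> norm_num) A₀
    hsymm hdetA₀
  have hνF : (ν : F) ≠ 0 := fun h => hν (Subtype.ext h)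
  obtain ⟨Ct, hCt⟩ : ∃ Ct : Matrix (Fin 3) (Fin 3) F, Ct = C.map F₀.subtype := ⟨_, rfl⟩
  have hCt_eq : Ctᵀ * A * Ct = (ν : F) • (1 : Matrix (Fin 3) (Fin 3) F) := by
    have h1 : (Cᵀ * A₀ * C).map F₀.subtype = Ctᵀ * A * Ct := by
      rw [Matrix.map_mul, Matrix.map_mul, hAmap, hCt, Matrix.transpose_map]
    rw [← h1, hC]
    ext i j
    simp only [Matrix.map_apply, Matrix.smul_apply, Matrix.one_apply, smul_eq_mul]
    split_ifs <;> simp
  have hdetCt : Ct.det ≠ 0 := by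
    intro h0
    have := congrArg Matrix.det hCt_eq
    rw [Matrix.det_mul, Matrix.det_mul, h0, mul_zero, Matrix.det_smul, Matrix.det_one, mul_one,
      Fintype.card_fin] at this
    exact (pow_ne_zero 3 hνF) this.symm
  have hdetC : C.det ≠ 0 := by
    intro h0
    apply hdetCt
    rw [hCt]
    have := RingHom.map_det F₀.subtype C
    rw [h0, map_zero] at this
    exact this.symm
  obtain ⟨Cg₀, hCg₀⟩ : ∃ Cg₀ : GL (Fin 3) F₀, (Cg₀ : Matrix (Fin 3) (Fin 3) F₀) = C :=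
    ⟨Matrix.GeneralLinearGroup.mkOfDetNeZero C hdetC, rfl⟩
  obtain ⟨Cg, hCgdef⟩ : ∃ Cg : GL (Fin 3) F,
      Cg = Matrix.GeneralLinearGroup.map (F₀.subtype : F₀ →+* F) Cg₀ := ⟨_, rfl⟩
  have hCg : (Cg : Matrix (Fin 3) (Fin 3) F) = Ct := by
    ext i j
    rw [hCgdef, Matrix.GeneralLinearGroup.map_apply, hCg₀, hCt]
    rfl
  obtain ⟨lam, hlam⟩ := hσ.exists_norm_eq hF ((ν : F))⁻¹ (by rw [map_inv₀, hfix _ ν.2])
    (inv_ne_zero hνF)
  have hlam0 : lam ≠ 0 := by
    rintro rfl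
    rw [zero_mul] at hlam
    exact (inv_ne_zero hνF) hlam.symm
  obtain ⟨Λ, hΛdef⟩ : ∃ Λ : GL (Fin 3) F,
      Λ = Units.map (Matrix.scalar (Fin 3) : F →+* Matrix (Fin 3) (Fin 3) F).toMonoidHom
        (Units.mk0 lam hlam0) := ⟨_, rfl⟩
  have hΛ : (Λ : Matrix (Fin 3) (Fin 3) F) = lam • (1 : Matrix (Fin 3) (Fin 3) F) := by
    rw [hΛdef]
    simp [Matrix.smul_one_eq_diagonal]
  refine ⟨Λ * P * Cg, ?_, ?_⟩
  · rw [IsSigma.mem_GU_iff]
    intro u v
    have key : ((Λ * P * Cg : GL (Fin 3) F) : Matrix (Fin 3) (Fin 3) F)ᵀ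
        * gram (hermForm 3 F q)
        * ((Λ * P * Cg : GL (Fin 3) F) : Matrix (Fin 3) (Fin 3) F).map σ
        = (1 : F) • gram (hermForm 3 F q) := by
      rw [Units.val_mul, Units.val_mul, hΛ, hCg, Matrix.smul_mul, Matrix.one_mul,
        Matrix.smul_mul, Matrix.transpose_smul, Matrix.transpose_mul]
      have hmap : (lam • ((P : Matrix (Fin 3) (Fin 3) F) * Ct)).map σ
          = σ lam • ((P : Matrix (Fin 3) (Fin 3) F).map σ * Ct) := by
        ext i j
        simp only [Matrix.map_apply, Matrix.smul_apply, smul_eq_mul, map_mul, Matrix.mul_apply,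
          map_sum]
        congr 1
        apply Finset.sum_congr rfl
        intro k _
        congr 1
        rw [hCt]
        exact hfix _ (C k j).2
      rw [hmap]
      simp only [Matrix.smul_mul, Matrix.mul_smul, smul_smul]
      have h3 : Ctᵀ * (P : Matrix (Fin 3) (Fin 3) F)ᵀ * gram (hermForm 3 F q)
          * ((P : Matrix (Fin 3) (Fin 3) F).map σ * Ct) = Ctᵀ * A * Ct := by
        rw [hAdef]
        simp only [Matrix.mul_assoc]
      rw [h3, hCt_eq, smul_smul, one_smul, hσ.gram_herm]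
      have h4 : σ lam * lam * (ν : F) = 1 := by
        rw [mul_comm (σ lam) lam, hlam, inv_mul_cancel₀ hνF]
      rw [h4, one_smul]
    have := hS.similar_of_gram _ 1 key u v
    rw [one_mul] at this
    exact this
  · unfold subfieldSubgroup
    obtain ⟨S, hSdef⟩ : ∃ S : Subgroup (GL (Fin 3) F),
        S = (Matrix.GeneralLinearGroup.map (F₀.subtype : F₀ →+* F)).range ⊔ scalars (Fin 3) F :=
      ⟨_, rfl⟩
    rw [← hSdef]
    have hCgS : Cg ∈ S := by
      rw [hSdef, hCgdef]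
      exact Subgroup.mem_sup_left ⟨Cg₀, rfl⟩
    have hΛc : ∀ X : GL (Fin 3) F, Λ * X = X * Λ := by
      intro X
      apply Units.ext
      rw [Units.val_mul, Units.val_mul, hΛ, Matrix.smul_mul, Matrix.mul_smul, Matrix.one_mul,
        Matrix.mul_one]
    ext g
    simp only [Subgroup.mem_map, MulEquiv.coe_toMonoidHom, MulAut.conj_apply]
    constructor
    · rintro ⟨s, hs, rfl⟩
      refine ⟨Cg * s * Cg⁻¹, S.mul_mem (S.mul_mem hCgS hs) (S.inv_mem hCgS), ?_⟩
      have h5 : (Λ * P * Cg) * s * (Λ * P * Cg)⁻¹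
          = Λ * (P * (Cg * s * Cg⁻¹) * P⁻¹) * Λ⁻¹ := by group
      rw [h5, hΛc]
      group
    · rintro ⟨s, hs, rfl⟩
      refine ⟨Cg⁻¹ * s * Cg, S.mul_mem (S.mul_mem (S.inv_mem hCgS) hs) hCgS, ?_⟩
      have h5 : (Λ * P * Cg) * (Cg⁻¹ * s * Cg) * (Λ * P * Cg)⁻¹
          = Λ * (P * s * P⁻¹) * Λ⁻¹ := by group
      rw [h5, hΛc]
      group

end Cfsg.Agent.Helper88
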