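import Cfsg.Agent.Helper88.SLnSimple
import Cfsg.Agent.Helper5.SympCard
import Cfsg.Agent.Helper5.SympCenter
import Cfsg.Agent.Helper13.SpBorel
import Cfsg.Agent.Helper37.SpSyl

set_option autoImplicit false

/-!
Helper library (helper88): the symplectic group `Sp_{2m}(F)` in block form: the Siegel parabolic,
its Levi factor and unipotent radical, and the unitriangular Sylow subgroup.
-/

namespace Cfsg.Agent.Helper88

open Cfsg Matrix Cfsg.Agent.Helper44.PSLn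

universe u

/-- the symplectic group `Sp_{2m}(F)` -/
abbrev SpG (m : ℕ) (F : Type u) [Field F] := ↥(Matrix.symplecticGroup (Fin m) F)

/-- `2m × 2m` matrices in block form -/
abbrev M2 (m : ℕ) (F : Type u) [Field F] := Matrix (Fin m ⊕ Fin m) (Fin m ⊕ Fin m) F

section SpA

variable {m : ℕ} {F : Type u} [Field F]

theorem blk11_mul (M N : M2 m F) :
    (M * N).toBlocks₁₁ = M.toBlocks₁₁ * N.toBlocks₁₁ + M.toBlocks₁₂ * N.toBlocks₂₁ := by
  conv_lhs => rw [← Matrix.fromBlocks_toBlocks M, ← Matrix.fromBlocks_toBlocks N,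
    Matrix.fromBlocks_multiply]
  rw [Matrix.toBlocks_fromBlocks₁₁]

theorem blk12_mul (M N : M2 m F) :
    (M * N).toBlocks₁₂ = M.toBlocks₁₁ * N.toBlocks₁₂ + M.toBlocks₁₂ * N.toBlocks₂₂ := by
  conv_lhs => rw [← Matrix.fromBlocks_toBlocks M, ← Matrix.fromBlocks_toBlocks N,
    Matrix.fromBlocks_multiply]
  rw [Matrix.toBlocks_fromBlocks₁₂]

theorem blk21_mul (M N : M2 m F) :
    (M * N).toBlocks₂₁ = M.toBlocks₂₁ * N.toBlocks₁₁ + M.toBlocks₂₂ * N.toBlocks₂₁ := by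
  conv_lhs => rw [← Matrix.fromBlocks_toBlocks M, ← Matrix.fromBlocks_toBlocks N,
    Matrix.fromBlocks_multiply]
  rw [Matrix.toBlocks_fromBlocks₂₁]

theorem blk22_mul (M N : M2 m F) :
    (M * N).toBlocks₂₂ = M.toBlocks₂₁ * N.toBlocks₁₂ + M.toBlocks₂₂ * N.toBlocks₂₂ := by
  conv_lhs => rw [← Matrix.fromBlocks_toBlocks M, ← Matrix.fromBlocks_toBlocks N,
    Matrix.fromBlocks_multiply]
  rw [Matrix.toBlocks_fromBlocks₂₂]

theorem spG_coe_mul (a b : SpG m F) : ((a * b : SpG m F) : M2 m F) = (a : M2 m F) * (b : M2 m F) := rfl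

theorem spG_coe_one : ((1 : SpG m F) : M2 m F) = 1 := rfl

theorem spG_coe_pow (a : SpG m F) (k : ℕ) : ((a ^ k : SpG m F) : M2 m F) = (a : M2 m F) ^ k := by
  induction k with
  | zero => rw [pow_zero, pow_zero, spG_coe_one]
  | succ k ih => rw [pow_succ, pow_succ, spG_coe_mul, ih]

/-- the Siegel parabolic subgroup: lower left block zero -/
def parS (m : ℕ) (F : Type u) [Field F] [Finite F] : Subgroup (SpG m F) where
  carrier := {g | (g : M2 m F).toBlocks₂₁ = 0}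
  mul_mem' := by
    intro a b ha hb
    show ((a * b : SpG m F) : M2 m F).toBlocks₂₁ = 0
    have ha' : (a : M2 m F).toBlocks₂₁ = 0 := ha
    have hb' : (b : M2 m F).toBlocks₂₁ = 0 := hb
    rw [spG_coe_mul, blk21_mul, ha', hb', zero_mul, mul_zero, add_zero]
  one_mem' := by
    show ((1 : SpG m F) : M2 m F).toBlocks₂₁ = 0
    rw [spG_coe_one, ← Matrix.fromBlocks_one, Matrix.toBlocks_fromBlocks₂₁]
  inv_mem' := by
    intro x hx
    have hpow : ∀ k : ℕ, ((x ^ k : SpG m F) : M2 m F).toBlocks₂₁ = 0 := by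
      intro k
      induction k with
      | zero => rw [pow_zero, spG_coe_one, ← Matrix.fromBlocks_one, Matrix.toBlocks_fromBlocks₂₁]
      | succ k ih =>
        have hx' : (x : M2 m F).toBlocks₂₁ = 0 := hx
        rw [pow_succ, spG_coe_mul, blk21_mul, ih, hx', zero_mul, mul_zero, add_zero]
    have h1 : x⁻¹ = x ^ (orderOf x - 1) := by
      apply inv_eq_of_mul_eq_one_right
      rw [← pow_succ', Nat.sub_add_cancel (orderOf_pos x), pow_orderOf_eq_one]
    rw [h1]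
    exact hpow _

theorem mem_parS [Finite F] {g : SpG m F} : g ∈ parS m F ↔ (g : M2 m F).toBlocks₂₁ = 0 := Iff.rfl

theorem parS_AD [Finite F] (g : SpG m F) (hg : g ∈ parS m F) :
    (g : M2 m F).toBlocks₁₁ * ((g : M2 m F).toBlocks₂₂)ᵀ = 1 :=
  Cfsg.Agent.Helper13.sp_upper_blocks g hg

theorem parS_DA [Finite F] (g : SpG m F) (hg : g ∈ parS m F) :
    ((g : M2 m F).toBlocks₂₂)ᵀ * (g : M2 m F).toBlocks₁₁ = 1 :=
  _root_.mul_eq_one_comm.mp (parS_AD g hg)

/-- the upper left block, as a homomorphism from the Siegel parabolic to `GL_m(F)` -/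
def piG (m : ℕ) (F : Type u) [Field F] [Finite F] : ↥(parS m F) →* GL (Fin m) F where
  toFun g := ⟨(g.1 : M2 m F).toBlocks₁₁, ((g.1 : M2 m F).toBlocks₂₂)ᵀ, parS_AD g.1 g.2, parS_DA g.1 g.2⟩
  map_one' := by
    apply Units.ext
    show ((1 : SpG m F) : M2 m F).toBlocks₁₁ = 1
    rw [spG_coe_one, ← Matrix.fromBlocks_one, Matrix.toBlocks_fromBlocks₁₁]
  map_mul' := by
    intro a b
    apply Units.ext
    show ((a.1 * b.1 : SpG m F) : M2 m F).toBlocks₁₁
      = (a.1 : M2 m F).toBlocks₁₁ * (b.1 : M2 m F).toBlocks₁₁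
    have hb : (b.1 : M2 m F).toBlocks₂₁ = 0 := b.2
    rw [spG_coe_mul, blk11_mul, hb, mul_zero, add_zero]

theorem piG_coe [Finite F] (g : SpG m F) (hg : g ∈ parS m F) :
    ((piG m F ⟨g, hg⟩ : GL (Fin m) F) : Mn m F) = (g : M2 m F).toBlocks₁₁ := rfl

theorem piG_inv_coe [Finite F] (g : SpG m F) (hg : g ∈ parS m F) :
    ((↑((piG m F ⟨g, hg⟩)⁻¹) : Mn m F)) = ((g : M2 m F).toBlocks₂₂)ᵀ := rfl

/-- the Levi factor `GL_m(F)` of the Siegel parabolic -/
def leviG (m : ℕ) (F : Type u) [Field F] : GL (Fin m) F →* SpG m F where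
  toFun a := ⟨Matrix.fromBlocks (a : Mn m F) 0 0 ((↑(a⁻¹) : Mn m F))ᵀ, by
    rw [Cfsg.Agent.Helper13.sp_mem_fromBlocks_iff]
    refine ⟨by simp, ?_, by simp⟩
    rw [Matrix.transpose_transpose, Matrix.transpose_zero, Matrix.mul_zero, sub_zero,
      ← Units.val_mul, mul_inv_cancel, Units.val_one]⟩
  map_one' := by
    apply Subtype.ext
    show Matrix.fromBlocks ((1 : GL (Fin m) F) : Mn m F) 0 0 ((↑((1 : GL (Fin m) F)⁻¹) : Mn m F))ᵀ = 1
    rw [inv_one, Units.val_one, Matrix.transpose_one, Matrix.fromBlocks_one]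
  map_mul' := by
    intro a b
    apply Subtype.ext
    show Matrix.fromBlocks ((a * b : GL (Fin m) F) : Mn m F) 0 0 ((↑((a * b)⁻¹) : Mn m F))ᵀ
      = Matrix.fromBlocks (a : Mn m F) 0 0 ((↑(a⁻¹) : Mn m F))ᵀ
        * Matrix.fromBlocks (b : Mn m F) 0 0 ((↑(b⁻¹) : Mn m F))ᵀ
    rw [Matrix.fromBlocks_multiply, _root_.mul_inv_rev, Units.val_mul, Units.val_mul, Matrix.transpose_mul]
    simp

theorem leviG_coe (a : GL (Fin m) F) :
    ((leviG m F a : SpG m F) : M2 m F) = Matrix.fromBlocks (a : Mn m F) 0 0 ((↑(a⁻¹) : Mn m F))ᵀ := rfl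

theorem leviG_mem_parS [Finite F] (a : GL (Fin m) F) : leviG m F a ∈ parS m F := by
  rw [mem_parS, leviG_coe, Matrix.toBlocks_fromBlocks₂₁]

theorem piG_leviG [Finite F] (a : GL (Fin m) F) : piG m F ⟨leviG m F a, leviG_mem_parS a⟩ = a := by
  apply Units.ext
  rw [piG_coe, leviG_coe, Matrix.toBlocks_fromBlocks₁₁]

/-- the elements of the unipotent radical of the Siegel parabolic -/
def siegel (S : Mn m F) (hS : Sᵀ = S) : SpG m F := ⟨Matrix.fromBlocks 1 S 0 1, by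
  rw [Cfsg.Agent.Helper13.sp_mem_fromBlocks_iff]
  refine ⟨by rw [Matrix.transpose_one, Matrix.mul_one, Matrix.one_mul, hS], by simp, by simp⟩⟩

theorem siegel_coe (S : Mn m F) (hS : Sᵀ = S) :
    ((siegel S hS : SpG m F) : M2 m F) = Matrix.fromBlocks 1 S 0 1 := rfl

theorem siegel_congr {S S' : Mn m F} (h : S = S') (hS : Sᵀ = S) (hS' : S'ᵀ = S') :
    siegel S hS = siegel S' hS' := by
  subst h
  rfl

theorem siegel_mul (S S' : Mn m F) (hS : Sᵀ = S) (hS' : S'ᵀ = S') :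
    siegel S hS * siegel S' hS' = siegel (S + S') (by rw [Matrix.transpose_add, hS, hS']) := by
  apply Subtype.ext
  rw [spG_coe_mul, siegel_coe, siegel_coe, siegel_coe, Matrix.fromBlocks_multiply]
  simp [add_comm]

theorem siegel_zero : siegel (0 : Mn m F) (Matrix.transpose_zero) = 1 := by
  apply Subtype.ext
  rw [siegel_coe, spG_coe_one, Matrix.fromBlocks_one]

theorem siegel_inv (S : Mn m F) (hS : Sᵀ = S) :
    (siegel S hS)⁻¹ = siegel (-S) (by rw [Matrix.transpose_neg, hS]) := by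
  apply inv_eq_of_mul_eq_one_right
  rw [siegel_mul, ← siegel_zero]
  exact siegel_congr (add_neg_cancel S) _ _

theorem siegel_mem_parS [Finite F] (S : Mn m F) (hS : Sᵀ = S) : siegel S hS ∈ parS m F := by
  rw [mem_parS, siegel_coe, Matrix.toBlocks_fromBlocks₂₁]

theorem piG_siegel [Finite F] (S : Mn m F) (hS : Sᵀ = S) :
    piG m F ⟨siegel S hS, siegel_mem_parS S hS⟩ = 1 := by
  apply Units.ext
  rw [piG_coe, siegel_coe, Matrix.toBlocks_fromBlocks₁₁, Units.val_one]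

theorem siegel_injective {S S' : Mn m F} {hS : Sᵀ = S} {hS' : S'ᵀ = S'}
    (h : siegel S hS = siegel S' hS') : S = S' := by
  have h1 := congrArg Subtype.val h
  rw [siegel_coe, siegel_coe, Matrix.fromBlocks_inj] at h1
  exact h1.2.1

/-- every element of the Siegel parabolic is a Levi element times a Siegel element -/
theorem parS_decomp [Finite F] (g : SpG m F) (hg : g ∈ parS m F) :
    ∃ (S : Mn m F) (hS : Sᵀ = S), g = leviG m F (piG m F ⟨g, hg⟩) * siegel S hS := by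
  have hAD := parS_AD g hg
  have hDA := parS_DA g hg
  have hC : (g : M2 m F).toBlocks₂₁ = 0 := hg
  have h1 := Matrix.fromBlocks_toBlocks (g : M2 m F)
  have h2 := g.2
  rw [← h1, hC, Cfsg.Agent.Helper13.sp_mem_fromBlocks_iff] at h2
  have hBA := h2.1
  have hAtD : ((g : M2 m F).toBlocks₁₁)ᵀ * (g : M2 m F).toBlocks₂₂ = 1 := by
    have := congrArg Matrix.transpose hDA
    rwa [Matrix.transpose_mul, Matrix.transpose_transpose, Matrix.transpose_one] at this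
  have hsym : (((g : M2 m F).toBlocks₂₂)ᵀ * (g : M2 m F).toBlocks₁₂)ᵀ
      = ((g : M2 m F).toBlocks₂₂)ᵀ * (g : M2 m F).toBlocks₁₂ := by
    rw [Matrix.transpose_mul, Matrix.transpose_transpose]
    calc ((g : M2 m F).toBlocks₁₂)ᵀ * (g : M2 m F).toBlocks₂₂
        = (((g : M2 m F).toBlocks₂₂)ᵀ * (g : M2 m F).toBlocks₁₁) * (((g : M2 m F).toBlocks₁₂)ᵀ
            * (g : M2 m F).toBlocks₂₂) := by rw [hDA, Matrix.one_mul]
      _ = ((g : M2 m F).toBlocks₂₂)ᵀ * ((g : M2 m F).toBlocks₁₁ * ((g : M2 m F).toBlocks₁₂)ᵀ)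
            * (g : M2 m F).toBlocks₂₂ := by simp only [Matrix.mul_assoc]
      _ = ((g : M2 m F).toBlocks₂₂)ᵀ * ((g : M2 m F).toBlocks₁₂ * ((g : M2 m F).toBlocks₁₁)ᵀ)
            * (g : M2 m F).toBlocks₂₂ := by rw [hBA]
      _ = ((g : M2 m F).toBlocks₂₂)ᵀ * (g : M2 m F).toBlocks₁₂ * (((g : M2 m F).toBlocks₁₁)ᵀ
            * (g : M2 m F).toBlocks₂₂) := by simp only [Matrix.mul_assoc]
      _ = ((g : M2 m F).toBlocks₂₂)ᵀ * (g : M2 m F).toBlocks₁₂ := by rw [hAtD, Matrix.mul_one]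
  refine ⟨_, hsym, ?_⟩
  apply Subtype.ext
  rw [spG_coe_mul, leviG_coe, siegel_coe, Matrix.fromBlocks_multiply, piG_coe, piG_inv_coe,
    Matrix.transpose_transpose]
  conv_lhs => rw [← h1, hC]
  have e1 : (g : M2 m F).toBlocks₁₁ * (((g : M2 m F).toBlocks₂₂)ᵀ * (g : M2 m F).toBlocks₁₂)
      = (g : M2 m F).toBlocks₁₂ := by
    rw [← Matrix.mul_assoc, hAD, Matrix.one_mul]
  rw [e1]
  simp

/-- conjugating a Siegel element by an element of the Siegel parabolic -/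
theorem par_conj_siegel [Finite F] (x : SpG m F) (hx : x ∈ parS m F) (S : Mn m F) (hS : Sᵀ = S) :
    ∃ hS' : ((x : M2 m F).toBlocks₁₁ * S * ((x : M2 m F).toBlocks₁₁)ᵀ)ᵀ
        = (x : M2 m F).toBlocks₁₁ * S * ((x : M2 m F).toBlocks₁₁)ᵀ,
      x * siegel S hS * x⁻¹ = siegel ((x : M2 m F).toBlocks₁₁ * S * ((x : M2 m F).toBlocks₁₁)ᵀ) hS' := by
  have hS' : ((x : M2 m F).toBlocks₁₁ * S * ((x : M2 m F).toBlocks₁₁)ᵀ)ᵀ
        = (x : M2 m F).toBlocks₁₁ * S * ((x : M2 m F).toBlocks₁₁)ᵀ := by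
    rw [Matrix.transpose_mul, Matrix.transpose_mul, Matrix.transpose_transpose, hS, Matrix.mul_assoc]
  refine ⟨hS', ?_⟩
  have hDA := parS_DA x hx
  have hC : (x : M2 m F).toBlocks₂₁ = 0 := hx
  have hAtD : ((x : M2 m F).toBlocks₁₁)ᵀ * (x : M2 m F).toBlocks₂₂ = 1 := by
    have := congrArg Matrix.transpose hDA
    rwa [Matrix.transpose_mul, Matrix.transpose_transpose, Matrix.transpose_one] at this
  have h1 := Matrix.fromBlocks_toBlocks (x : M2 m F)
  rw [hC] at h1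
  rw [mul_inv_eq_iff_eq_mul]
  apply Subtype.ext
  rw [spG_coe_mul, spG_coe_mul, siegel_coe, siegel_coe]
  obtain ⟨A, hA⟩ : ∃ A : Mn m F, A = (x : M2 m F).toBlocks₁₁ := ⟨_, rfl⟩
  obtain ⟨B, hB⟩ : ∃ B : Mn m F, B = (x : M2 m F).toBlocks₁₂ := ⟨_, rfl⟩
  obtain ⟨D, hD⟩ : ∃ D : Mn m F, D = (x : M2 m F).toBlocks₂₂ := ⟨_, rfl⟩
  rw [← hA, ← hB, ← hD] at h1
  rw [← hA, ← hD] at hAtD
  rw [← hA, ← h1, Matrix.fromBlocks_multiply, Matrix.fromBlocks_multiply]
  have e1 : A * S * Aᵀ * D = A * S := by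
    rw [Matrix.mul_assoc, hAtD, Matrix.mul_one]
  simp only [Matrix.mul_one, Matrix.one_mul, Matrix.mul_zero, Matrix.zero_mul, add_zero, zero_add, e1]
  rw [add_comm]

end SpA


section SpB

variable {m : ℕ} {F : Type u} [Field F] [Fintype F]

/-- the elements of the Siegel parabolic whose upper left block lies in a given subgroup of `GL_m(F)` -/
def umap (K : Subgroup (GL (Fin m) F)) : Subgroup (SpG m F) :=
  (K.comap (piG m F)).map (parS m F).subtype

theorem mem_umap {K : Subgroup (GL (Fin m) F)} {g : SpG m F} :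
    g ∈ umap K ↔ ∃ h : g ∈ parS m F, piG m F ⟨g, h⟩ ∈ K := by
  constructor
  · rintro ⟨x, hx, rfl⟩
    exact ⟨x.2, hx⟩
  · rintro ⟨h, hk⟩
    exact ⟨⟨g, h⟩, hk, rfl⟩

theorem umap_mono {K K' : Subgroup (GL (Fin m) F)} (h : K ≤ K') : umap K ≤ umap K' := by
  intro g hg
  obtain ⟨h1, h2⟩ := mem_umap.mp hg
  exact mem_umap.mpr ⟨h1, h h2⟩

theorem umap_conj {K K' : Subgroup (GL (Fin m) F)} (x : SpG m F) (hx : x ∈ parS m F)
    (h : ∀ s ∈ K, piG m F ⟨x, hx⟩ * s * (piG m F ⟨x, hx⟩)⁻¹ ∈ K') :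
    ∀ y ∈ umap K, x * y * x⁻¹ ∈ umap K' := by
  intro y hy
  obtain ⟨hy1, hy2⟩ := mem_umap.mp hy
  refine mem_umap.mpr ⟨(parS m F).mul_mem ((parS m F).mul_mem hx hy1) ((parS m F).inv_mem hx), ?_⟩
  have h1 : (⟨x * y * x⁻¹, (parS m F).mul_mem ((parS m F).mul_mem hx hy1) ((parS m F).inv_mem hx)⟩ : parS m F)
      = ⟨x, hx⟩ * ⟨y, hy1⟩ * ⟨x, hx⟩⁻¹ := rfl
  rw [h1, map_mul, map_mul, map_inv]
  exact h _ hy2

/-- the elements of the Siegel parabolic whose upper left block lies in a given subgroup of `SL_m(F)` -/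
def umapS (K : Subgroup (SLn m F)) : Subgroup (SpG m F) :=
  umap (K.map Matrix.SpecialLinearGroup.toGL)

/-- the unitriangular subgroup of `Sp_{2m}(F)` -/
def USp (m : ℕ) (F : Type u) [Field F] [Fintype F] : Subgroup (SpG m F) := umapS (UniS m F)

theorem mem_umapS {K : Subgroup (SLn m F)} {g : SpG m F} :
    g ∈ umapS K ↔ ∃ _ : g ∈ parS m F, ∃ s ∈ K, (s : Mn m F) = (g : M2 m F).toBlocks₁₁ := by
  unfold umapS
  rw [mem_umap]
  constructor
  · rintro ⟨h, s, hs, hsg⟩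
    refine ⟨h, s, hs, ?_⟩
    exact congrArg (fun a : GL (Fin m) F => (a : Mn m F)) hsg
  · rintro ⟨h, s, hs, hsg⟩
    refine ⟨h, s, hs, ?_⟩
    apply Units.ext
    exact hsg

theorem umapS_mono {K K' : Subgroup (SLn m F)} (h : K ≤ K') : umapS K ≤ umapS K' :=
  umap_mono (Subgroup.map_mono h)

theorem mem_USp {g : SpG m F} :
    g ∈ USp m F ↔ g ∈ parS m F ∧ IsUni (g : M2 m F).toBlocks₁₁ := by
  unfold USp
  rw [mem_umapS]
  constructor
  · rintro ⟨h, s, hs, hsg⟩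
    refine ⟨h, ?_⟩
    rw [← hsg]
    exact hs
  · rintro ⟨h, hu⟩
    exact ⟨h, ⟨_, det_eq_one_of_isUni hu⟩, hu, rfl⟩

/-- the Levi embedding of `SL_m(F)` -/
def leviS (m : ℕ) (F : Type u) [Field F] : SLn m F →* SpG m F :=
  (leviG m F).comp Matrix.SpecialLinearGroup.toGL

theorem leviS_mem_parS (s : SLn m F) : leviS m F s ∈ parS m F := leviG_mem_parS _

theorem piG_leviS (s : SLn m F) :
    piG m F ⟨leviS m F s, leviS_mem_parS s⟩ = Matrix.SpecialLinearGroup.toGL s := piG_leviG _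

theorem leviS_mem_umapS {K : Subgroup (SLn m F)} {s : SLn m F} (hs : s ∈ K) :
    leviS m F s ∈ umapS K :=
  mem_umap.mpr ⟨leviS_mem_parS s, by rw [piG_leviS]; exact Subgroup.mem_map_of_mem _ hs⟩

theorem siegel_mem_umapS (K : Subgroup (SLn m F)) (S : Mn m F) (hS : Sᵀ = S) :
    siegel S hS ∈ umapS K :=
  mem_umap.mpr ⟨siegel_mem_parS S hS, by rw [piG_siegel]; exact one_mem _⟩

theorem umapS_conj_levi {K K' : Subgroup (SLn m F)} (s : SLn m F)
    (h : ∀ u ∈ K, s * u * s⁻¹ ∈ K') :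
    ∀ y ∈ umapS K, leviS m F s * y * (leviS m F s)⁻¹ ∈ umapS K' := by
  apply umap_conj _ (leviS_mem_parS s)
  rintro _ ⟨u, hu, rfl⟩
  rw [piG_leviS, ← map_inv, ← map_mul, ← map_mul]
  exact Subgroup.mem_map_of_mem _ (h u hu)

theorem umapS_conj_USp {K K' : Subgroup (SLn m F)}
    (h : ∀ s ∈ UniS m F, ∀ u ∈ K, s * u * s⁻¹ ∈ K') :
    ∀ x ∈ USp m F, ∀ y ∈ umapS K, x * y * x⁻¹ ∈ umapS K' := by
  intro x hx
  obtain ⟨hx1, s, hs, hsx⟩ := mem_umap.mp hx
  apply umap_conj x hx1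
  rintro _ ⟨u, hu, rfl⟩
  rw [← hsx, ← map_inv, ← map_mul, ← map_mul]
  exact Subgroup.mem_map_of_mem _ (h s hs u hu)

omit [Fintype F] in
theorem leviS_mul_siegel_blk11 (s : SLn m F) (S : Mn m F) (hS : Sᵀ = S) :
    ((leviS m F s * siegel S hS : SpG m F) : M2 m F).toBlocks₁₁ = (s : Mn m F) := by
  rw [spG_coe_mul, blk11_mul, siegel_coe, Matrix.toBlocks_fromBlocks₁₁, Matrix.toBlocks_fromBlocks₂₁,
    Matrix.mul_one, Matrix.mul_zero, add_zero]
  rfl

theorem USp_decomp {g : SpG m F} (hg : g ∈ USp m F) :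
    ∃ s ∈ UniS m F, ∃ (S : Mn m F) (hS : Sᵀ = S), g = leviS m F s * siegel S hS := by
  obtain ⟨hg1, s, hs, hsg⟩ := mem_umap.mp hg
  obtain ⟨S, hS, hgS⟩ := parS_decomp g hg1
  refine ⟨s, hs, S, hS, ?_⟩
  rw [hgS, ← hsg]
  rfl

omit [Fintype F] in
theorem leviS_mul_siegel_inj {s s' : SLn m F} {S S' : Mn m F} {hS : Sᵀ = S} {hS' : S'ᵀ = S'}
    (h : leviS m F s * siegel S hS = leviS m F s' * siegel S' hS') : s = s' ∧ S = S' := by
  have h1 : s = s' := by
    apply Subtype.ext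
    rw [← leviS_mul_siegel_blk11 s S hS, h, leviS_mul_siegel_blk11]
  subst h1
  exact ⟨rfl, siegel_injective (mul_left_cancel h)⟩

/-- the unitriangular subgroup is in bijection with pairs (unitriangular, symmetric) -/
noncomputable def uspEquiv : (UniS m F × {S : Mn m F // Sᵀ = S}) ≃ USp m F :=
  Equiv.ofBijective (fun p => ⟨leviS m F p.1.1 * siegel p.2.1 p.2.2,
    mul_mem (leviS_mem_umapS p.1.2) (siegel_mem_umapS _ _ _)⟩) (by
    constructor
    · rintro ⟨⟨s, hs⟩, ⟨S, hS⟩⟩ ⟨⟨s', hs'⟩, ⟨S', hS'⟩⟩ h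
      have h1 := leviS_mul_siegel_inj (congrArg Subtype.val h)
      obtain ⟨h2, h3⟩ := h1
      subst h2 h3
      rfl
    · rintro ⟨g, hg⟩
      obtain ⟨s, hs, S, hS, hgS⟩ := USp_decomp hg
      exact ⟨⟨⟨s, hs⟩, ⟨S, hS⟩⟩, Subtype.ext hgS.symm⟩)

theorem card_USp : Nat.card (USp m F) = Fintype.card F ^ (m ^ 2) := by
  rw [← Nat.card_congr uspEquiv, Nat.card_prod, card_UniS,
    Nat.card_congr (Cfsg.Agent.Helper13.symmEquiv m), Nat.card_fun, Nat.card_eq_fintype_card,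
    Nat.card_eq_fintype_card, Cfsg.Agent.Helper13.card_le_pairs', ← pow_add,
    Cfsg.Agent.Helper13.tri_add]

theorem isPGroup_USp (p f : ℕ) [Fact p.Prime] (hF : Fintype.card F = p ^ f) :
    IsPGroup p (USp m F) := by
  apply IsPGroup.of_card (n := f * m ^ 2)
  rw [card_USp, hF, pow_mul]

theorem not_dvd_index_USp (p f : ℕ) [Fact p.Prime] (hF : Fintype.card F = p ^ f) (hf : 1 ≤ f) :
    ¬ p ∣ (USp m F).index := by
  have hp : p.Prime := Fact.out
  intro hdvd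
  have h1 := Cfsg.Agent.Helper5.card_sp (F := F) (m := m)
  rw [← Subgroup.card_mul_index (USp m F), card_USp] at h1
  have hq0 : 0 < Fintype.card F ^ (m ^ 2) := pow_pos Fintype.card_pos _
  have h2 : (USp m F).index = ∏ i ∈ Finset.range m, (Fintype.card F ^ (2 * (i + 1)) - 1) :=
    Nat.eq_of_mul_eq_mul_left hq0 h1
  rw [h2] at hdvd
  obtain ⟨i, -, hi⟩ := (Prime.dvd_finsetProd_iff hp.prime _).mp hdvd
  have h4 : p ∣ Fintype.card F ^ (2 * (i + 1)) := by
    rw [hF, ← pow_mul]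
    exact dvd_pow_self _ (Nat.mul_pos (by omega) (by omega)).ne'
  have h5 : 0 < Fintype.card F ^ (2 * (i + 1)) := pow_pos Fintype.card_pos _
  have h6 : p ∣ 1 := by
    have := Nat.dvd_sub h4 hi
    rwa [Nat.sub_sub_self h5] at this
  exact hp.one_lt.ne' (Nat.dvd_one.mp h6)

/-- the unitriangular subgroup as a Sylow `p`-subgroup of `Sp_{2m}(F)` -/
noncomputable def uspSyl (p f : ℕ) [Fact p.Prime] (hF : Fintype.card F = p ^ f) (hf : 1 ≤ f) :
    Sylow p (SpG m F) :=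
  (isPGroup_USp p f hF).toSylow (not_dvd_index_USp p f hF hf)

theorem uspSyl_coe (p f : ℕ) [Fact p.Prime] (hF : Fintype.card F = p ^ f) (hf : 1 ≤ f) :
    ((uspSyl p f hF hf : Sylow p (SpG m F)) : Subgroup (SpG m F)) = USp m F :=
  IsPGroup.toSylow_coe _ _

end SpB

end Cfsg.Agent.Helper88
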