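import Cfsg.Agent.Helper88.SpA

set_option autoImplicit false
set_option linter.unusedSectionVars false

/-!
Helper library (helper88): the normalizer of the unitriangular Sylow subgroup of `Sp_{2m}(F)` and the
torus elements as products of root elements normalizing a centric normal subgroup.
-/

namespace Cfsg.Agent.Helper88

open Cfsg Matrix Cfsg.Agent.Helper44.PSLn

universe u

section SpC

variable {m : ℕ} {F : Type u} [Field F] [Fintype F]

theorem isUni_of_mul_eq_one {A X : Mn m F} (hA : IsUni A) (h : A * X = 1) : IsUni X := by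
  obtain ⟨s, hs⟩ : ∃ s : SLn m F, s = ⟨A, det_eq_one_of_isUni hA⟩ := ⟨_, rfl⟩
  have hsU : s ∈ UniS m F := by rw [hs]; exact hA
  have h2 : (s : Mn m F) * ((s⁻¹ : SLn m F) : Mn m F) = 1 := by
    rw [← Matrix.SpecialLinearGroup.coe_mul, mul_inv_cancel, Matrix.SpecialLinearGroup.coe_one]
  have h3 : (s : Mn m F) = A := by rw [hs]
  rw [h3] at h2
  have h4 : ((s⁻¹ : SLn m F) : Mn m F) * A = 1 := _root_.mul_eq_one_comm.mp h2
  have h1 : X = ((s⁻¹ : SLn m F) : Mn m F) := by
    calc X = (((s⁻¹ : SLn m F) : Mn m F) * A) * X := by rw [h4, Matrix.one_mul]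
      _ = ((s⁻¹ : SLn m F) : Mn m F) := by rw [Matrix.mul_assoc, h, Matrix.mul_one]
  rw [h1]
  exact (UniS m F).inv_mem hsU

omit [Fintype F] in
theorem uni_last_row {A : Mn m F} (hA : IsUni A) (l : Fin m) (hl : ∀ i : Fin m, i ≤ l) (j : Fin m) :
    A l j = if j = l then 1 else 0 := by
  by_cases hj : j = l
  · rw [if_pos hj, hj, hA.2]
  · rw [if_neg hj, hA.1 l j (lt_of_le_of_ne (hl j) hj)]

theorem usp_A_last {g : SpG m F} (hg : g ∈ USp m F) (l : Fin m) (hl : ∀ i : Fin m, i ≤ l) (j : Fin m) :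
    (g : M2 m F).toBlocks₁₁ l j = if j = l then 1 else 0 :=
  uni_last_row (mem_USp.mp hg).2 l hl j

theorem usp_D_last {g : SpG m F} (hg : g ∈ USp m F) (l : Fin m) (hl : ∀ i : Fin m, i ≤ l) (i : Fin m) :
    (g : M2 m F).toBlocks₂₂ i l = if i = l then 1 else 0 := by
  have h1 := isUni_of_mul_eq_one (mem_USp.mp hg).2 (parS_AD g (mem_USp.mp hg).1)
  have h2 := uni_last_row h1 l hl i
  rwa [Matrix.transpose_apply] at h2

/-- the coordinate of the last long root is additive on the unitriangular subgroup -/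
theorem usp_B_mul {g h : SpG m F} (hg : g ∈ USp m F) (hh : h ∈ USp m F) (l : Fin m)
    (hl : ∀ i : Fin m, i ≤ l) :
    ((g * h : SpG m F) : M2 m F).toBlocks₁₂ l l
      = (g : M2 m F).toBlocks₁₂ l l + (h : M2 m F).toBlocks₁₂ l l := by
  rw [spG_coe_mul, blk12_mul, Matrix.add_apply, Matrix.mul_apply, Matrix.mul_apply,
    Finset.sum_eq_single l, Finset.sum_eq_single l]
  · rw [usp_A_last hg l hl, if_pos rfl, one_mul, usp_D_last hh l hl, if_pos rfl, mul_one, add_comm]
  · intro k _ hk
    rw [usp_D_last hh l hl, if_neg hk, mul_zero]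
  · intro h1
    exact absurd (Finset.mem_univ l) h1
  · intro k _ hk
    rw [usp_A_last hg l hl, if_neg hk, zero_mul]
  · intro h1
    exact absurd (Finset.mem_univ l) h1

theorem leviS_blk11 (s : SLn m F) : ((leviS m F s : SpG m F) : M2 m F).toBlocks₁₁ = (s : Mn m F) := rfl

theorem leviS_blk12 (s : SLn m F) : ((leviS m F s : SpG m F) : M2 m F).toBlocks₁₂ = 0 := rfl

theorem leviS_blk22 (s : SLn m F) :
    ((leviS m F s : SpG m F) : M2 m F).toBlocks₂₂ = (((s⁻¹ : SLn m F) : Mn m F))ᵀ := by
  show ((↑((Matrix.SpecialLinearGroup.toGL s)⁻¹) : Mn m F))ᵀ = _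
  rw [← map_inv]
  rfl

theorem siegel_blk11 (S : Mn m F) (hS : Sᵀ = S) : ((siegel S hS : SpG m F) : M2 m F).toBlocks₁₁ = 1 := rfl

theorem siegel_blk12 (S : Mn m F) (hS : Sᵀ = S) : ((siegel S hS : SpG m F) : M2 m F).toBlocks₁₂ = S := rfl

theorem siegel_blk22 (S : Mn m F) (hS : Sᵀ = S) : ((siegel S hS : SpG m F) : M2 m F).toBlocks₂₂ = 1 := rfl

theorem siegel_mem_USp (S : Mn m F) (hS : Sᵀ = S) : siegel S hS ∈ USp m F := siegel_mem_umapS _ S hS

omit [Fintype F] in
theorem single_symm (i : Fin m) (c : F) : (Matrix.single i i c)ᵀ = Matrix.single i i c := by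
  rw [Matrix.transpose_single]

omit [Fintype F] in
theorem single_add_symm (i j : Fin m) (c : F) :
    (Matrix.single i j c + Matrix.single j i c)ᵀ = Matrix.single i j c + Matrix.single j i c := by
  rw [Matrix.transpose_add, Matrix.transpose_single, Matrix.transpose_single, add_comm]

/-- an element normalizing the unitriangular subgroup lies in the Borel subgroup -/
theorem par_of_normalizes (g : SpG m F) (hg : ∀ y ∈ USp m F, g * y * g⁻¹ ∈ USp m F) :
    g ∈ parS m F ∧ ∀ i j : Fin m, j < i → (g : M2 m F).toBlocks₁₁ i j = 0 := by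
  have hgN : g ∈ Subgroup.normalizer ((USp m F : Subgroup (SpG m F)) : Set (SpG m F)) :=
    Helper85.mem_normalizer_of_conj_mem hg
  have hg' : ∀ y ∈ USp m F, g⁻¹ * y * g ∈ USp m F := by
    intro y hy
    have := (Subgroup.mem_normalizer_iff.mp (inv_mem hgN) y).mp hy
    rwa [inv_inv] at this
  have hrel : ∀ t ∈ USp m F, ∃ W : Mn m F, IsUni W ∧
      (t : M2 m F).toBlocks₁₁ * (g : M2 m F).toBlocks₁₁ + (t : M2 m F).toBlocks₁₂ * (g : M2 m F).toBlocks₂₁
        = (g : M2 m F).toBlocks₁₁ * W := by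
    intro t ht
    obtain ⟨w, hw⟩ : ∃ w : SpG m F, w = g⁻¹ * t * g := ⟨_, rfl⟩
    have hwU : w ∈ USp m F := by rw [hw]; exact hg' _ ht
    have heq : t * g = g * w := by rw [hw]; group
    have h1 := congrArg (fun x : SpG m F => (x : M2 m F).toBlocks₁₁) heq
    simp only [spG_coe_mul, blk11_mul] at h1
    have hwC : (w : M2 m F).toBlocks₂₁ = 0 := (mem_USp.mp hwU).1
    rw [hwC, mul_zero, add_zero] at h1
    exact ⟨_, (mem_USp.mp hwU).2, h1⟩
  have key : ∀ k : ℕ, ∀ j : Fin m, (j : ℕ) < k → ∀ i : Fin m, j < i →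
      (g : M2 m F).toBlocks₁₁ i j = 0 := by
    intro k
    induction k with
    | zero =>
      intro j hj
      omega
    | succ k ih =>
      intro j hj i hji
      by_cases hjk : (j : ℕ) < k
      · exact ih j hjk i hji
      · have hIH : ∀ k' : Fin m, k' < j → ∀ r : Fin m, k' < r → (g : M2 m F).toBlocks₁₁ r k' = 0 :=
          fun k' hk' r hr => ih k' (by rw [Fin.lt_def] at hk'; omega) r hr
        obtain ⟨W, hW, hrelW⟩ := hrel (leviS m F (Matrix.SpecialLinearGroup.transvection (ne_of_lt hji) 1))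
          (leviS_mem_umapS (transvection_mem_UniS hji 1))
        rw [leviS_blk11, leviS_blk12, zero_mul, add_zero, Matrix.SpecialLinearGroup.transvection_coe,
          add_mul, one_mul] at hrelW
        have h2 := congrFun (congrFun hrelW j) j
        rw [Matrix.add_apply, Matrix.single_mul_apply_same, one_mul, Matrix.mul_apply,
          Finset.sum_eq_single j] at h2
        · rw [hW.2, mul_one] at h2
          exact add_left_cancel (h2.trans (add_zero _).symm)
        · intro k' _ hkj
          rcases lt_or_gt_of_ne hkj with h3 | h3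
          · rw [hIH k' h3 j h3, zero_mul]
          · rw [hW.1 k' j h3, mul_zero]
        · intro h3
          exact absurd (Finset.mem_univ j) h3
  have hup : ∀ i j : Fin m, j < i → (g : M2 m F).toBlocks₁₁ i j = 0 :=
    fun i j hji => key ((j : ℕ) + 1) j (Nat.lt_succ_self _) i hji
  have hsum : ∀ (W : Mn m F), IsUni W → ∀ j : Fin m,
      ((g : M2 m F).toBlocks₁₁ * W) j j = (g : M2 m F).toBlocks₁₁ j j := by
    intro W hW j
    rw [Matrix.mul_apply, Finset.sum_eq_single j]
    · rw [hW.2, mul_one]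
    · intro k' _ hkj
      rcases lt_or_gt_of_ne hkj with h3 | h3
      · rw [hup j k' h3, zero_mul]
      · rw [hW.1 k' j h3, mul_zero]
    · intro h3
      exact absurd (Finset.mem_univ j) h3
  refine ⟨?_, hup⟩
  rw [mem_parS]
  ext i j
  rw [Matrix.zero_apply]
  by_cases hij : i = j
  · subst hij
    obtain ⟨W, hW, hrelW⟩ := hrel (siegel (Matrix.single i i 1) (single_symm i 1)) (siegel_mem_USp _ _)
    rw [siegel_blk11, siegel_blk12, one_mul] at hrelW
    have h2 := congrFun (congrFun hrelW i) i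
    rw [Matrix.add_apply, Matrix.single_mul_apply_same, one_mul, hsum W hW i] at h2
    exact add_left_cancel (h2.trans (add_zero _).symm)
  · obtain ⟨W, hW, hrelW⟩ := hrel (siegel (Matrix.single i j 1 + Matrix.single j i 1) (single_add_symm i j 1))
      (siegel_mem_USp _ _)
    rw [siegel_blk11, siegel_blk12, one_mul] at hrelW
    have h2 := congrFun (congrFun hrelW j) j
    rw [Matrix.add_apply, Matrix.add_mul, Matrix.add_apply,
      Matrix.single_mul_apply_of_ne _ _ _ _ _ (Ne.symm hij), zero_add, Matrix.single_mul_apply_same,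
      one_mul, hsum W hW j] at h2
    exact add_left_cancel (h2.trans (add_zero _).symm)


/-- invertible diagonal matrices -/
def diagG (d : Fin m → F) (hd : ∀ i, d i ≠ 0) : GL (Fin m) F :=
  ⟨Matrix.diagonal d, Matrix.diagonal (fun i => (d i)⁻¹), by
    rw [Matrix.diagonal_mul_diagonal, ← Matrix.diagonal_one]
    congr 1
    funext i
    exact mul_inv_cancel₀ (hd i), by
    rw [Matrix.diagonal_mul_diagonal, ← Matrix.diagonal_one]
    congr 1
    funext i
    exact inv_mul_cancel₀ (hd i)⟩

theorem leviG_diagG_blk11 (d : Fin m → F) (hd : ∀ i, d i ≠ 0) :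
    ((leviG m F (diagG d hd) : SpG m F) : M2 m F).toBlocks₁₁ = Matrix.diagonal d := rfl

theorem leviG_blk12 (a : GL (Fin m) F) : ((leviG m F a : SpG m F) : M2 m F).toBlocks₁₂ = 0 := rfl

theorem leviG_blk21 (a : GL (Fin m) F) : ((leviG m F a : SpG m F) : M2 m F).toBlocks₂₁ = 0 := rfl

/-- an element of the Borel subgroup is a diagonal element times a unitriangular one -/
theorem exists_diag_mul_usp (g : SpG m F) (hg : g ∈ parS m F)
    (hup : ∀ i j : Fin m, j < i → (g : M2 m F).toBlocks₁₁ i j = 0) :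
    ∃ (d : Fin m → F) (hd : ∀ i, d i ≠ 0), (leviG m F (diagG d hd))⁻¹ * g ∈ USp m F := by
  have hdet : ((g : M2 m F).toBlocks₁₁).det ≠ 0 := Matrix.det_ne_zero_of_right_inverse (parS_AD g hg)
  have hne := Cfsg.Agent.Helper13.upper_diag_ne_zero _ hup hdet
  refine ⟨fun i => (g : M2 m F).toBlocks₁₁ i i, hne, ?_⟩
  obtain ⟨w, hw⟩ : ∃ w : SpG m F, w = (leviG m F (diagG _ hne))⁻¹ * g := ⟨_, rfl⟩
  rw [← hw]
  have h1 : leviG m F (diagG _ hne) * w = g := by rw [hw]; group
  have hwP : w ∈ parS m F := by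
    rw [hw]
    exact (parS m F).mul_mem ((parS m F).inv_mem (leviG_mem_parS _)) hg
  have h2 : ∀ i j, (g : M2 m F).toBlocks₁₁ i i * (w : M2 m F).toBlocks₁₁ i j
      = (g : M2 m F).toBlocks₁₁ i j := by
    intro i j
    have h3 := congrArg (fun x : SpG m F => (x : M2 m F).toBlocks₁₁) h1
    simp only [spG_coe_mul, blk11_mul] at h3
    rw [leviG_diagG_blk11, leviG_blk12, zero_mul, add_zero] at h3
    have h4 := congrFun (congrFun h3 i) j
    rw [Matrix.diagonal_mul] at h4
    exact h4
  rw [mem_USp]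
  refine ⟨hwP, fun i j hij => ?_, fun i => ?_⟩
  · have := h2 i j
    rw [hup i j hij] at this
    exact (mul_eq_zero.mp this).resolve_left (hne i)
  · have := h2 i i
    exact mul_left_cancel₀ (hne i) (this.trans (mul_one _).symm)

/-- diagonal elements normalize the unitriangular subgroup -/
theorem leviG_diagG_conj_mem_USp (d : Fin m → F) (hd : ∀ i, d i ≠ 0) :
    ∀ y ∈ USp m F, leviG m F (diagG d hd) * y * (leviG m F (diagG d hd))⁻¹ ∈ USp m F := by
  intro y hy
  obtain ⟨hy1, hy2⟩ := mem_USp.mp hy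
  obtain ⟨w, hw⟩ : ∃ w : SpG m F, w = leviG m F (diagG d hd) * y * (leviG m F (diagG d hd))⁻¹ :=
    ⟨_, rfl⟩
  rw [← hw]
  have hwP : w ∈ parS m F := by
    rw [hw]
    exact mul_mem (mul_mem (leviG_mem_parS _) hy1) (inv_mem (leviG_mem_parS _))
  have h1 : w * leviG m F (diagG d hd) = leviG m F (diagG d hd) * y := by rw [hw]; group
  have h2 : ∀ i j, (w : M2 m F).toBlocks₁₁ i j * d j = d i * (y : M2 m F).toBlocks₁₁ i j := by
    intro i j
    have h3 := congrArg (fun x : SpG m F => (x : M2 m F).toBlocks₁₁) h1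
    simp only [spG_coe_mul, blk11_mul] at h3
    rw [leviG_diagG_blk11, leviG_blk12, leviG_blk21, zero_mul, add_zero, mul_zero, add_zero] at h3
    have h4 := congrFun (congrFun h3 i) j
    rw [Matrix.mul_diagonal, Matrix.diagonal_mul] at h4
    exact h4
  rw [mem_USp]
  refine ⟨hwP, fun i j hij => ?_, fun i => ?_⟩
  · have := h2 i j
    rw [hy2.1 i j hij, mul_zero] at this
    exact (mul_eq_zero.mp this).resolve_right (hd j)
  · have := h2 i i
    rw [hy2.2 i, mul_one] at this
    exact mul_right_cancel₀ (hd i) (this.trans (one_mul _).symm)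

/-- the short-root torus elements are good -/
theorem leviS_hElt_good (p : ℕ) [CharP F p] (k k' : Fin m) (hk : (k' : ℕ) = (k : ℕ) + 1)
    {t : F} (ht : t ≠ 0) (hkk' : k ≠ k') :
    GoodElt p (USp m F) (leviS m F (diagSL (hEltFun k k' t) (hEltFun_prod hkk' ht))) := by
  have hlt : k < k' := by
    rw [Fin.lt_def, hk]
    exact Nat.lt_succ_self _
  refine ⟨umapS_conj_levi _ (fun u hu => diagSL_conj_mem_UniS _ _ hu), umapS (uniK k k' hk),
    umapS_mono (fun s hs => hs.1), umapS_conj_USp (fun s hs u hu => uniK_normal k k' hk s hs u hu),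
    ?_, ?_⟩
  · intro s hs hcomm
    have h1 := hcomm (siegel (Matrix.single k' k' 1) (single_symm k' 1)) (siegel_mem_umapS _ _ _)
    have h2 := congrArg (fun x : SpG m F => (x : M2 m F).toBlocks₁₂) h1
    simp only [spG_coe_mul, blk12_mul, siegel_blk11, siegel_blk12, siegel_blk22, Matrix.mul_one,
      Matrix.one_mul] at h2
    have h3 := congrFun (congrFun h2 k) k'
    rw [Matrix.add_apply, Matrix.add_apply, Matrix.mul_single_apply_same, mul_one,
      Matrix.single_mul_apply_of_ne _ _ _ _ _ hkk', add_zero, add_comm] at h3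
    have h4 : (s : M2 m F).toBlocks₁₁ k k' = 0 := add_left_cancel (h3.trans (add_zero _).symm)
    obtain ⟨hs1, hs2⟩ := mem_USp.mp hs
    exact mem_umapS.mpr ⟨hs1, ⟨_, det_eq_one_of_isUni hs2⟩, ⟨hs2, h4⟩, rfl⟩
  · have hX : ∀ a : F, leviS m F (Matrix.SpecialLinearGroup.transvection hkk' a) ∈
        Subgroup.closure {x : SpG m F | (∃ j : ℕ, x ^ p ^ j = 1) ∧
          ∀ y ∈ umapS (uniK (F := F) k k' hk), x * y * x⁻¹ ∈ umapS (uniK k k' hk)} := by
      intro a
      refine Subgroup.subset_closure ⟨⟨1, ?_⟩, umapS_conj_levi _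
        (fun u hu => uniK_normal k k' hk _ (transvection_mem_UniS hlt a) u hu)⟩
      rw [← map_pow, transvection_eq_tvS, tvS_pow_char p, map_one]
    have hY : ∀ a : F, leviS m F (Matrix.SpecialLinearGroup.transvection hkk'.symm a) ∈
        Subgroup.closure {x : SpG m F | (∃ j : ℕ, x ^ p ^ j = 1) ∧
          ∀ y ∈ umapS (uniK (F := F) k k' hk), x * y * x⁻¹ ∈ umapS (uniK k k' hk)} := by
      intro a
      refine Subgroup.subset_closure ⟨⟨1, ?_⟩, umapS_conj_levi _
        (fun u hu => lower_conj_uniK k k' hk hkk'.symm a u hu)⟩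
      rw [← map_pow, transvection_eq_tvS, tvS_pow_char p, map_one]
    rw [hElt_eq_prod hkk' ht]
    simp only [map_mul]
    exact mul_mem (mul_mem (mul_mem (mul_mem (mul_mem (hX _) (hY _)) (hX _)) (hX _)) (hY _)) (hX _)

end SpC


section SpD

variable {m : ℕ} {F : Type u} [Field F] [Fintype F]

omit [Fintype F] in
theorem diag_zero' : Matrix.diagonal (0 : Fin m → F) = 0 := Matrix.diagonal_zero

omit [Fintype F] in
theorem diag_one' : Matrix.diagonal (1 : Fin m → F) = 1 := Matrix.diagonal_one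

/-- lower Siegel elements with diagonal block -/
def ylowF (c : Fin m → F) : SpG m F := ⟨Matrix.fromBlocks 1 0 (Matrix.diagonal c) 1, by
  rw [Cfsg.Agent.Helper13.sp_mem_fromBlocks_iff]
  refine ⟨by simp, by simp, ?_⟩
  rw [Matrix.one_mul, Matrix.transpose_one, Matrix.mul_one, Matrix.diagonal_transpose]⟩

theorem ylowF_coe (c : Fin m → F) :
    ((ylowF c : SpG m F) : M2 m F) = Matrix.fromBlocks 1 0 (Matrix.diagonal c) 1 := rfl

theorem ylowF_blk11 (c : Fin m → F) : ((ylowF c : SpG m F) : M2 m F).toBlocks₁₁ = 1 := rfl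

theorem ylowF_blk12 (c : Fin m → F) : ((ylowF c : SpG m F) : M2 m F).toBlocks₁₂ = 0 := rfl

theorem ylowF_blk21 (c : Fin m → F) :
    ((ylowF c : SpG m F) : M2 m F).toBlocks₂₁ = Matrix.diagonal c := rfl

theorem ylowF_blk22 (c : Fin m → F) : ((ylowF c : SpG m F) : M2 m F).toBlocks₂₂ = 1 := rfl

theorem ylowF_mul (c c' : Fin m → F) : ylowF c * ylowF c' = ylowF (c + c') := by
  apply Subtype.ext
  rw [spG_coe_mul, ylowF_coe, ylowF_coe, ylowF_coe, Matrix.fromBlocks_multiply]
  simp [Matrix.diagonal_add]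

theorem ylowF_zero : ylowF (0 : Fin m → F) = 1 := by
  apply Subtype.ext
  rw [ylowF_coe, spG_coe_one, diag_zero', Matrix.fromBlocks_one]

theorem ylowF_pow (c : Fin m → F) (k : ℕ) : ylowF c ^ k = ylowF (k • c) := by
  induction k with
  | zero => rw [pow_zero, zero_smul, ylowF_zero]
  | succ k ih => rw [pow_succ, ih, ylowF_mul, succ_nsmul]

theorem ylowF_pow_char (p : ℕ) [CharP F p] (c : Fin m → F) : ylowF c ^ p ^ 1 = 1 := by
  rw [pow_one, ylowF_pow, ← ylowF_zero]
  congr 1
  funext i
  rw [Pi.smul_apply, nsmul_eq_mul, CharP.cast_eq_zero, zero_mul, Pi.zero_apply]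

theorem siegel_pow (S : Mn m F) (hS : Sᵀ = S) (k : ℕ) :
    ∃ h' : (k • S)ᵀ = k • S, siegel S hS ^ k = siegel (k • S) h' := by
  induction k with
  | zero =>
    refine ⟨by rw [zero_smul]; exact Matrix.transpose_zero, ?_⟩
    rw [pow_zero, ← siegel_zero]
    exact siegel_congr (zero_smul ℕ S).symm _ _
  | succ k ih =>
    obtain ⟨h', hk⟩ := ih
    refine ⟨by rw [succ_nsmul, Matrix.transpose_add, h', hS], ?_⟩
    rw [pow_succ, hk, siegel_mul]
    exact siegel_congr (succ_nsmul S k).symm _ _

theorem siegel_pow_char (p : ℕ) [CharP F p] (S : Mn m F) (hS : Sᵀ = S) : siegel S hS ^ p ^ 1 = 1 := by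
  obtain ⟨h', hk⟩ := siegel_pow S hS p
  rw [pow_one, hk, ← siegel_zero]
  apply siegel_congr
  ext i j
  rw [Matrix.smul_apply, nsmul_eq_mul, CharP.cast_eq_zero, zero_mul, Matrix.zero_apply]

theorem transvection_inv' {i j : Fin m} (hij : i ≠ j) (a : F) :
    (Matrix.SpecialLinearGroup.transvection hij a : SLn m F)⁻¹
      = Matrix.SpecialLinearGroup.transvection hij (-a) := by
  apply inv_eq_of_mul_eq_one_right
  apply Subtype.ext
  rw [Matrix.SpecialLinearGroup.coe_mul, Matrix.SpecialLinearGroup.transvection_coe,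
    Matrix.SpecialLinearGroup.transvection_coe, Matrix.SpecialLinearGroup.coe_one, add_mul,
    Matrix.one_mul, mul_add, Matrix.mul_one, Matrix.single_mul_single_of_ne a i j i hij.symm (-a),
    add_zero, add_assoc, ← Matrix.single_add, neg_add_cancel, Matrix.single_zero, add_zero]

theorem one_blk12 : ((1 : SpG m F) : M2 m F).toBlocks₁₂ = 0 := by
  rw [spG_coe_one, ← Matrix.fromBlocks_one, Matrix.toBlocks_fromBlocks₁₂]

/-- the unitriangular elements whose last long root coordinate vanishes -/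
def qLast (l : Fin m) (hl : ∀ i : Fin m, i ≤ l) : Subgroup (SpG m F) where
  carrier := {g | g ∈ USp m F ∧ (g : M2 m F).toBlocks₁₂ l l = 0}
  mul_mem' := by
    rintro a b ⟨ha, ha0⟩ ⟨hb, hb0⟩
    exact ⟨mul_mem ha hb, by rw [usp_B_mul ha hb l hl, ha0, hb0, add_zero]⟩
  one_mem' := ⟨one_mem _, by rw [one_blk12, Matrix.zero_apply]⟩
  inv_mem' := by
    rintro a ⟨ha, ha0⟩
    have hai := inv_mem ha
    refine ⟨hai, ?_⟩
    have h1 := usp_B_mul ha hai l hl
    rw [mul_inv_cancel, ha0, zero_add, one_blk12, Matrix.zero_apply] at h1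
    exact h1.symm

theorem qLast_normal (l : Fin m) (hl : ∀ i : Fin m, i ≤ l) :
    ∀ s ∈ USp m F, ∀ x ∈ qLast (F := F) l hl, s * x * s⁻¹ ∈ qLast (F := F) l hl := by
  rintro s hs x ⟨hx, hx0⟩
  have hsi := inv_mem hs
  refine ⟨mul_mem (mul_mem hs hx) hsi, ?_⟩
  have h1 := usp_B_mul hs hsi l hl
  rw [mul_inv_cancel, one_blk12, Matrix.zero_apply] at h1
  rw [usp_B_mul (mul_mem hs hx) hsi l hl, usp_B_mul hs hx l hl, hx0, add_zero]
  exact h1.symm

theorem qLast_centric (l l' : Fin m) (hl : ∀ i : Fin m, i ≤ l) (hl' : l' < l) :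
    ∀ s ∈ USp m F, (∀ x ∈ qLast (F := F) l hl, s * x = x * s) → s ∈ qLast (F := F) l hl := by
  intro s hs hcomm
  refine ⟨hs, ?_⟩
  have hx : leviS m F (Matrix.SpecialLinearGroup.transvection (ne_of_lt hl') 1) ∈ qLast (F := F) l hl :=
    ⟨leviS_mem_umapS (transvection_mem_UniS hl' 1), by rw [leviS_blk12, Matrix.zero_apply]⟩
  have h1 := hcomm _ hx
  have h2 := congrArg (fun x : SpG m F => (x : M2 m F).toBlocks₁₂) h1
  simp only [spG_coe_mul, blk12_mul, leviS_blk11, leviS_blk12, leviS_blk22, Matrix.mul_zero,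
    Matrix.zero_mul, zero_add, add_zero] at h2
  rw [transvection_inv', Matrix.SpecialLinearGroup.transvection_coe,
    Matrix.SpecialLinearGroup.transvection_coe, Matrix.transpose_add, Matrix.transpose_one,
    Matrix.transpose_single, mul_add, add_mul, Matrix.mul_one, Matrix.one_mul, add_right_inj] at h2
  have h3 := congrFun (congrFun h2 l') l
  rw [Matrix.mul_single_apply_of_ne _ _ _ _ _ (ne_of_gt hl'), Matrix.single_mul_apply_same, one_mul] at h3
  exact h3.symm

/-- the lower root elements of the last long root normalize `qLast` -/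
theorem ylow_conj_qLast (l : Fin m) (hl : ∀ i : Fin m, i ≤ l) (a : F) :
    ∀ g ∈ qLast (F := F) l hl,
      ylowF (Pi.single l a) * g * (ylowF (Pi.single l a))⁻¹ ∈ qLast (F := F) l hl := by
  rintro g ⟨hg, hg0⟩
  obtain ⟨w, hw⟩ : ∃ w : SpG m F, w = ylowF (Pi.single l a) * g * (ylowF (Pi.single l a))⁻¹ :=
    ⟨_, rfl⟩
  rw [← hw]
  have heq : w * ylowF (Pi.single l a) = ylowF (Pi.single l a) * g := by rw [hw]; group
  have hgC : (g : M2 m F).toBlocks₂₁ = 0 := (mem_USp.mp hg).1
  have hgU := (mem_USp.mp hg).2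
  have h11 := congrArg (fun x : SpG m F => (x : M2 m F).toBlocks₁₁) heq
  have h12 := congrArg (fun x : SpG m F => (x : M2 m F).toBlocks₁₂) heq
  have h21 := congrArg (fun x : SpG m F => (x : M2 m F).toBlocks₂₁) heq
  have h22 := congrArg (fun x : SpG m F => (x : M2 m F).toBlocks₂₂) heq
  simp only [spG_coe_mul, blk11_mul, blk12_mul, blk21_mul, blk22_mul, ylowF_blk11, ylowF_blk12,
    ylowF_blk21, ylowF_blk22, Matrix.mul_one, Matrix.one_mul, Matrix.mul_zero, Matrix.zero_mul,
    add_zero, zero_add, hgC] at h11 h12 h21 h22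
  have hA : ∀ i j, (w : M2 m F).toBlocks₁₁ i j = (g : M2 m F).toBlocks₁₁ i j
      - (g : M2 m F).toBlocks₁₂ i j * (Pi.single l a : Fin m → F) j := by
    intro i j
    have := congrFun (congrFun h11 i) j
    rw [Matrix.add_apply, h12, Matrix.mul_diagonal] at this
    rw [← this]
    ring
  have hC : ∀ i j, (w : M2 m F).toBlocks₂₁ i j
      = (Pi.single l a : Fin m → F) i * (g : M2 m F).toBlocks₁₁ i j
        - ((Pi.single l a : Fin m → F) i * (g : M2 m F).toBlocks₁₂ i j + (g : M2 m F).toBlocks₂₂ i j)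
          * (Pi.single l a : Fin m → F) j := by
    intro i j
    have := congrFun (congrFun h21 i) j
    rw [Matrix.add_apply, h22, Matrix.mul_diagonal, Matrix.add_apply, Matrix.diagonal_mul,
      Matrix.diagonal_mul] at this
    rw [← this]
    ring
  have hwC : (w : M2 m F).toBlocks₂₁ = 0 := by
    ext i j
    rw [hC, Matrix.zero_apply]
    by_cases hi : i = l
    · rw [hi, Pi.single_eq_same, usp_A_last hg l hl j]
      by_cases hj : j = l
      · rw [hj, if_pos rfl, Pi.single_eq_same, hg0, usp_D_last hg l hl l, if_pos rfl]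
        ring
      · rw [if_neg hj, Pi.single_eq_of_ne hj]
        ring
    · rw [Pi.single_eq_of_ne hi]
      by_cases hj : j = l
      · rw [hj, usp_D_last hg l hl i, if_neg hi]
        ring
      · rw [Pi.single_eq_of_ne hj]
        ring
  refine ⟨mem_USp.mpr ⟨hwC, fun i j hij => ?_, fun i => ?_⟩, ?_⟩
  · rw [hA, hgU.1 i j hij, Pi.single_eq_of_ne (ne_of_lt (lt_of_lt_of_le hij (hl i)))]
    ring
  · rw [hA, hgU.2 i]
    by_cases hi : i = l
    · rw [hi, hg0]
      ring
    · rw [Pi.single_eq_of_ne hi]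
      ring
  · rw [h12]
    exact hg0

theorem siegel_single_coe (l : Fin m) (a : F) :
    ((siegel (Matrix.single l l a) (single_symm l a) : SpG m F) : M2 m F)
      = Cfsg.Agent.Helper37.spBlk 1 (Pi.single l a) 0 1 := by
  unfold Cfsg.Agent.Helper37.spBlk
  rw [diag_one', diag_zero', Matrix.diagonal_single]
  rfl

theorem ylowF_coe_spBlk (c : Fin m → F) :
    ((ylowF c : SpG m F) : M2 m F) = Cfsg.Agent.Helper37.spBlk 1 0 c 1 := by
  unfold Cfsg.Agent.Helper37.spBlk
  rw [diag_one', diag_zero']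
  rfl

theorem leviG_diagG_coe_spBlk (d : Fin m → F) (hd : ∀ i, d i ≠ 0) :
    ((leviG m F (diagG d hd) : SpG m F) : M2 m F)
      = Cfsg.Agent.Helper37.spBlk d 0 0 (fun i => (d i)⁻¹) := by
  unfold Cfsg.Agent.Helper37.spBlk
  rw [diag_zero']
  show Matrix.fromBlocks (Matrix.diagonal d) 0 0 (Matrix.diagonal (fun i => (d i)⁻¹))ᵀ = _
  rw [Matrix.diagonal_transpose]

/-- the long root torus element as a product of root elements -/
theorem hlong_eq_prod (l : Fin m) {t : F} (ht : t ≠ 0)
    (hd : ∀ i, Function.update (1 : Fin m → F) l t i ≠ 0) :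
    leviG m F (diagG (Function.update 1 l t) hd) =
      siegel (Matrix.single l l t) (single_symm l t) * ylowF (Pi.single l (-t⁻¹))
        * siegel (Matrix.single l l t) (single_symm l t)
        * siegel (Matrix.single l l (-1)) (single_symm l (-1)) * ylowF (Pi.single l 1)
        * siegel (Matrix.single l l (-1)) (single_symm l (-1)) := by
  apply Subtype.ext
  simp only [spG_coe_mul, siegel_single_coe, ylowF_coe_spBlk, leviG_diagG_coe_spBlk,
    Cfsg.Agent.Helper37.spBlk_mul]
  congr 1
  · funext j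
    simp only [Pi.mul_apply, Pi.add_apply, Pi.one_apply, Pi.zero_apply]
    by_cases hj : j = l
    · rw [hj]
      simp only [Pi.single_eq_same, Function.update_self]
      field_simp
      ring
    · simp only [Pi.single_eq_of_ne hj, Function.update_of_ne hj, Pi.one_apply]
      ring
  · funext j
    simp only [Pi.mul_apply, Pi.add_apply, Pi.one_apply, Pi.zero_apply]
    by_cases hj : j = l
    · rw [hj]
      simp only [Pi.single_eq_same]
      field_simp
      ring
    · simp only [Pi.single_eq_of_ne hj]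
      ring
  · funext j
    simp only [Pi.mul_apply, Pi.add_apply, Pi.one_apply, Pi.zero_apply]
    by_cases hj : j = l
    · rw [hj]
      simp only [Pi.single_eq_same]
      field_simp
      ring
    · simp only [Pi.single_eq_of_ne hj]
      ring
  · funext j
    simp only [Pi.mul_apply, Pi.add_apply, Pi.one_apply, Pi.zero_apply]
    by_cases hj : j = l
    · rw [hj]
      simp only [Pi.single_eq_same, Function.update_self]
      field_simp
      ring
    · simp only [Pi.single_eq_of_ne hj, Function.update_of_ne hj, Pi.one_apply]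
      field_simp
      ring

/-- the long-root torus elements are good -/
theorem hlong_good (p : ℕ) [CharP F p] (l l' : Fin m) (hl : ∀ i : Fin m, i ≤ l) (hl' : l' < l)
    {t : F} (ht : t ≠ 0) (hd : ∀ i, Function.update (1 : Fin m → F) l t i ≠ 0) :
    GoodElt p (USp m F) (leviG m F (diagG (Function.update 1 l t) hd)) := by
  refine ⟨leviG_diagG_conj_mem_USp _ _, qLast l hl, fun s hs => hs.1, qLast_normal l hl,
    qLast_centric l l' hl hl', ?_⟩
  have hX : ∀ a : F, siegel (Matrix.single l l a) (single_symm l a) ∈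
      Subgroup.closure {x : SpG m F | (∃ j : ℕ, x ^ p ^ j = 1) ∧
        ∀ y ∈ qLast (F := F) l hl, x * y * x⁻¹ ∈ qLast (F := F) l hl} := fun a =>
    Subgroup.subset_closure ⟨⟨1, siegel_pow_char p _ _⟩, qLast_normal l hl _ (siegel_mem_USp _ _)⟩
  have hY : ∀ a : F, ylowF (Pi.single l a) ∈
      Subgroup.closure {x : SpG m F | (∃ j : ℕ, x ^ p ^ j = 1) ∧
        ∀ y ∈ qLast (F := F) l hl, x * y * x⁻¹ ∈ qLast (F := F) l hl} := fun a =>
    Subgroup.subset_closure ⟨⟨1, ylowF_pow_char p _⟩, ylow_conj_qLast l hl a⟩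
  rw [hlong_eq_prod l ht hd]
  exact mul_mem (mul_mem (mul_mem (mul_mem (mul_mem (hX _) (hY _)) (hX _)) (hX _)) (hY _)) (hX _)

end SpD


section SpE

variable {m : ℕ} {F : Type u} [Field F] [Fintype F]

omit [Fintype F] in
/-- a subgroup of `SL_n(F)` containing the elements `h_k(t)` contains all diagonal elements -/
theorem diagSL_mem_of_hElt {n : ℕ} (hn : 1 ≤ n) (C : Subgroup (SLn n F))
    (hC : ∀ (k k' : Fin n) (_ : (k' : ℕ) = (k : ℕ) + 1) (t : F) (ht : t ≠ 0) (hkk' : k ≠ k'),
      diagSL (hEltFun k k' t) (hEltFun_prod hkk' ht) ∈ C) :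
    ∀ (m : ℕ) (d : Fin n → F) (hd : ∏ i, d i = 1), (∀ i : Fin n, (i : ℕ) + m + 1 < n → d i = 1) →
      diagSL d hd ∈ C := by
  intro m
  induction m with
  | zero =>
    intro d hd h1
    obtain ⟨l, hl⟩ : ∃ l : Fin n, l = ⟨n - 1, by omega⟩ := ⟨_, rfl⟩
    have hdl : ∀ i : Fin n, i ≠ l → d i = 1 := by
      intro i hi
      apply h1
      have : (i : ℕ) ≠ n - 1 := fun h => hi (by rw [hl]; exact Fin.ext h)
      have := i.2
      omega
    have hprod : ∏ i, d i = d l := by
      apply Finset.prod_eq_single l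
      · intro j _ hj
        exact hdl j hj
      · intro h
        exact absurd (Finset.mem_univ _) h
    have hd1 : d = fun _ => 1 := by
      funext i
      by_cases hi : i = l
      · rw [hi, ← hprod, hd]
      · exact hdl i hi
    subst hd1
    have : diagSL (fun _ : Fin n => (1 : F)) hd = 1 := by
      apply Subtype.ext
      rw [diagSL_coe, Matrix.SpecialLinearGroup.coe_one]
      exact Matrix.diagonal_one
    rw [this]
    exact one_mem _
  | succ m ih =>
    intro d hd h1
    by_cases hm : n ≤ m + 1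
    · apply ih d hd
      intro i hi
      omega
    · push Not at hm
      obtain ⟨k, hk⟩ : ∃ k : Fin n, k = ⟨n - m - 2, by omega⟩ := ⟨_, rfl⟩
      obtain ⟨k', hk'⟩ : ∃ k' : Fin n, k' = ⟨n - m - 1, by omega⟩ := ⟨_, rfl⟩
      have hkv : (k : ℕ) = n - m - 2 := by rw [hk]
      have hk'v : (k' : ℕ) = n - m - 1 := by rw [hk']
      have hkk'v : (k' : ℕ) = (k : ℕ) + 1 := by omega
      have hkk' : k ≠ k' := fun h => by rw [h] at hkk'v; omega
      have ht : d k ≠ 0 := diagSL_ne_zero d hd k
      obtain ⟨d', hd'⟩ : ∃ d' : Fin n → F,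
          d' = fun i => if i = k then 1 else if i = k' then d k * d i else d i := ⟨_, rfl⟩
      have hd'i : ∀ i, d' i = if i = k then 1 else if i = k' then d k * d i else d i := by
        intro i
        rw [hd']
      have he : ∀ i, hEltFun k k' (d k) i * d' i = d i := by
        intro i
        rw [hd'i]
        unfold hEltFun
        by_cases hi : i = k
        · rw [if_pos hi, if_pos hi, mul_one, hi]
        · by_cases hi' : i = k'
          · rw [if_neg hi, if_pos hi', if_neg hi, if_pos hi', ← mul_assoc, inv_mul_cancel₀ ht, one_mul]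
          · rw [if_neg hi, if_neg hi', if_neg hi, if_neg hi', one_mul]
      have hprod' : ∏ i, d' i = 1 := by
        have h2 : ∏ i, (hEltFun k k' (d k) i * d' i) = 1 := by
          rw [← hd]
          exact Finset.prod_congr rfl (fun i _ => he i)
        rw [Finset.prod_mul_distrib, hEltFun_prod hkk' ht, one_mul] at h2
        exact h2
      have hsplit : diagSL d hd = diagSL (hEltFun k k' (d k)) (hEltFun_prod hkk' ht) * diagSL d' hprod' := by
        apply Subtype.ext
        rw [Matrix.SpecialLinearGroup.coe_mul, diagSL_coe, diagSL_coe, diagSL_coe,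
          Matrix.diagonal_mul_diagonal]
        congr 1
        funext i
        exact (he i).symm
      rw [hsplit]
      refine mul_mem (hC k k' hkk'v (d k) ht hkk') (ih d' hprod' ?_)
      intro i hi
      rw [hd'i]
      by_cases hik : i = k
      · rw [if_pos hik]
      · have hik' : i ≠ k' := by
          intro h
          rw [h] at hi
          omega
        rw [if_neg hik, if_neg hik']
        apply h1
        have : (i : ℕ) ≠ (k : ℕ) := fun h => hik (Fin.ext h)
        omega

/-- every diagonal element of `Sp_{2m}(F)` is a product of good elements -/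
theorem leviG_diag_mem_closure (p : ℕ) [CharP F p] (hm : 2 ≤ m) (d : Fin m → F) (hd : ∀ i, d i ≠ 0) :
    leviG m F (diagG d hd) ∈ Subgroup.closure (((USp m F : Subgroup (SpG m F)) : Set (SpG m F)) ∪
      {h | GoodElt p (USp m F) h}) := by
  obtain ⟨l, hl⟩ : ∃ l : Fin m, l = ⟨m - 1, by omega⟩ := ⟨_, rfl⟩
  obtain ⟨l', hl'⟩ : ∃ l' : Fin m, l' = ⟨m - 2, by omega⟩ := ⟨_, rfl⟩
  have hlmax : ∀ i : Fin m, i ≤ l := fun i => by
    have := i.2
    rw [hl, Fin.le_def]
    show (i : ℕ) ≤ m - 1
    omega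
  have hl'l : l' < l := by
    rw [hl, hl', Fin.lt_def]
    show m - 2 < m - 1
    omega
  obtain ⟨c, hc⟩ : ∃ c : F, c = ∏ i, d i := ⟨_, rfl⟩
  have hc0 : c ≠ 0 := by
    rw [hc]
    exact Finset.prod_ne_zero_iff.mpr (fun i _ => hd i)
  have hupd : ∀ i, Function.update (1 : Fin m → F) l c i ≠ 0 := by
    intro i
    by_cases hi : i = l
    · rw [hi, Function.update_self]
      exact hc0
    · rw [Function.update_of_ne hi]
      exact one_ne_zero
  obtain ⟨d', hd'⟩ : ∃ d' : Fin m → F, d' = fun i => if i = l then d i / c else d i := ⟨_, rfl⟩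
  have hd'i : ∀ i, d' i = if i = l then d i / c else d i := fun i => by rw [hd']
  have he : ∀ i, d' i * Function.update (1 : Fin m → F) l c i = d i := by
    intro i
    rw [hd'i]
    by_cases hi : i = l
    · rw [if_pos hi, hi, Function.update_self, div_mul_cancel₀ _ hc0]
    · rw [if_neg hi, Function.update_of_ne hi, Pi.one_apply, mul_one]
  have hprodu : ∏ i, Function.update (1 : Fin m → F) l c i = c := by
    rw [Finset.prod_eq_single l]
    · rw [Function.update_self]
    · intro j _ hj
      rw [Function.update_of_ne hj, Pi.one_apply]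
    · intro h
      exact absurd (Finset.mem_univ _) h
  have hprod' : ∏ i, d' i = 1 := by
    have h2 : ∏ i, (d' i * Function.update (1 : Fin m → F) l c i) = c := by
      rw [Finset.prod_congr rfl (fun i _ => he i)]
      exact hc.symm
    rw [Finset.prod_mul_distrib, hprodu] at h2
    exact mul_right_cancel₀ hc0 (h2.trans (one_mul c).symm)
  have hsplit : leviG m F (diagG d hd)
      = leviS m F (diagSL d' hprod') * leviG m F (diagG (Function.update 1 l c) hupd) := by
    unfold leviS
    rw [MonoidHom.comp_apply, ← map_mul]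
    congr 1
    apply Units.ext
    rw [Units.val_mul]
    show Matrix.diagonal d = Matrix.diagonal d' * Matrix.diagonal (Function.update 1 l c)
    rw [Matrix.diagonal_mul_diagonal]
    congr 1
    funext i
    exact (he i).symm
  rw [hsplit]
  refine mul_mem ?_ (Subgroup.subset_closure (Or.inr (hlong_good p l l' hlmax hl'l hc0 hupd)))
  exact diagSL_mem_of_hElt (by omega)
    ((Subgroup.closure (((USp m F : Subgroup (SpG m F)) : Set (SpG m F)) ∪
      {h | GoodElt p (USp m F) h})).comap (leviS m F))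
    (fun k k' hk t ht hkk' => Subgroup.subset_closure (Or.inr (leviS_hElt_good p k k' hk ht hkk')))
    m d' hprod' (fun i hi => by omega)

/-- the normalizer of the unitriangular subgroup is generated by it and the good elements -/
theorem normalizer_USp_le (p : ℕ) [CharP F p] (hm : 2 ≤ m) (g : SpG m F)
    (hg : ∀ y ∈ USp m F, g * y * g⁻¹ ∈ USp m F) :
    g ∈ Subgroup.closure (((USp m F : Subgroup (SpG m F)) : Set (SpG m F)) ∪
      {h | GoodElt p (USp m F) h}) := by
  obtain ⟨hgP, hup⟩ := par_of_normalizes g hg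
  obtain ⟨d, hd, hu⟩ := exists_diag_mul_usp g hgP hup
  have hg2 : g = leviG m F (diagG d hd) * ((leviG m F (diagG d hd))⁻¹ * g) := by group
  rw [hg2]
  exact mul_mem (leviG_diag_mem_closure p hm d hd) (Subgroup.subset_closure (Or.inl hu))

theorem USp_ne_bot (hm : 1 ≤ m) : USp m F ≠ ⊥ := by
  intro hb
  obtain ⟨l, hl⟩ : ∃ l : Fin m, l = ⟨0, by omega⟩ := ⟨_, rfl⟩
  have h1 := siegel_mem_USp (F := F) (Matrix.single l l 1) (single_symm l 1)
  rw [hb, Subgroup.mem_bot, ← siegel_zero] at h1
  have h2 := congrFun (congrFun (siegel_injective h1) l) l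
  rw [Matrix.single_apply_same, Matrix.zero_apply] at h2
  exact one_ne_zero h2

end SpE

end Cfsg.Agent.Helper88
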