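import Cfsg.Agent.Helper88.SpB

set_option autoImplicit false
set_option linter.unusedSectionVars false

/-!
Helper library (helper88): the unitriangular Sylow subgroup of `Sp_{2m}(F)` has no proper nontrivial
subgroup closed under fusion in `Sp_{2m}(F)` (`m ≥ 2`, `(m, |F|) ≠ (2, 2)`).
-/

namespace Cfsg.Agent.Helper88

open Cfsg Matrix Cfsg.Agent.Helper44.PSLn

universe u

section SpF

variable {m : ℕ} {F : Type u} [Field F] [Fintype F]

/-- the symmetric matrices whose Siegel element lies in `T` -/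
def symT (T : Subgroup (SpG m F)) : AddSubgroup (Mn m F) where
  carrier := {S | ∃ hS : Sᵀ = S, siegel S hS ∈ T}
  add_mem' := by
    rintro a b ⟨ha, haT⟩ ⟨hb, hbT⟩
    have := T.mul_mem haT hbT
    rw [siegel_mul] at this
    exact ⟨_, this⟩
  zero_mem' := ⟨Matrix.transpose_zero, by rw [siegel_zero]; exact T.one_mem⟩
  neg_mem' := by
    rintro a ⟨ha, haT⟩
    have := T.inv_mem haT
    rw [siegel_inv] at this
    exact ⟨_, this⟩

theorem mem_symT {T : Subgroup (SpG m F)} {S : Mn m F} :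
    S ∈ symT T ↔ ∃ hS : Sᵀ = S, siegel S hS ∈ T := Iff.rfl

/-- `symT T` is invariant under congruence by `GL_m(F)` when `T` is closed under fusion -/
theorem symT_congr (T : Subgroup (SpG m F))
    (hcl : ∀ x ∈ T, ∀ g : SpG m F, g * x * g⁻¹ ∈ USp m F → g * x * g⁻¹ ∈ T)
    (a : GL (Fin m) F) {S : Mn m F} (hS : S ∈ symT T) :
    (a : Mn m F) * S * (a : Mn m F)ᵀ ∈ symT T := by
  obtain ⟨hS1, hS2⟩ := hS
  obtain ⟨hS', h1⟩ := par_conj_siegel (leviG m F a) (leviG_mem_parS a) S hS1
  refine ⟨hS', ?_⟩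
  have h2 := hcl _ hS2 (leviG m F a) (by rw [h1]; exact siegel_mem_USp _ _)
  rw [h1] at h2
  exact h2

/-- commutators of elements of `T` with Siegel elements -/
theorem symT_comm (T : Subgroup (SpG m F)) (hT : T ≤ USp m F)
    (hcl : ∀ x ∈ T, ∀ g : SpG m F, g * x * g⁻¹ ∈ USp m F → g * x * g⁻¹ ∈ T)
    {x : SpG m F} (hx : x ∈ T) (S' : Mn m F) (hS' : S'ᵀ = S') :
    (x : M2 m F).toBlocks₁₁ * S' * ((x : M2 m F).toBlocks₁₁)ᵀ - S' ∈ symT T := by
  have hxU := hT hx
  have hxP := (mem_USp.mp hxU).1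
  obtain ⟨hS'', h1⟩ := par_conj_siegel x hxP S' hS'
  have h2 : siegel S' hS' * x⁻¹ * (siegel S' hS')⁻¹ ∈ T :=
    hcl _ (T.inv_mem hx) _ (mul_mem (mul_mem (siegel_mem_USp _ _) (inv_mem hxU))
      (inv_mem (siegel_mem_USp _ _)))
  have h3 : x * (siegel S' hS' * x⁻¹ * (siegel S' hS')⁻¹) ∈ T := T.mul_mem hx h2
  have h4 : x * (siegel S' hS' * x⁻¹ * (siegel S' hS')⁻¹)
      = (x * siegel S' hS' * x⁻¹) * (siegel S' hS')⁻¹ := by group
  rw [h4, h1, siegel_inv, siegel_mul] at h3
  have h5 : (x : M2 m F).toBlocks₁₁ * S' * ((x : M2 m F).toBlocks₁₁)ᵀ + -S' ∈ symT T := ⟨_, h3⟩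
  rw [sub_eq_add_neg]
  exact h5

omit [Fintype F] in
theorem sgl_apply (i j : Fin m) (c : F) (r s : Fin m) :
    Matrix.single i j c r s = if r = i then (if s = j then c else 0) else 0 := by
  rw [Matrix.single_apply]
  by_cases hr : r = i
  · by_cases hs : s = j
    · rw [if_pos ⟨hr.symm, hs.symm⟩, if_pos hr, if_pos hs]
    · rw [if_neg (fun h => hs h.2.symm), if_pos hr, if_neg hs]
  · rw [if_neg (fun h => hr h.1.symm), if_neg hr]

theorem symT_ne_bot (T : Subgroup (SpG m F)) (hT : T ≤ USp m F)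
    (hcl : ∀ x ∈ T, ∀ g : SpG m F, g * x * g⁻¹ ∈ USp m F → g * x * g⁻¹ ∈ T) (hne : T ≠ ⊥) :
    ∃ S ∈ symT T, S ≠ 0 := by
  obtain ⟨x, hxT, hx1⟩ : ∃ x ∈ T, x ≠ 1 := by
    by_contra h
    push Not at h
    exact hne ((Subgroup.eq_bot_iff_forall T).mpr h)
  have hxU := hT hxT
  obtain ⟨hxP, hxA⟩ := mem_USp.mp hxU
  by_cases hA : ∀ i j : Fin m, i < j → (x : M2 m F).toBlocks₁₁ i j = 0
  · obtain ⟨s, hs, S, hS, hxS⟩ := USp_decomp hxU
    have hs1 : s = 1 := by
      apply Subtype.ext
      have h1 : (s : Mn m F) = (x : M2 m F).toBlocks₁₁ := by rw [hxS, leviS_mul_siegel_blk11]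
      rw [h1, Matrix.SpecialLinearGroup.coe_one]
      ext i j
      rcases lt_trichotomy i j with h | h | h
      · rw [hA i j h, Matrix.one_apply_ne (ne_of_lt h)]
      · rw [h, hxA.2, Matrix.one_apply_eq]
      · rw [hxA.1 i j h, Matrix.one_apply_ne (ne_of_gt h)]
    rw [hs1, map_one, one_mul] at hxS
    refine ⟨S, ⟨hS, by rw [← hxS]; exact hxT⟩, ?_⟩
    intro hS0
    apply hx1
    rw [hxS, ← siegel_zero]
    exact siegel_congr hS0 _ _
  · push Not at hA
    obtain ⟨i, j, hij, hAij⟩ := hA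
    refine ⟨_, symT_comm T hT hcl hxT (Matrix.single j j 1) (single_symm j 1), ?_⟩
    intro h0
    have h1 := congrFun (congrFun h0 i) j
    rw [Matrix.sub_apply, Matrix.zero_apply, sgl_apply, if_neg (ne_of_lt hij), sub_zero,
      Matrix.mul_apply, Finset.sum_eq_single j] at h1
    · rw [Matrix.mul_single_apply_same, mul_one, Matrix.transpose_apply, hxA.2, mul_one] at h1
      exact hAij h1
    · intro k _ hk
      rw [Matrix.mul_single_apply_of_ne _ _ _ _ _ hk, zero_mul]
    · intro h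
      exact absurd (Finset.mem_univ j) h

omit [Fintype F] in
theorem single_mul_apply' (x y : Fin m) (c : F) (M : Mn m F) (r s : Fin m) :
    (Matrix.single x y c * M) r s = if r = x then c * M y s else 0 := by
  by_cases h : r = x
  · rw [if_pos h, h, Matrix.single_mul_apply_same]
  · rw [if_neg h, Matrix.single_mul_apply_of_ne _ _ _ _ _ h]

omit [Fintype F] in
theorem mul_single_apply' (x y : Fin m) (c : F) (M : Mn m F) (r s : Fin m) :
    (M * Matrix.single y x c) r s = if s = x then M r y * c else 0 := by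
  by_cases h : s = x
  · rw [if_pos h, h, Matrix.mul_single_apply_same]
  · rw [if_neg h, Matrix.mul_single_apply_of_ne _ _ _ _ _ h]

omit [Fintype F] in
/-- entries of the congruence transform by an elementary transvection -/
theorem tv_congr_apply (S : Mn m F) (x y r s : Fin m) :
    (((1 : Mn m F) + Matrix.single x y (1 : F)) * S * ((1 : Mn m F) + Matrix.single x y (1 : F))ᵀ
        : Mn m F) r s
      = S r s + (if r = x then S y s else 0)
        + ((if s = x then S r y else 0) + (if s = x then (if r = x then S y y else 0) else 0)) := by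
  rw [Matrix.transpose_add, Matrix.transpose_one, Matrix.transpose_single, add_mul, Matrix.one_mul,
    mul_add, Matrix.mul_one, add_mul, Matrix.add_apply, Matrix.add_apply, Matrix.add_apply,
    single_mul_apply', mul_single_apply', mul_single_apply', single_mul_apply']
  simp only [one_mul, mul_one]

omit [Fintype F] in
theorem diag_congr_apply (S : Mn m F) (d : Fin m → F) (r s : Fin m) :
    (Matrix.diagonal d * S * (Matrix.diagonal d)ᵀ) r s = d r * S r s * d s := by
  rw [Matrix.diagonal_transpose, Matrix.mul_diagonal, Matrix.diagonal_mul]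


omit [Fintype F] in
theorem tv_diff_apply (S : Mn m F) (x y r s : Fin m) :
    (((1 : Mn m F) + Matrix.single x y (1 : F)) * S * ((1 : Mn m F) + Matrix.single x y (1 : F))ᵀ - S
        : Mn m F) r s
      = (if r = x then S y s else 0)
        + ((if s = x then S r y else 0) + (if s = x then (if r = x then S y y else 0) else 0)) := by
  rw [Matrix.sub_apply, tv_congr_apply]
  ring

/-- the symmetric matrix with entries `b` at `(i,j)` and `(j,i)` -/
def eS (i j : Fin m) (b : F) : Mn m F := Matrix.single i j b + Matrix.single j i b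

omit [Fintype F] in
theorem eS_apply (i j : Fin m) (b : F) (r s : Fin m) :
    eS i j b r s = (if r = i then (if s = j then b else 0) else 0)
      + (if r = j then (if s = i then b else 0) else 0) := by
  unfold eS
  rw [Matrix.add_apply, sgl_apply, sgl_apply]

omit [Fintype F] in
theorem eS_comm (i j : Fin m) (b : F) : eS i j b = eS j i b := add_comm _ _

omit [Fintype F] in
theorem eS_zero (i j : Fin m) : eS i j (0 : F) = 0 := by
  unfold eS
  rw [Matrix.single_zero, Matrix.single_zero, add_zero]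

theorem symT_tv (T : Subgroup (SpG m F))
    (hcl : ∀ x ∈ T, ∀ g : SpG m F, g * x * g⁻¹ ∈ USp m F → g * x * g⁻¹ ∈ T)
    (x y : Fin m) (hxy : x ≠ y) {S : Mn m F} (hS : S ∈ symT T) :
    ((1 : Mn m F) + Matrix.single x y (1 : F)) * S * ((1 : Mn m F) + Matrix.single x y (1 : F))ᵀ - S
      ∈ symT T :=
  (symT T).sub_mem (symT_congr T hcl
    (Matrix.SpecialLinearGroup.toGL (Matrix.SpecialLinearGroup.transvection hxy 1)) hS) hS

theorem symT_diag (T : Subgroup (SpG m F))
    (hcl : ∀ x ∈ T, ∀ g : SpG m F, g * x * g⁻¹ ∈ USp m F → g * x * g⁻¹ ∈ T)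
    (d : Fin m → F) (hd : ∀ i, d i ≠ 0) {S : Mn m F} (hS : S ∈ symT T) :
    Matrix.diagonal d * S * (Matrix.diagonal d)ᵀ ∈ symT T :=
  symT_congr T hcl (diagG d hd) hS

theorem exists_offdiag (T : Subgroup (SpG m F))
    (hcl : ∀ x ∈ T, ∀ g : SpG m F, g * x * g⁻¹ ∈ USp m F → g * x * g⁻¹ ∈ T) (hm : 2 ≤ m)
    {S : Mn m F} (hS : S ∈ symT T) (hS0 : S ≠ 0) :
    ∃ S₁ ∈ symT T, ∃ i j : Fin m, i ≠ j ∧ S₁ i j ≠ 0 := by
  by_cases h : ∃ i j : Fin m, i ≠ j ∧ S i j ≠ 0
  · obtain ⟨i, j, hij, h1⟩ := h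
    exact ⟨S, hS, i, j, hij, h1⟩
  · push Not at h
    obtain ⟨i, hi⟩ : ∃ i, S i i ≠ 0 := by
      by_contra h2
      push Not at h2
      apply hS0
      ext r s
      by_cases hrs : r = s
      · rw [hrs, h2, Matrix.zero_apply]
      · rw [h r s hrs, Matrix.zero_apply]
    obtain ⟨k, hk⟩ : ∃ k : Fin m, k ≠ i := by
      by_cases h0 : (i : ℕ) = 0
      · exact ⟨⟨1, by omega⟩, fun h1 => by
          have := congrArg Fin.val h1
          simp only at this
          omega⟩
      · exact ⟨⟨0, by omega⟩, fun h1 => by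
          have := congrArg Fin.val h1
          simp only at this
          omega⟩
    refine ⟨_, symT_tv T hcl k i hk hS, k, i, hk, ?_⟩
    rw [tv_diff_apply, if_pos rfl, if_neg hk.symm, if_neg hk.symm, add_zero, add_zero]
    exact hi

omit [Fintype F] in
theorem exists_third (hm : 3 ≤ m) (i j : Fin m) : ∃ k : Fin m, k ≠ i ∧ k ≠ j := by
  by_cases h0 : (i : ℕ) ≠ 0 ∧ (j : ℕ) ≠ 0
  · exact ⟨⟨0, by omega⟩, fun h => h0.1 (congrArg Fin.val h).symm,
      fun h => h0.2 (congrArg Fin.val h).symm⟩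
  · by_cases h1 : (i : ℕ) ≠ 1 ∧ (j : ℕ) ≠ 1
    · exact ⟨⟨1, by omega⟩, fun h => h1.1 (congrArg Fin.val h).symm,
        fun h => h1.2 (congrArg Fin.val h).symm⟩
    · refine ⟨⟨2, by omega⟩, fun h => ?_, fun h => ?_⟩
      · have := congrArg Fin.val h
        simp only at this
        omega
      · have := congrArg Fin.val h
        simp only at this
        omega

theorem exists_short_of_three (T : Subgroup (SpG m F))
    (hcl : ∀ x ∈ T, ∀ g : SpG m F, g * x * g⁻¹ ∈ USp m F → g * x * g⁻¹ ∈ T) (hm : 3 ≤ m)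
    {S : Mn m F} (hS : S ∈ symT T) {i j : Fin m} (hij : i ≠ j) (hSij : S i j ≠ 0) :
    ∃ (a b : Fin m) (c : F), a ≠ b ∧ c ≠ 0 ∧ eS a b c ∈ symT T := by
  obtain ⟨k, hki, hkj⟩ := exists_third hm i j
  refine ⟨i, k, S i j, hki.symm, hSij, ?_⟩
  have hsym := hS.1
  have hji : S j i = S i j := by
    have := congrFun (congrFun hsym i) j
    rwa [Matrix.transpose_apply] at this
  have h1 := symT_tv T hcl k i hki hS
  have h2 := symT_tv T hcl i j hij h1
  have h3 : ((1 : Mn m F) + Matrix.single i j (1 : F))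
      * (((1 : Mn m F) + Matrix.single k i (1 : F)) * S * ((1 : Mn m F) + Matrix.single k i (1 : F))ᵀ - S)
      * ((1 : Mn m F) + Matrix.single i j (1 : F))ᵀ
      - (((1 : Mn m F) + Matrix.single k i (1 : F)) * S * ((1 : Mn m F) + Matrix.single k i (1 : F))ᵀ - S)
      = eS i k (S i j) := by
    ext r s
    rw [tv_diff_apply, eS_apply]
    simp only [tv_diff_apply, if_neg hkj.symm, hji, add_zero, zero_add, ite_self]
    congr 1
    split_ifs <;> rfl
  rw [h3] at h2
  exact h2

theorem exists_short_of_card (T : Subgroup (SpG m F))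
    (hcl : ∀ x ∈ T, ∀ g : SpG m F, g * x * g⁻¹ ∈ USp m F → g * x * g⁻¹ ∈ T)
    (hq : 3 ≤ Fintype.card F)
    {S : Mn m F} (hS : S ∈ symT T) {i j : Fin m} (hij : i ≠ j) (hSij : S i j ≠ 0) :
    ∃ c : F, c ≠ 0 ∧ eS i j c ∈ symT T := by
  classical
  obtain ⟨t, ht0, ht1⟩ : ∃ t : F, t ≠ 0 ∧ t ≠ 1 := by
    by_contra h
    push Not at h
    have h2 : Fintype.card F ≤ 2 := by
      calc Fintype.card F = (Finset.univ : Finset F).card := rfl
        _ ≤ ({0, 1} : Finset F).card := Finset.card_le_card (fun t _ => by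
            by_cases h0 : t = 0
            · simp [h0]
            · simp [h t h0])
        _ ≤ 2 := Finset.card_le_two
    omega
  have hsym := hS.1
  have hji : S j i = S i j := by
    have := congrFun (congrFun hsym i) j
    rwa [Matrix.transpose_apply] at this
  have hu1 : ∀ r, Function.update (1 : Fin m → F) i t r ≠ 0 := by
    intro r
    by_cases hr : r = i
    · rw [hr, Function.update_self]
      exact ht0
    · rw [Function.update_of_ne hr]
      exact one_ne_zero
  have hu2 : ∀ r, Function.update (1 : Fin m → F) j t r ≠ 0 := by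
    intro r
    by_cases hr : r = j
    · rw [hr, Function.update_self]
      exact ht0
    · rw [Function.update_of_ne hr]
      exact one_ne_zero
  have h1 := (symT T).sub_mem hS (symT_diag T hcl _ hu1 hS)
  have h2 := (symT T).sub_mem h1 (symT_diag T hcl _ hu2 h1)
  refine ⟨(1 - t) * (1 - t) * S i j,
    mul_ne_zero (mul_ne_zero (sub_ne_zero.mpr ht1.symm) (sub_ne_zero.mpr ht1.symm)) hSij, ?_⟩
  have h3 : (S - Matrix.diagonal (Function.update (1 : Fin m → F) i t) * S
        * (Matrix.diagonal (Function.update (1 : Fin m → F) i t))ᵀ)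
      - Matrix.diagonal (Function.update (1 : Fin m → F) j t)
        * (S - Matrix.diagonal (Function.update (1 : Fin m → F) i t) * S
          * (Matrix.diagonal (Function.update (1 : Fin m → F) i t))ᵀ)
        * (Matrix.diagonal (Function.update (1 : Fin m → F) j t))ᵀ
      = eS i j ((1 - t) * (1 - t) * S i j) := by
    ext r s
    rw [Matrix.sub_apply, diag_congr_apply, Matrix.sub_apply, diag_congr_apply, eS_apply]
    simp only [Function.update_apply, Pi.one_apply]
    by_cases hr1 : r = i <;> by_cases hr2 : r = j <;> by_cases hs1 : s = i <;> by_cases hs2 : s = j <;>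
      simp [hr1, hr2, hs1, hs2, hij, hij.symm, hji] <;> ring
  rw [h3] at h2
  exact h2

theorem eS_scale (T : Subgroup (SpG m F))
    (hcl : ∀ x ∈ T, ∀ g : SpG m F, g * x * g⁻¹ ∈ USp m F → g * x * g⁻¹ ∈ T)
    {i j : Fin m} (hij : i ≠ j) {b : F} (hb : b ≠ 0) (h : eS i j b ∈ symT T) (c : F) :
    eS i j c ∈ symT T := by
  by_cases hc : c = 0
  · rw [hc, eS_zero]
    exact (symT T).zero_mem
  · have hu : ∀ r, Function.update (1 : Fin m → F) i (c / b) r ≠ 0 := by
      intro r
      by_cases hr : r = i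
      · rw [hr, Function.update_self]
        exact div_ne_zero hc hb
      · rw [Function.update_of_ne hr]
        exact one_ne_zero
    have h1 := symT_diag T hcl _ hu h
    have h3 : Matrix.diagonal (Function.update (1 : Fin m → F) i (c / b)) * eS i j b
        * (Matrix.diagonal (Function.update (1 : Fin m → F) i (c / b)))ᵀ = eS i j c := by
      ext r s
      rw [diag_congr_apply, eS_apply, eS_apply]
      simp only [Function.update_apply, Pi.one_apply]
      by_cases hr1 : r = i <;> by_cases hr2 : r = j <;> by_cases hs1 : s = i <;> by_cases hs2 : s = j <;>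
        simp [hr1, hr2, hs1, hs2, hij, hij.symm] <;> field_simp
    rw [h3] at h1
    exact h1

theorem eS_move (T : Subgroup (SpG m F))
    (hcl : ∀ x ∈ T, ∀ g : SpG m F, g * x * g⁻¹ ∈ USp m F → g * x * g⁻¹ ∈ T)
    {i j k : Fin m} (hij : i ≠ j) (hki : k ≠ i) (hkj : k ≠ j) {b : F} (h : eS i j b ∈ symT T) :
    eS i k b ∈ symT T := by
  have h1 := symT_tv T hcl k j hkj h
  have h3 : ((1 : Mn m F) + Matrix.single k j (1 : F)) * eS i j b
      * ((1 : Mn m F) + Matrix.single k j (1 : F))ᵀ - eS i j b = eS i k b := by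
    ext r s
    rw [tv_diff_apply, eS_apply]
    simp only [eS_apply]
    by_cases hr1 : r = i <;> by_cases hr2 : r = k <;> by_cases hs1 : s = i <;> by_cases hs2 : s = k <;>
      simp [hr1, hr2, hs1, hs2, hij, hij.symm, hki, hki.symm, hkj]
  rw [h3] at h1
  exact h1

theorem eS_all (T : Subgroup (SpG m F))
    (hcl : ∀ x ∈ T, ∀ g : SpG m F, g * x * g⁻¹ ∈ USp m F → g * x * g⁻¹ ∈ T)
    {i j : Fin m} (hij : i ≠ j) {b : F} (hb : b ≠ 0) (h : eS i j b ∈ symT T) :
    ∀ r s : Fin m, r ≠ s → ∀ c : F, eS r s c ∈ symT T := by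
  have hA : ∀ (c : F) (k : Fin m), k ≠ i → eS i k c ∈ symT T := by
    intro c k hk
    by_cases hkj : k = j
    · rw [hkj]
      exact eS_scale T hcl hij hb h c
    · exact eS_move T hcl hij hk hkj (eS_scale T hcl hij hb h c)
  intro r s hrs c
  by_cases hri : r = i
  · rw [hri]
    exact hA c s (fun h1 => hrs (hri.trans h1.symm))
  · by_cases hsi : s = i
    · rw [hsi, eS_comm]
      exact hA c r hri
    · have h1 := hA c s hsi
      rw [eS_comm] at h1
      have h2 := eS_move T hcl hsi hrs hri h1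
      rw [eS_comm] at h2
      exact h2

omit [Fintype F] in
theorem tv_single_id (x y : Fin m) (hxy : x ≠ y) (d : F) :
    ((1 : Mn m F) + Matrix.single x y (1 : F)) * Matrix.single y y d
      * ((1 : Mn m F) + Matrix.single x y (1 : F))ᵀ - Matrix.single y y d
      = eS x y d + Matrix.single x x d := by
  ext r s
  rw [tv_diff_apply, Matrix.add_apply, eS_apply]
  simp only [sgl_apply]
  by_cases hr1 : r = x <;> by_cases hr2 : r = y <;> by_cases hs1 : s = x <;> by_cases hs2 : s = y <;>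
    simp [hr1, hr2, hs1, hs2, hxy, hxy.symm]

omit [Fintype F] in
/-- an additive subgroup containing the elementary symmetric matrices contains all symmetric matrices -/
theorem sym_mem_of (M : AddSubgroup (Mn m F)) (hd : ∀ (i : Fin m) (d : F), Matrix.single i i d ∈ M)
    (he : ∀ r s : Fin m, r ≠ s → ∀ c : F, eS r s c ∈ M) (S : Mn m F) (hS : Sᵀ = S) : S ∈ M := by
  have hsym : ∀ i j, S j i = S i j := by
    intro i j
    have := congrFun (congrFun hS i) j
    rwa [Matrix.transpose_apply] at this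
  have h1 : S = ∑ i, ∑ j, Matrix.single i j (S i j) := Matrix.matrix_eq_sum_single S
  have h2 : ∀ i j, Matrix.single i j (S i j)
      = (if i < j then Matrix.single i j (S i j) else 0)
        + (if i = j then Matrix.single i j (S i j) else 0)
        + (if j < i then Matrix.single i j (S i j) else 0) := by
    intro i j
    rcases lt_trichotomy i j with h | h | h
    · rw [if_pos h, if_neg (ne_of_lt h), if_neg (lt_asymm h), add_zero, add_zero]
    · rw [if_neg (by rw [h]; exact lt_irrefl _), if_pos h, if_neg (by rw [h]; exact lt_irrefl _),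
        add_zero, zero_add]
    · rw [if_neg (lt_asymm h), if_neg (ne_of_gt h), if_pos h, zero_add, zero_add]
  have h3 : S = (∑ i, ∑ j, if i < j then Matrix.single i j (S i j) else 0)
      + (∑ i, ∑ j, if i = j then Matrix.single i j (S i j) else 0)
      + (∑ i, ∑ j, if j < i then Matrix.single i j (S i j) else 0) := by
    conv_lhs => rw [h1]
    simp only [← Finset.sum_add_distrib]
    exact Finset.sum_congr rfl (fun i _ => Finset.sum_congr rfl (fun j _ => h2 i j))
  have h4 : (∑ i, ∑ j, if j < i then Matrix.single i j (S i j) else 0)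
      = ∑ i, ∑ j, if i < j then Matrix.single j i (S i j) else 0 := by
    rw [Finset.sum_comm]
    exact Finset.sum_congr rfl (fun i _ => Finset.sum_congr rfl (fun j _ => by rw [hsym i j]))
  rw [h3, h4, add_right_comm]
  refine M.add_mem ?_ ?_
  · rw [← Finset.sum_add_distrib]
    refine AddSubgroup.sum_mem _ (fun i _ => ?_)
    rw [← Finset.sum_add_distrib]
    refine AddSubgroup.sum_mem _ (fun j _ => ?_)
    by_cases hij : i < j
    · rw [if_pos hij, if_pos hij]
      exact he i j (ne_of_lt hij) _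
    · rw [if_neg hij, if_neg hij, add_zero]
      exact M.zero_mem
  · refine AddSubgroup.sum_mem _ (fun i _ => AddSubgroup.sum_mem _ (fun j _ => ?_))
    by_cases hij : i = j
    · rw [if_pos hij, hij]
      exact hd j _
    · rw [if_neg hij]
      exact M.zero_mem

end SpF


section SpG

variable {m : ℕ} {F : Type u} [Field F] [Fintype F]

/-- the upper left blocks of the elements of `T`, as a subgroup of `SL_m(F)` -/
def projT (T : Subgroup (SpG m F)) : Subgroup (SLn m F) :=
  ((T.comap (parS m F).subtype).map (piG m F)).comap Matrix.SpecialLinearGroup.toGL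

theorem mem_projT {T : Subgroup (SpG m F)} {s : SLn m F} :
    s ∈ projT T ↔ ∃ x ∈ T, ∃ _ : x ∈ parS m F, (x : M2 m F).toBlocks₁₁ = (s : Mn m F) := by
  unfold projT
  rw [Subgroup.mem_comap, Subgroup.mem_map]
  constructor
  · rintro ⟨y, hy, hys⟩
    exact ⟨y.1, hy, y.2, congrArg (fun a : GL (Fin m) F => (a : Mn m F)) hys⟩
  · rintro ⟨x, hx, hxP, hxs⟩
    exact ⟨⟨x, hxP⟩, hx, Units.ext hxs⟩

theorem projT_le {T : Subgroup (SpG m F)} (hT : T ≤ USp m F) : projT T ≤ UniS m F := by
  intro s hs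
  obtain ⟨x, hx, hxP, hxs⟩ := mem_projT.mp hs
  have h1 := (mem_USp.mp (hT hx)).2
  rw [hxs] at h1
  exact h1

theorem projT_closed (T : Subgroup (SpG m F))
    (hcl : ∀ x ∈ T, ∀ g : SpG m F, g * x * g⁻¹ ∈ USp m F → g * x * g⁻¹ ∈ T) :
    ∀ s ∈ projT T, ∀ g : SLn m F, g * s * g⁻¹ ∈ UniS m F → g * s * g⁻¹ ∈ projT T := by
  intro s hs g hgs
  obtain ⟨x, hx, hxP, hxs⟩ := mem_projT.mp hs
  have hyP : leviS m F g * x * (leviS m F g)⁻¹ ∈ parS m F :=
    mul_mem (mul_mem (leviS_mem_parS g) hxP) (inv_mem (leviS_mem_parS g))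
  have hA : ((leviS m F g * x * (leviS m F g)⁻¹ : SpG m F) : M2 m F).toBlocks₁₁
      = ((g * s * g⁻¹ : SLn m F) : Mn m F) := by
    have h1 : (⟨leviS m F g * x * (leviS m F g)⁻¹, hyP⟩ : parS m F)
        = ⟨leviS m F g, leviS_mem_parS g⟩ * ⟨x, hxP⟩ * ⟨leviS m F g, leviS_mem_parS g⟩⁻¹ := rfl
    have h2 : piG m F ⟨x, hxP⟩ = Matrix.SpecialLinearGroup.toGL s := Units.ext hxs
    have h3 := congrArg (piG m F) h1
    have h4 : Matrix.SpecialLinearGroup.toGL g * Matrix.SpecialLinearGroup.toGL s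
        * (Matrix.SpecialLinearGroup.toGL g)⁻¹ = Matrix.SpecialLinearGroup.toGL (g * s * g⁻¹) := by
      rw [map_mul, map_mul, map_inv]
    rw [map_mul, map_mul, map_inv, piG_leviS, h2, h4] at h3
    exact congrArg (fun a : GL (Fin m) F => (a : Mn m F)) h3
  refine mem_projT.mpr ⟨_, hcl x hx (leviS m F g) (mem_USp.mpr ⟨hyP, ?_⟩), hyP, hA⟩
  rw [hA]
  exact hgs

theorem siegel_blk21 (S : Mn m F) (hS : Sᵀ = S) : ((siegel S hS : SpG m F) : M2 m F).toBlocks₂₁ = 0 := rfl

/-- conjugating a Siegel element by a lower root element of a long root -/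
theorem ylow_conj_siegel (j : Fin m) (S : Mn m F) (hS : Sᵀ = S) (hjj : S j j = 0) :
    ∃ _ : ylowF (Pi.single j 1) * siegel S hS * (ylowF (Pi.single j 1))⁻¹ ∈ parS m F,
      ((ylowF (Pi.single j 1) * siegel S hS * (ylowF (Pi.single j 1))⁻¹ : SpG m F) : M2 m F).toBlocks₁₁
        = 1 - S * Matrix.diagonal (Pi.single j 1) := by
  obtain ⟨w, hw⟩ : ∃ w : SpG m F, w = ylowF (Pi.single j 1) * siegel S hS * (ylowF (Pi.single j 1))⁻¹ :=
    ⟨_, rfl⟩
  rw [← hw]
  have heq : w * ylowF (Pi.single j 1) = ylowF (Pi.single j 1) * siegel S hS := by rw [hw]; group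
  have h11 := congrArg (fun x : SpG m F => (x : M2 m F).toBlocks₁₁) heq
  have h12 := congrArg (fun x : SpG m F => (x : M2 m F).toBlocks₁₂) heq
  have h21 := congrArg (fun x : SpG m F => (x : M2 m F).toBlocks₂₁) heq
  have h22 := congrArg (fun x : SpG m F => (x : M2 m F).toBlocks₂₂) heq
  simp only [spG_coe_mul, blk11_mul, blk12_mul, blk21_mul, blk22_mul, ylowF_blk11, ylowF_blk12,
    ylowF_blk21, ylowF_blk22, siegel_blk11, siegel_blk12, siegel_blk21, siegel_blk22, Matrix.mul_one,
    Matrix.one_mul, Matrix.mul_zero, add_zero, zero_add] at h11 h12 h21 h22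
  have hA : (w : M2 m F).toBlocks₁₁ = 1 - S * Matrix.diagonal (Pi.single j 1) := by
    rw [h12] at h11
    exact eq_sub_of_add_eq h11
  have hNSN : Matrix.diagonal (Pi.single j (1 : F)) * S * Matrix.diagonal (Pi.single j (1 : F)) = 0 := by
    ext r s
    rw [Matrix.mul_diagonal, Matrix.diagonal_mul, Matrix.zero_apply]
    by_cases hr : r = j
    · by_cases hs : s = j
      · rw [hr, hs, hjj]
        ring
      · rw [Pi.single_eq_of_ne hs]
        ring
    · rw [Pi.single_eq_of_ne hr]
      ring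
  have hC : (w : M2 m F).toBlocks₂₁ = 0 := by
    rw [h22, add_mul, hNSN, Matrix.one_mul, zero_add] at h21
    exact add_eq_right.mp h21
  exact ⟨hC, hA⟩

theorem projT_tv (T : Subgroup (SpG m F))
    (hcl : ∀ x ∈ T, ∀ g : SpG m F, g * x * g⁻¹ ∈ USp m F → g * x * g⁻¹ ∈ T)
    {i j : Fin m} (hij : i < j) (c : F) (h : eS i j c ∈ symT T) :
    Matrix.SpecialLinearGroup.transvection (ne_of_lt hij) (-c) ∈ projT T := by
  obtain ⟨hS, hST⟩ := h
  have hjj : eS i j c j j = 0 := by
    rw [eS_apply, if_neg (ne_of_gt hij), if_pos rfl, if_neg (ne_of_gt hij), add_zero]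
  obtain ⟨hP, hA⟩ := ylow_conj_siegel j (eS i j c) hS hjj
  have hA' : ((ylowF (Pi.single j 1) * siegel (eS i j c) hS * (ylowF (Pi.single j 1))⁻¹ : SpG m F)
      : M2 m F).toBlocks₁₁
      = ((Matrix.SpecialLinearGroup.transvection (ne_of_lt hij) (-c) : SLn m F) : Mn m F) := by
    rw [hA, Matrix.SpecialLinearGroup.transvection_coe, sub_eq_add_neg]
    congr 1
    ext r s
    rw [Matrix.neg_apply, Matrix.mul_diagonal, eS_apply, sgl_apply]
    by_cases hr : r = i <;> by_cases hs : s = j <;>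
      simp [hr, hs, ne_of_lt hij, (ne_of_lt hij).symm]
  refine mem_projT.mpr ⟨_, hcl _ hST _ (mem_USp.mpr ⟨hP, ?_⟩), hP, hA'⟩
  rw [hA']
  exact transvection_mem_UniS hij (-c)

theorem projT_eq (p f : ℕ) [Fact p.Prime] (hF : Fintype.card F = p ^ f) (hm : 2 ≤ m)
    (T : Subgroup (SpG m F)) (hT : T ≤ USp m F)
    (hcl : ∀ x ∈ T, ∀ g : SpG m F, g * x * g⁻¹ ∈ USp m F → g * x * g⁻¹ ∈ T)
    {i j : Fin m} (hij : i < j) (h : ∀ c : F, eS i j c ∈ symT T) : projT T = UniS m F := by
  by_cases hm3 : 3 ≤ m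
  · rcases uniS_strongly_closed p f hF hm3 (projT T) (projT_le hT) (projT_closed T hcl) with h1 | h1
    · exfalso
      have h2 := projT_tv T hcl hij (-1) (h _)
      rw [h1, Subgroup.mem_bot, neg_neg] at h2
      have h3 := congrArg (fun s : SLn m F => (s : Mn m F) i j) h2
      simp only [Matrix.SpecialLinearGroup.transvection_coe, Matrix.SpecialLinearGroup.coe_one] at h3
      rw [Matrix.add_apply, Matrix.one_apply_ne (ne_of_lt hij), Matrix.single_apply_same, zero_add] at h3
      exact one_ne_zero h3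
    · exact h1
  · have hm2 : m = 2 := by omega
    apply le_antisymm (projT_le hT)
    intro u hu
    have hu' : u = Matrix.SpecialLinearGroup.transvection (ne_of_lt hij) (-(-(u : Mn m F) i j)) := by
      apply Subtype.ext
      ext r s
      rw [neg_neg, Matrix.SpecialLinearGroup.transvection_coe, Matrix.add_apply, sgl_apply]
      rcases lt_trichotomy r s with h1 | h1 | h1
      · have hri : r = i := by
          apply Fin.ext
          have := r.2
          have := s.2
          have := j.2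
          rw [Fin.lt_def] at h1 hij
          omega
        have hsj : s = j := by
          apply Fin.ext
          have := r.2
          have := s.2
          have := j.2
          rw [Fin.lt_def] at h1 hij
          omega
        rw [hri, hsj, Matrix.one_apply_ne (ne_of_lt hij), if_pos rfl, if_pos rfl, zero_add]
      · rw [h1, hu.2, Matrix.one_apply_eq]
        by_cases hsi : s = i
        · rw [if_pos hsi, if_neg (by rw [hsi]; exact ne_of_lt hij), add_zero]
        · rw [if_neg hsi, add_zero]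
      · rw [hu.1 r s h1, Matrix.one_apply_ne (ne_of_gt h1)]
        by_cases hri : r = i
        · rw [if_pos hri, if_neg (by
            intro hsj
            rw [hri, hsj] at h1
            exact lt_asymm h1 hij), add_zero]
        · rw [if_neg hri, add_zero]
    rw [hu']
    exact projT_tv T hcl hij _ (h _)

/-- the only subgroups of the unitriangular subgroup closed under fusion in `Sp_{2m}(F)` are the
trivial ones -/
theorem usp_strongly_closed (p f : ℕ) [Fact p.Prime] (hF : Fintype.card F = p ^ f) (hm : 2 ≤ m)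
    (hex : m = 2 → 3 ≤ Fintype.card F) (T : Subgroup (SpG m F)) (hT : T ≤ USp m F)
    (hcl : ∀ x ∈ T, ∀ g : SpG m F, g * x * g⁻¹ ∈ USp m F → g * x * g⁻¹ ∈ T) :
    T = ⊥ ∨ T = USp m F := by
  by_cases hbot : T = ⊥
  · exact Or.inl hbot
  right
  obtain ⟨S0, hS0, hS0ne⟩ := symT_ne_bot T hT hcl hbot
  obtain ⟨S1, hS1, i0, j0, hij0, hS1ij⟩ := exists_offdiag T hcl hm hS0 hS0ne
  obtain ⟨a, b, c, hab, hc, hshort⟩ : ∃ (a b : Fin m) (c : F), a ≠ b ∧ c ≠ 0 ∧ eS a b c ∈ symT T := by
    by_cases hm3 : 3 ≤ m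
    · exact exists_short_of_three T hcl hm3 hS1 hij0 hS1ij
    · obtain ⟨c, hc, h⟩ := exists_short_of_card T hcl (hex (by omega)) hS1 hij0 hS1ij
      exact ⟨i0, j0, c, hij0, hc, h⟩
  have hall : ∀ r s : Fin m, r ≠ s → ∀ c : F, eS r s c ∈ symT T := eS_all T hcl hab hc hshort
  obtain ⟨i1, j1, hij1⟩ : ∃ i1 j1 : Fin m, i1 < j1 :=
    ⟨⟨0, by omega⟩, ⟨1, by omega⟩, by rw [Fin.lt_def]; exact Nat.zero_lt_one⟩
  have hproj : projT T = UniS m F :=
    projT_eq p f hF hm T hT hcl hij1 (hall i1 j1 (ne_of_lt hij1))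
  have hdiag1 : ∀ i j : Fin m, i < j → ∀ d : F, Matrix.single i i d ∈ symT T := by
    intro i j hij d
    have h1 : Matrix.SpecialLinearGroup.transvection (ne_of_lt hij) (1 : F) ∈ projT T := by
      rw [hproj]
      exact transvection_mem_UniS hij 1
    obtain ⟨x, hx, hxP, hxA⟩ := mem_projT.mp h1
    have h2 := symT_comm T hT hcl hx (Matrix.single j j d) (single_symm j d)
    rw [hxA, Matrix.SpecialLinearGroup.transvection_coe, tv_single_id i j (ne_of_lt hij) d] at h2
    have h3 := (symT T).sub_mem h2 (hall i j (ne_of_lt hij) d)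
    rwa [add_sub_cancel_left] at h3
  have hdiag : ∀ (i : Fin m) (d : F), Matrix.single i i d ∈ symT T := by
    intro i d
    by_cases hi : (i : ℕ) + 1 < m
    · exact hdiag1 i ⟨(i : ℕ) + 1, hi⟩ (by rw [Fin.lt_def]; exact Nat.lt_succ_self _) d
    · obtain ⟨i', hi'⟩ : ∃ i' : Fin m, i' < i := ⟨⟨0, by omega⟩, by
        rw [Fin.lt_def]
        show 0 < (i : ℕ)
        have := i.2
        omega⟩
      have h1 := hdiag1 i' i hi' d
      have h2 := symT_tv T hcl i i' (ne_of_gt hi') h1
      rw [tv_single_id i i' (ne_of_gt hi') d] at h2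
      have h3 := (symT T).sub_mem h2 (hall i i' (ne_of_gt hi') d)
      rwa [add_sub_cancel_left] at h3
  have hsymall : ∀ (S : Mn m F) (hS : Sᵀ = S), siegel S hS ∈ T := by
    intro S hS
    obtain ⟨_, h⟩ := sym_mem_of (symT T) hdiag hall S hS
    exact h
  apply le_antisymm hT
  intro g hg
  obtain ⟨hgP, hgA⟩ := mem_USp.mp hg
  have h1 : (⟨(g : M2 m F).toBlocks₁₁, det_eq_one_of_isUni hgA⟩ : SLn m F) ∈ projT T := by
    rw [hproj]
    exact hgA
  obtain ⟨x, hx, hxP, hxA⟩ := mem_projT.mp h1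
  have h2 : x⁻¹ * g ∈ T := by
    have hP : x⁻¹ * g ∈ parS m F := mul_mem (inv_mem hxP) hgP
    obtain ⟨S, hS, hdec⟩ := parS_decomp _ hP
    have hpi : piG m F ⟨x⁻¹ * g, hP⟩ = 1 := by
      have e : (⟨x⁻¹ * g, hP⟩ : parS m F) = ⟨x, hxP⟩⁻¹ * ⟨g, hgP⟩ := rfl
      rw [e, map_mul, map_inv, inv_mul_eq_one]
      exact Units.ext hxA
    rw [hpi, map_one, one_mul] at hdec
    rw [hdec]
    exact hsymall S hS
  have h3 := T.mul_mem hx h2
  rwa [mul_inv_cancel_left] at h3

/-- `Sp_{2m}(F)`, `m ≥ 2`, `(m, |F|) ≠ (2, 2)`, satisfies the simplicity hypothesis at its unitriangular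
Sylow subgroup -/
theorem simpleHyp2_Sp (p f : ℕ) [Fact p.Prime] [CharP F p] (hF : Fintype.card F = p ^ f) (hm : 2 ≤ m)
    (hex : m = 2 → 3 ≤ Fintype.card F) (S : Sylow p (SpG m F))
    (hS : (S : Subgroup (SpG m F)) = USp m F) : SimpleHyp2 p S := by
  unfold SimpleHyp2
  rw [hS]
  exact ⟨USp_ne_bot (by omega), usp_strongly_closed p f hF hm hex,
    fun g hg => normalizer_USp_le p hm g hg⟩

end SpG

end Cfsg.Agent.Helper88
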