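import Mathlib
import Cfsg.Agent.Helper45.StDefs

/-! helper88: the action of the short root elements `xB` on the frame (for CALL S2547). -/

set_option autoImplicit false

universe u

namespace Cfsg.Agent.Helper88.StXB

open Cfsg Cfsg.Agent.Helper13 Cfsg.Agent.Helper95.SpBN Cfsg.Agent.Helper45 Cfsg.Agent.Helper45.St

variable {ι : Type} [Fintype ι] [DecidableEq ι] {F : Type u} [Field F]
  {Q : QuadraticForm F (ι → F)} {m : ℕ} {L R : Fin m → ι}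

omit [Fintype ι] in
theorem ev_inl_L88 (H : HypPairs Q m L R) (i j : Fin m) :
    ev L R F (Sum.inl i) (L j) = if j = i then 1 else 0 := by
  rw [ev_apply, idx_inl]
  by_cases h : j = i
  · rw [if_pos h, if_pos (by rw [h])]
  · rw [if_neg h, if_neg (fun h' => h (H.hL h'))]

omit [Fintype ι] in
theorem ev_inl_R88 (H : HypPairs Q m L R) (i j : Fin m) : ev L R F (Sum.inl i) (R j) = 0 := by
  rw [ev_apply, idx_inl, if_neg (fun h' => H.hLR i j h'.symm)]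

omit [Fintype ι] in
theorem ev_inr_L88 (H : HypPairs Q m L R) (i j : Fin m) : ev L R F (Sum.inr i) (L j) = 0 := by
  rw [ev_apply, idx_inr, if_neg (fun h' => H.hLR j i h')]

omit [Fintype ι] in
theorem ev_inr_R88 (H : HypPairs Q m L R) (i j : Fin m) :
    ev L R F (Sum.inr i) (R j) = if j = i then 1 else 0 := by
  rw [ev_apply, idx_inr]
  by_cases h : j = i
  · rw [if_pos h, if_pos (by rw [h])]
  · rw [if_neg h, if_neg (fun h' => h (H.hR h'))]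

omit [Fintype ι] in
theorem polar_V0_ev88 (H : HypPairs Q m L R) (v : ι → F) (hv : InV0 L R v) (a : Fin m ⊕ Fin m) :
    QuadraticMap.polar ⇑Q v (ev L R F a) = 0 := by
  rw [QuadraticMap.polar_comm]
  exact polar_ev_V0 H a v hv

theorem xB_inl_e88 (H : HypPairs Q m L R) (j i : Fin m) (v : ι → F) (hv : InV0 L R v) :
    mv ⇑Q (xB Q L R (Sum.inl j) v) (ev L R F (Sum.inl i)) = ev L R F (Sum.inl i) := by
  rw [mv_xB H _ v hv, tauP_inl, idx_inr, ev_inl_R88 H, polar_V0_ev88 H v hv, mul_zero, sub_zero,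
    zero_smul, zero_smul, add_zero, sub_zero]

theorem xB_inr_f88 (H : HypPairs Q m L R) (j i : Fin m) (v : ι → F) (hv : InV0 L R v) :
    mv ⇑Q (xB Q L R (Sum.inr j) v) (ev L R F (Sum.inr i)) = ev L R F (Sum.inr i) := by
  rw [mv_xB H _ v hv, tauP_inr, idx_inl, ev_inr_L88 H, polar_V0_ev88 H v hv, mul_zero, sub_zero,
    zero_smul, zero_smul, add_zero, sub_zero]

theorem xB_inr_e_ne88 (H : HypPairs Q m L R) (j i : Fin m) (hij : i ≠ j) (v : ι → F)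
    (hv : InV0 L R v) :
    mv ⇑Q (xB Q L R (Sum.inr j) v) (ev L R F (Sum.inl i)) = ev L R F (Sum.inl i) := by
  rw [mv_xB H _ v hv, tauP_inr, idx_inl, ev_inl_L88 H, if_neg (fun h => hij h.symm),
    polar_V0_ev88 H v hv, mul_zero, sub_zero, zero_smul, zero_smul, add_zero, sub_zero]

theorem xB_inl_f_ne88 (H : HypPairs Q m L R) (j i : Fin m) (hij : i ≠ j) (v : ι → F)
    (hv : InV0 L R v) :
    mv ⇑Q (xB Q L R (Sum.inl j) v) (ev L R F (Sum.inr i)) = ev L R F (Sum.inr i) := by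
  rw [mv_xB H _ v hv, tauP_inl, idx_inr, ev_inr_R88 H, if_neg (fun h => hij h.symm),
    polar_V0_ev88 H v hv, mul_zero, sub_zero, zero_smul, zero_smul, add_zero, sub_zero]

theorem xB_inr_e88 (H : HypPairs Q m L R) (j : Fin m) (v : ι → F) (hv : InV0 L R v) :
    mv ⇑Q (xB Q L R (Sum.inr j) v) (ev L R F (Sum.inl j)) =
      ev L R F (Sum.inl j) - Q v • ev L R F (Sum.inr j) - v := by
  rw [mv_xB H _ v hv, tauP_inr, idx_inl, ev_inl_L88 H, if_pos rfl, polar_V0_ev88 H v hv,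
    mul_one, zero_sub, one_smul, neg_smul, ← sub_eq_add_neg]

theorem xB_inl_f88 (H : HypPairs Q m L R) (j : Fin m) (v : ι → F) (hv : InV0 L R v) :
    mv ⇑Q (xB Q L R (Sum.inl j) v) (ev L R F (Sum.inr j)) =
      ev L R F (Sum.inr j) - Q v • ev L R F (Sum.inl j) - v := by
  rw [mv_xB H _ v hv, tauP_inl, idx_inr, ev_inr_R88 H, if_pos rfl, polar_V0_ev88 H v hv,
    mul_one, zero_sub, one_smul, neg_smul, ← sub_eq_add_neg]

theorem xB_inl_V088 (H : HypPairs Q m L R) (j : Fin m) (v : ι → F) (hv : InV0 L R v)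
    (w : ι → F) (hw : InV0 L R w) :
    mv ⇑Q (xB Q L R (Sum.inl j) v) w = w + QuadraticMap.polar ⇑Q v w • ev L R F (Sum.inl j) := by
  rw [mv_xB H _ v hv, hw, mul_zero, sub_zero, zero_smul, sub_zero]

theorem xB_inr_V088 (H : HypPairs Q m L R) (j : Fin m) (v : ι → F) (hv : InV0 L R v)
    (w : ι → F) (hw : InV0 L R w) :
    mv ⇑Q (xB Q L R (Sum.inr j) v) w = w + QuadraticMap.polar ⇑Q v w • ev L R F (Sum.inr j) := by
  rw [mv_xB H _ v hv, hw, mul_zero, sub_zero, zero_smul, sub_zero]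

omit [Fintype ι] [DecidableEq ι] in
theorem q_inv_smul88 (v : ι → F) (hqv : Q v ≠ 0) : Q ((Q v)⁻¹ • v) = (Q v)⁻¹ := by
  rw [QuadraticMap.map_smul, smul_eq_mul, mul_assoc, inv_mul_cancel₀ hqv, mul_one]

omit [Fintype ι] [DecidableEq ι] in
theorem polar_inv_smul88 (v : ι → F) (hqv : Q v ≠ 0) :
    QuadraticMap.polar ⇑Q v ((Q v)⁻¹ • v) = 2 := by
  rw [QuadraticMap.polar_smul_right, QuadraticMap.polar_self, smul_eq_mul, two_smul]
  field_simp
  ring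

omit [Fintype ι] [DecidableEq ι] in
theorem polar_inv_smul88' (v : ι → F) (hqv : Q v ≠ 0) :
    QuadraticMap.polar ⇑Q ((Q v)⁻¹ • v) v = 2 := by
  rw [QuadraticMap.polar_comm, polar_inv_smul88 v hqv]

/-- `x_{-α}(v/Q v)` then `x_α(v)` maps `e_j` to `-(Q v)⁻¹ f_j` -/
theorem xB_key88 (H : HypPairs Q m L R) (j : Fin m) (v : ι → F) (hv : InV0 L R v)
    (hqv : Q v ≠ 0) :
    mv ⇑Q (xB Q L R (Sum.inl j) v)
      (mv ⇑Q (xB Q L R (Sum.inr j) ((Q v)⁻¹ • v)) (ev L R F (Sum.inl j))) =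
      (-(Q v)⁻¹) • ev L R F (Sum.inr j) := by
  have hv' : InV0 L R ((Q v)⁻¹ • v) := (V0 L R F).smul_mem _ hv
  rw [xB_inr_e88 H j _ hv', mv_sub, mv_sub, mv_smul, xB_inl_e88 H j j v hv, xB_inl_f88 H j v hv,
    xB_inl_V088 H j v hv _ hv', q_inv_smul88 v hqv, polar_inv_smul88 v hqv]
  have hc : (Q v)⁻¹ * Q v = 1 := inv_mul_cancel₀ hqv
  funext x
  simp only [Pi.sub_apply, Pi.add_apply, Pi.smul_apply, smul_eq_mul]
  linear_combination (ev L R F (Sum.inl j) x) * hc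

/-- `x_α(v)` then `x_{-α}(v/Q v)` maps `f_j` to `-(Q v) e_j` -/
theorem xB_key88' (H : HypPairs Q m L R) (j : Fin m) (v : ι → F) (hv : InV0 L R v)
    (hqv : Q v ≠ 0) :
    mv ⇑Q (xB Q L R (Sum.inr j) ((Q v)⁻¹ • v))
      (mv ⇑Q (xB Q L R (Sum.inl j) v) (ev L R F (Sum.inr j))) =
      (-(Q v)) • ev L R F (Sum.inl j) := by
  have hv' : InV0 L R ((Q v)⁻¹ • v) := (V0 L R F).smul_mem _ hv
  rw [xB_inl_f88 H j v hv, mv_sub, mv_sub, mv_smul, xB_inr_f88 H j j _ hv',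
    xB_inr_e88 H j _ hv', xB_inr_V088 H j _ hv' v hv, q_inv_smul88 v hqv,
    polar_inv_smul88' v hqv]
  have hc : (Q v)⁻¹ * Q v = 1 := inv_mul_cancel₀ hqv
  have hc' : Q v * (Q v)⁻¹ = 1 := mul_inv_cancel₀ hqv
  funext x
  simp only [Pi.sub_apply, Pi.add_apply, Pi.smul_apply, smul_eq_mul]
  linear_combination (ev L R F (Sum.inr j) x) * hc' + (v x) * hc'

/-- the short reflection maps `f_j` to `-(Q v₀) e_j` -/
theorem sB_f88 (H : HypPairs Q m L R) (j : Fin m) (v₀ : ι → F) (hv₀ : InV0 L R v₀)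
    (hq₀ : Q v₀ ≠ 0) :
    mv ⇑Q (sB Q L R j v₀) (ev L R F (Sum.inr j)) = (-(Q v₀)) • ev L R F (Sum.inl j) := by
  unfold sB
  rw [mv_mul, mv_mul, xB_key88' H j v₀ hv₀ hq₀, mv_smul, xB_inl_e88 H j j v₀ hv₀]

/-- the short reflection maps `e_j` to `-(Q v₀)⁻¹ f_j` -/
theorem sB_e88 (H : HypPairs Q m L R) (j : Fin m) (v₀ : ι → F) (hv₀ : InV0 L R v₀)
    (hq₀ : Q v₀ ≠ 0) :
    mv ⇑Q (sB Q L R j v₀) (ev L R F (Sum.inl j)) = (-(Q v₀)⁻¹) • ev L R F (Sum.inr j) := by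
  unfold sB
  rw [mv_mul, mv_mul, xB_inl_e88 H j j v₀ hv₀, xB_key88 H j v₀ hv₀ hq₀]

/-- the short reflection fixes the other `e_i` -/
theorem sB_e_ne88 (H : HypPairs Q m L R) (j i : Fin m) (hij : i ≠ j) (v₀ : ι → F)
    (hv₀ : InV0 L R v₀) :
    mv ⇑Q (sB Q L R j v₀) (ev L R F (Sum.inl i)) = ev L R F (Sum.inl i) := by
  have hw₀ : InV0 L R ((Q v₀)⁻¹ • v₀) := (V0 L R F).smul_mem _ hv₀
  unfold sB
  rw [mv_mul, mv_mul, xB_inl_e88 H j i v₀ hv₀, xB_inr_e_ne88 H j i hij _ hw₀,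
    xB_inl_e88 H j i v₀ hv₀]

/-- the short reflection fixes the other `f_i` -/
theorem sB_f_ne88 (H : HypPairs Q m L R) (j i : Fin m) (hij : i ≠ j) (v₀ : ι → F)
    (hv₀ : InV0 L R v₀) :
    mv ⇑Q (sB Q L R j v₀) (ev L R F (Sum.inr i)) = ev L R F (Sum.inr i) := by
  have hw₀ : InV0 L R ((Q v₀)⁻¹ • v₀) := (V0 L R F).smul_mem _ hv₀
  unfold sB
  rw [mv_mul, mv_mul, xB_inl_f_ne88 H j i hij v₀ hv₀, xB_inr_f88 H j i _ hw₀,
    xB_inl_f_ne88 H j i hij v₀ hv₀]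

end Cfsg.Agent.Helper88.StXB
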