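import Mathlib
import Cfsg.Agent.Helper45.StDefs
import Cfsg.Agent.Helper88.StXBLemmas

/-! helper88: piece RANK1B of CALL S2547 (helper45). -/

set_option autoImplicit false

universe u

namespace Cfsg.Agent.Helper88.StRANK1B

open Cfsg Cfsg.Agent.Helper13 Cfsg.Agent.Helper95.SpBN Cfsg.Agent.Helper45 Cfsg.Agent.Helper45.St
open Cfsg.Agent.Helper88.StXB

variable {ι : Type} [Fintype ι] [DecidableEq ι] {F : Type u} [Field F]
  {Q : QuadraticForm F (ι → F)} {m : ℕ} {L R : Fin m → ι}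

theorem p_RANK1B (H : HypPairs Q m L R) (hB : BCrit Q L R) (v₀ : ι → F) (hv₀ : InV0 L R v₀)
    (hq₀ : Q v₀ ≠ 0) (j : Fin m) (hj : ¬ (j : ℕ) + 1 < m) (v : ι → F) (hv : InV0 L R v)
    (hqv : Q v ≠ 0) :
    ∃ v' : ι → F, InV0 L R v' ∧
      sigE Q L R v₀ j * xB Q L R (Sum.inl j) v * xB Q L R (Sum.inr j) v' ∈ borelO Q L := by
  have hv' : InV0 L R ((Q v)⁻¹ • v) := (V0 L R F).smul_mem _ hv
  refine ⟨(Q v)⁻¹ • v, hv', ?_⟩
  apply hB
  intro i
  have hsig : sigE Q L R v₀ j = sB Q L R j v₀ := by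
    unfold sigE
    rw [if_neg hj]
  rw [hsig, mv_mul, mv_mul]
  by_cases hij : i = j
  · subst hij
    rw [xB_key88 H i v hv hqv, mv_smul, sB_f88 H i v₀ hv₀ hq₀]
    intro c hc
    apply flagP_ev (R := R) (F := F) i c
    intro h0
    apply hc
    rw [Pi.smul_apply, Pi.smul_apply, h0, smul_zero, smul_zero]
  · rw [xB_inr_e_ne88 H j i hij _ hv', xB_inl_e88 H j i v hv, sB_e_ne88 H j i hij v₀ hv₀]
    exact flagP_ev i

end Cfsg.Agent.Helper88.StRANK1B
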