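import Mathlib
import Cfsg.Agent.Helper95.UBNDefs

/-! helper88: piece UNORM of CALL S2546 (helper95). -/

set_option autoImplicit false
open Matrix Cfsg.Agent.Helper95.UBN

namespace Cfsg.Agent.Helper88.UBN

variable {F : Type*} [Field F] {n : ℕ}

/-- the diagonal of a product of upper triangular matrices -/
theorem diag_mul_of_isUp88 (M N : Matrix (Fin n) (Fin n) F) (hM : IsUp M) (hN : IsUp N)
    (a : Fin n) : (M * N) a a = M a a * N a a := by
  rw [Matrix.mul_apply]
  apply Finset.sum_eq_single a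
  · intro k _ hk
    rcases lt_or_gt_of_ne hk with h | h
    · rw [hM a k h, zero_mul]
    · rw [hN k a h, mul_zero]
  · intro h
    exact absurd (Finset.mem_univ a) h

theorem isUp_mul88 (M N : Matrix (Fin n) (Fin n) F) (hM : IsUp M) (hN : IsUp N) :
    IsUp (M * N) := by
  have h1 : M.BlockTriangular id := fun i j h => hM i j h
  have h2 : N.BlockTriangular id := fun i j h => hN i j h
  have h3 := h1.mul h2
  exact fun a b h => h3 h

/-- the inverse of an upper triangular matrix of `SL_n` is upper triangular -/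
theorem isUp_inv88 (b : Matrix.SpecialLinearGroup (Fin n) F) (hb : IsUp b.1) : IsUp (b⁻¹).1 := by
  have h2 : b.1 * (b⁻¹).1 = 1 := by
    have : (b * b⁻¹).1 = 1 := by rw [mul_inv_cancel]; rfl
    exact this
  have h3 : (b.1)⁻¹ = (b⁻¹).1 := Matrix.inv_eq_right_inv h2
  have h2' : (b⁻¹).1 * b.1 = 1 := by
    have : (b⁻¹ * b).1 = 1 := by rw [inv_mul_cancel]; rfl
    exact this
  haveI : Invertible b.1 := ⟨(b⁻¹).1, h2', h2⟩
  have h1 : (b.1).BlockTriangular id := fun i j h => hb i j h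
  have h4 := Matrix.blockTriangular_inv_of_blockTriangular h1
  rw [h3] at h4
  exact fun a c h => h4 h

theorem p_UNORM (b u : Matrix.SpecialLinearGroup (Fin n) F) (hb : IsUp b.1) (hu : IsUp u.1)
    (hu1 : ∀ a, u.1 a a = 1) :
    IsUp (b * u * b⁻¹).1 ∧ ∀ a, (b * u * b⁻¹).1 a a = 1 := by
  have hbi := isUp_inv88 b hb
  have h2 : b.1 * (b⁻¹).1 = 1 := by
    have : (b * b⁻¹).1 = 1 := by rw [mul_inv_cancel]; rfl
    exact this
  have hcoe : (b * u * b⁻¹).1 = b.1 * u.1 * (b⁻¹).1 := rfl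
  have hbu := isUp_mul88 b.1 u.1 hb hu
  refine ⟨?_, fun a => ?_⟩
  · rw [hcoe]
    exact isUp_mul88 _ _ hbu hbi
  · rw [hcoe, diag_mul_of_isUp88 _ _ hbu hbi, diag_mul_of_isUp88 _ _ hb hu, hu1, mul_one,
      ← diag_mul_of_isUp88 _ _ hb hbi, h2, Matrix.one_apply_eq]

end Cfsg.Agent.Helper88.UBN
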