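import Mathlib
import Cfsg.Agent.Helper95.UBNDefs
import Cfsg.Agent.Helper88.UBNUNORM

/-! helper88: piece BUT of CALL S2546 (helper95). -/

set_option autoImplicit false
open Matrix Cfsg.Agent.Helper95.UBN

namespace Cfsg.Agent.Helper88.UBN

variable {F : Type*} [Field F] {n : ℕ}

/-- the diagonal of an upper triangular isometry -/
theorem diag_of_isU_isUp88 (τ : F →+* F) (M : Matrix (Fin n) (Fin n) F) (hM : IsU τ M)
    (hup : IsUp M) (a : Fin n) : τ (M (Fin.rev a) (Fin.rev a)) * M a a = 1 := by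
  have h1 := (isU_iff τ M).1 hM a a
  rw [if_pos rfl] at h1
  rw [← h1]
  symm
  apply Finset.sum_eq_single a
  · intro k _ hk
    rcases lt_or_gt_of_ne hk with h | h
    · have h2 : Fin.rev a < Fin.rev k := Fin.rev_lt_rev.2 h
      rw [hup (Fin.rev k) (Fin.rev a) h2, map_zero, zero_mul]
    · rw [hup k a h, mul_zero]
  · intro h
    exact absurd (Finset.mem_univ a) h

theorem p_BUT (τ : F →+* F) (hτ : ∀ x, τ (τ x) = x)
    (g : Matrix.SpecialLinearGroup (Fin n) F) (hg : g ∈ UG τ n) (hup : IsUp g.1) :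
    ∃ u t : Matrix.SpecialLinearGroup (Fin n) F, u ∈ UG τ n ∧ t ∈ UG τ n ∧ IsUp u.1 ∧
      (∀ a, u.1 a a = 1) ∧ Pat t.1 1 ∧ g = u * t := by
  have hdiag := diag_of_isU_isUp88 τ g.1 hg.1 hup
  have hdet : (Matrix.diagonal fun a => g.1 a a).det = 1 := by
    rw [Matrix.det_diagonal]
    have h1 : (g.1).BlockTriangular id := fun i j h => hup i j h
    rw [← Matrix.det_of_upperTriangular h1]
    exact g.2
  obtain ⟨t, ht⟩ : ∃ t : Matrix.SpecialLinearGroup (Fin n) F,
      t.1 = Matrix.diagonal fun a => g.1 a a := ⟨⟨_, hdet⟩, rfl⟩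
  have htU : t ∈ UG τ n := by
    rw [mem_UG_iff hτ, isU_iff]
    intro a b
    rw [ht]
    rw [Finset.sum_eq_single b]
    · rw [Matrix.diagonal_apply_eq]
      by_cases hab : a = b
      · subst hab
        rw [Matrix.diagonal_apply_eq, if_pos rfl]
        exact hdiag a
      · rw [if_neg hab, Matrix.diagonal_apply_ne _ (fun h => hab (Fin.rev_injective h).symm),
          map_zero, zero_mul]
    · intro k _ hk
      rw [Matrix.diagonal_apply_ne _ hk, mul_zero]
    · intro h
      exact absurd (Finset.mem_univ b) h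
  have htup : IsUp t.1 := by
    intro a b hab
    rw [ht, Matrix.diagonal_apply_ne _ (ne_of_gt hab)]
  have htiup := isUp_inv88 t htup
  have h2 : t.1 * (t⁻¹).1 = 1 := by
    have : (t * t⁻¹).1 = 1 := by rw [mul_inv_cancel]; rfl
    exact this
  refine ⟨g * t⁻¹, t, (UG τ n).mul_mem hg ((UG τ n).inv_mem htU), htU, ?_, ?_, ?_, ?_⟩
  · exact isUp_mul88 _ _ hup htiup
  · intro a
    have hcoe : (g * t⁻¹).1 = g.1 * (t⁻¹).1 := rfl
    rw [hcoe, diag_mul_of_isUp88 _ _ hup htiup]
    have h3 := diag_mul_of_isUp88 _ _ htup htiup a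
    rw [h2, Matrix.one_apply_eq, ht, Matrix.diagonal_apply_eq] at h3
    exact h3.symm
  · intro a b hab
    rw [ht] at hab
    by_contra hne
    exact hab (Matrix.diagonal_apply_ne _ hne)
  · exact (inv_mul_cancel_right g t).symm

end Cfsg.Agent.Helper88.UBN
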