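import Mathlib
import Cfsg.Agent.Helper95.UBNDefs

/-! helper88: piece UPOW of CALL S2546 (helper95). -/

set_option autoImplicit false
open Matrix Cfsg.Agent.Helper95.UBN

namespace Cfsg.Agent.Helper88.UBN

variable {F : Type*} [Field F] {n : ℕ}

/-- powers of a strictly upper triangular matrix -/
theorem pow_strictUp88 (N : Matrix (Fin n) (Fin n) F) (hN : ∀ a b : Fin n, b ≤ a → N a b = 0)
    (k : ℕ) : ∀ a b : Fin n, b.1 < a.1 + k → (N ^ k) a b = 0 := by
  induction k with
  | zero =>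
    intro a b h
    rw [pow_zero, Matrix.one_apply_ne]
    intro hab
    rw [hab] at h
    omega
  | succ k ih =>
    intro a b h
    rw [pow_succ, Matrix.mul_apply]
    apply Finset.sum_eq_zero
    intro c _
    by_cases hc : c.1 < a.1 + k
    · rw [ih a c hc, zero_mul]
    · have hbc : b ≤ c := by
        rw [Fin.le_def]
        omega
      rw [hN c b hbc, mul_zero]

theorem p_UPOW (p : ℕ) [Fact p.Prime] [CharP F p] (u : Matrix.SpecialLinearGroup (Fin n) F)
    (hu : IsUp u.1) (hu1 : ∀ a, u.1 a a = 1) : ∃ k : ℕ, u ^ (p ^ k) = 1 := by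
  rcases Nat.eq_zero_or_pos n with hn0 | hnpos
  · subst hn0
    refine ⟨0, ?_⟩
    apply Subtype.ext
    apply Subsingleton.elim
  haveI : Nonempty (Fin n) := ⟨⟨0, hnpos⟩⟩
  obtain ⟨N, hNdef⟩ : ∃ N : Matrix (Fin n) (Fin n) F, N = u.1 - 1 := ⟨_, rfl⟩
  have hN : ∀ a b : Fin n, b ≤ a → N a b = 0 := by
    intro a b hba
    rw [hNdef, Matrix.sub_apply]
    rcases lt_or_eq_of_le hba with h | h
    · rw [hu a b h, Matrix.one_apply_ne (ne_of_gt h), sub_zero]
    · subst h
      rw [hu1, Matrix.one_apply_eq, sub_self]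
  have hp1 : 1 < p := (Fact.out : p.Prime).one_lt
  have hnk : n ≤ p ^ n := (Nat.lt_pow_self hp1).le
  have hNn : N ^ (p ^ n) = 0 := by
    ext a b
    rw [Matrix.zero_apply]
    apply pow_strictUp88 N hN
    have := b.2
    omega
  refine ⟨n, ?_⟩
  apply Subtype.ext
  rw [Matrix.SpecialLinearGroup.coe_pow]
  have hu' : u.1 = N + 1 := by rw [hNdef, sub_add_cancel]
  show u.1 ^ (p ^ n) = (1 : Matrix (Fin n) (Fin n) F)
  rw [hu', add_pow_char_pow_of_commute p n (Commute.one_right N), hNn,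
    one_pow, zero_add]

end Cfsg.Agent.Helper88.UBN
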